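import Mathlib
import Cfsg.Prelude.Def_GeometricClasses
import Cfsg.Agent.Lib.Helper71.Asch0
import Cfsg.Agent.Lib.Helper86.ASB8Defs
import Cfsg.Agent.Lib.Helper97.ASB8TW2A

/-!
Project SU8 (helper50; S5820), piece TW2F (helper37): a perfect subgroup of a tensor-wreath
subgroup with factors of dimension `2` fixes a non-degenerate bilinear form.
-/

set_option autoImplicit false

namespace Cfsg.Agent.Lib.Helper37.SU8TW2F

open Matrix Cfsg.Geo Cfsg.Agent.Lib.Helper71.Asch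
open scoped commutatorElement

variable {n : ℕ} {F : Type*} [Field F] [Fintype F] {q : ℕ}

/-- the isometry group of a form, as a subgroup of `GL` -/
def su8tw2f_iso (f : (Fin n → F) → (Fin n → F) → F) : Subgroup (GL (Fin n) F) where
  carrier := {g | ∀ u v, f (g.1 *ᵥ u) (g.1 *ᵥ v) = f u v}
  mul_mem' := by
    intro a b ha hb u v
    rw [Units.val_mul, ← Matrix.mulVec_mulVec, ← Matrix.mulVec_mulVec, ha, hb]
  one_mem' := by
    intro u v
    simp
  inv_mem' := by
    intro a ha u v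
    have h := ha ((a⁻¹ : GL (Fin n) F).1 *ᵥ u) ((a⁻¹ : GL (Fin n) F).1 *ᵥ v)
    rw [Matrix.mulVec_mulVec, Matrix.mulVec_mulVec, ← Units.val_mul, mul_inv_cancel,
      Units.val_one, Matrix.one_mulVec, Matrix.one_mulVec] at h
    exact h.symm

omit [Fintype F] in
/-- commutators of similarities are isometries -/
theorem su8tw2f_comm (f : (Fin n → F) → (Fin n → F) → F) (g h : GL (Fin n) F) (cg ch : F)
    (hg : ∀ u v, f (g.1 *ᵥ u) (g.1 *ᵥ v) = cg * f u v)
    (hh : ∀ u v, f (h.1 *ᵥ u) (h.1 *ᵥ v) = ch * f u v) :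
    ⁅g, h⁆ ∈ su8tw2f_iso f := by
  intro u v
  have e1 : ∀ w : Fin n → F, (⁅g, h⁆ : GL (Fin n) F).1 *ᵥ w =
      g.1 *ᵥ (h.1 *ᵥ ((g⁻¹ : GL (Fin n) F).1 *ᵥ ((h⁻¹ : GL (Fin n) F).1 *ᵥ w))) := by
    intro w
    rw [commutatorElement_def]
    simp only [Units.val_mul, Matrix.mulVec_mulVec, mul_assoc]
  have e2 : ∀ w : Fin n → F, g.1 *ᵥ ((g⁻¹ : GL (Fin n) F).1 *ᵥ w) = w := by
    intro w
    rw [Matrix.mulVec_mulVec, ← Units.val_mul, mul_inv_cancel, Units.val_one, Matrix.one_mulVec]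
  have e3 : ∀ w : Fin n → F, h.1 *ᵥ ((h⁻¹ : GL (Fin n) F).1 *ᵥ w) = w := by
    intro w
    rw [Matrix.mulVec_mulVec, ← Units.val_mul, mul_inv_cancel, Units.val_one, Matrix.one_mulVec]
  rw [e1 u, e1 v, hg, hh]
  have h1 := hg ((g⁻¹ : GL (Fin n) F).1 *ᵥ ((h⁻¹ : GL (Fin n) F).1 *ᵥ u))
    ((g⁻¹ : GL (Fin n) F).1 *ᵥ ((h⁻¹ : GL (Fin n) F).1 *ᵥ v))
  rw [e2, e2] at h1
  have h2 := hh ((h⁻¹ : GL (Fin n) F).1 *ᵥ u) ((h⁻¹ : GL (Fin n) F).1 *ᵥ v)
  rw [e3, e3] at h2
  rw [h2, h1]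
  ring

/-- TW2F: a perfect subgroup of a tensor-wreath subgroup with factors of dimension `2` fixes a
non-degenerate bilinear form (the tensor power of the alternating form on `F²`). -/
theorem TW2F {k : ℕ} (hk : 1 ≤ k) (e : Fin n ≃ (Fin k → Fin 2)) (P : GL (Fin n) F)
    (L : Subgroup (GL (Fin n) F)) (hL : L ≤ tensorWreathSubgroup 2 k e P) (hc : ⁅L, L⁆ = L) :
    ∃ f : (Fin n → F) → (Fin n → F) → F, IsBilinearForm f ∧ IsNondegenerateForm f ∧
      FixesForm (matrixSet L) f := by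
  classical
  obtain ⟨f₀, hb, hnd, -, -, hle⟩ := Cfsg.Agent.Lib.Helper97.ASB8TW2A.tw2_std (F := F) hk
  -- the transport map
  set T : (Fin n → F) → ((Fin k → Fin 2) → F) :=
    fun v x => ((P⁻¹ : GL (Fin n) F).1 *ᵥ v) (e.symm x) with hT
  have hTadd : ∀ u v, T (u + v) = T u + T v := by
    intro u v
    funext x
    simp only [hT, Matrix.mulVec_add, Pi.add_apply]
  have hTsmul : ∀ (c : F) v, T (c • v) = c • T v := by
    intro c v
    funext x
    simp only [hT, Matrix.mulVec_smul, Pi.smul_apply]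
  have hTsurj : ∀ w : (Fin k → Fin 2) → F, ∃ v, T v = w := by
    intro w
    refine ⟨P.1 *ᵥ (fun j => w (e j)), ?_⟩
    funext x
    simp only [hT]
    rw [Matrix.mulVec_mulVec, ← Units.val_mul, inv_mul_cancel, Units.val_one, Matrix.one_mulVec,
      Equiv.apply_symm_apply]
  have hTinj : ∀ v, T v = 0 → v = 0 := by
    intro v hv
    have h1 : (P⁻¹ : GL (Fin n) F).1 *ᵥ v = 0 := by
      funext j
      have := congrFun hv (e j)
      simpa [hT] using this
    have h2 : v = P.1 *ᵥ ((P⁻¹ : GL (Fin n) F).1 *ᵥ v) := by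
      rw [Matrix.mulVec_mulVec, ← Units.val_mul, mul_inv_cancel, Units.val_one,
        Matrix.one_mulVec]
    rw [h2, h1, Matrix.mulVec_zero]
  -- the form
  set f : (Fin n → F) → (Fin n → F) → F := fun u v => f₀ (T u) (T v) with hf
  have hfb : IsBilinearForm f := by
    refine ⟨?_, ?_, ?_, ?_⟩
    · intro x y v
      simp only [hf, hTadd]
      exact hb.add_left _ _ _
    · intro c x v
      simp only [hf, hTsmul]
      exact hb.smul_left _ _ _
    · intro v x y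
      simp only [hf, hTadd]
      exact hb.add_right _ _ _
    · intro c v x
      simp only [hf, hTsmul]
      exact hb.smul_right _ _ _
  have hfnd : IsNondegenerateForm f := by
    intro v hv
    have hTv : T v ≠ 0 := fun h => hv (hTinj v h)
    obtain ⟨⟨x, hx⟩, ⟨y, hy⟩⟩ := hnd (T v) hTv
    obtain ⟨x', rfl⟩ := hTsurj x
    obtain ⟨y', rfl⟩ := hTsurj y
    exact ⟨⟨x', hx⟩, ⟨y', hy⟩⟩
  -- the similarity property
  have hsim : ∀ g ∈ tensorWreathSubgroup 2 k e P, ∃ c : Fˣ, ∀ u v,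
      f (g.1 *ᵥ u) (g.1 *ᵥ v) = (c : F) * f u v := by
    intro g hg
    unfold tensorWreathSubgroup at hg
    obtain ⟨_, ⟨g₀, hg₀, rfl⟩, rfl⟩ := hg
    obtain ⟨c, hc⟩ := hle hg₀
    refine ⟨c, fun u v => ?_⟩
    have key : ∀ v, T (((MulAut.conj P).toMonoidHom
        ((glReindex e.symm).toMonoidHom g₀)).1 *ᵥ v) = g₀.1 *ᵥ T v := by
      intro v
      have h2 : ((glReindex e.symm g₀ : GL (Fin n) F) : Matrix (Fin n) (Fin n) F) =
          Matrix.reindexAlgEquiv F F e.symm (g₀ : Matrix (Fin k → Fin 2) (Fin k → Fin 2) F) := rfl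
      have h3 : ((MulAut.conj P).toMonoidHom ((glReindex e.symm).toMonoidHom g₀)).1 =
          P.1 * Matrix.reindexAlgEquiv F F e.symm g₀.1 * (P⁻¹ : GL (Fin n) F).1 := by
        show (P * glReindex e.symm g₀ * P⁻¹ : GL (Fin n) F).1 = _
        rw [Units.val_mul, Units.val_mul, h2]
      rw [h3]
      funext x
      simp only [hT]
      rw [Matrix.mulVec_mulVec, ← mul_assoc, ← mul_assoc, ← Units.val_mul, inv_mul_cancel,
        Units.val_one, one_mul, ← Matrix.mulVec_mulVec]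
      simp only [Matrix.mulVec, dotProduct, Matrix.coe_reindexAlgEquiv, Matrix.reindex_apply,
        Matrix.submatrix_apply, Equiv.symm_symm, Equiv.apply_symm_apply]
      exact Fintype.sum_equiv e _ _ (fun j => by simp)
    show f₀ (T _) (T _) = c * f₀ (T u) (T v)
    rw [key, key, hc]
  -- commutators are isometries
  have hcomm : ⁅L, L⁆ ≤ su8tw2f_iso f := by
    rw [Subgroup.commutator_le]
    intro g hg h hh
    obtain ⟨cg, hcg⟩ := hsim g (hL hg)
    obtain ⟨ch, hch⟩ := hsim h (hL hh)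
    exact su8tw2f_comm f g h cg ch hcg hch
  rw [hc] at hcomm
  refine ⟨f, hfb, hfnd, ?_⟩
  rintro s ⟨g, hg, rfl⟩ u v
  exact hcomm hg u v

end Cfsg.Agent.Lib.Helper37.SU8TW2F
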