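import Mathlib

set_option autoImplicit false

/-!
# B&G 13.3(a), piece P27Z (for helper3): two pure lemmas
-/

namespace Cfsg.Agent.Lib.Helper37.BG13

universe u

variable {G : Type u} [Group G] [Finite G]

theorem le_normalizer_inf_centralizer {N X T : Subgroup G}
    (hTN : T ≤ Subgroup.normalizer (N : Set G)) (hTX : T ≤ Subgroup.normalizer (X : Set G)) :
    T ≤ Subgroup.normalizer ((N ⊓ Subgroup.centralizer (X : Set G) : Subgroup G) : Set G) := by
  have key : ∀ t ∈ T, ∀ y ∈ N ⊓ Subgroup.centralizer (X : Set G),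
      t * y * t⁻¹ ∈ N ⊓ Subgroup.centralizer (X : Set G) := by
    intro t ht y hy
    obtain ⟨hyN, hyC⟩ := Subgroup.mem_inf.mp hy
    refine Subgroup.mem_inf.mpr ⟨(Subgroup.mem_normalizer_iff.mp (hTN ht) y).mp hyN, ?_⟩
    rw [Subgroup.mem_centralizer_iff]
    intro x hx
    -- t⁻¹ x t ∈ X commutes with y
    have hx' : t⁻¹ * x * t ∈ X := by
      have := (Subgroup.mem_normalizer_iff.mp (Subgroup.inv_mem _ (hTX ht)) x).mp hx
      rw [inv_inv] at this
      exact this
    have hc := Subgroup.mem_centralizer_iff.mp hyC (t⁻¹ * x * t) hx'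
    -- hc : (t⁻¹ * x * t) * y = y * (t⁻¹ * x * t)
    calc x * (t * y * t⁻¹) = t * ((t⁻¹ * x * t) * y) * t⁻¹ := by group
      _ = t * (y * (t⁻¹ * x * t)) * t⁻¹ := by rw [hc]
      _ = t * y * t⁻¹ * x := by group
  intro t ht
  rw [Subgroup.mem_normalizer_iff]
  intro y
  constructor
  · exact key t ht y
  · intro h
    have := key t⁻¹ (T.inv_mem ht) _ h
    have e : t⁻¹ * (t * y * t⁻¹) * t⁻¹⁻¹ = y := by group
    rw [e] at this
    exact this

theorem coprime_card_sup {Y T : Subgroup G} (hTY : T ≤ Subgroup.normalizer (Y : Set G)) {n : ℕ}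
    (hY : (Nat.card Y).Coprime n) (hT : (Nat.card T).Coprime n) :
    (Nat.card ↥(Y ⊔ T)).Coprime n := by
  have hdvd : Nat.card ↥(Y ⊔ T) ∣ Nat.card Y * Nat.card T := by
    have h1 : Nat.card ↥(Y ⊔ T) = Nat.card Y * (Y.relIndex (Y ⊔ T)) := by
      rw [Subgroup.relIndex]
      rw [← Subgroup.card_mul_index (Y.subgroupOf (Y ⊔ T))]
      congr 1
      exact Nat.card_congr (Subgroup.subgroupOfEquivOfLe le_sup_left).toEquiv
    have h2 : Y.relIndex (Y ⊔ T) = Y.relIndex T := by
      have hYM : Y ≤ Subgroup.normalizer (Y : Set G) := Subgroup.le_normalizer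
      have hS : Y ⊔ T ≤ Subgroup.normalizer (Y : Set G) := sup_le hYM hTY
      rw [← Subgroup.relIndex_subgroupOf hS, ← Subgroup.relIndex_subgroupOf hTY,
        Subgroup.subgroupOf_sup hYM hTY]
      exact Subgroup.relIndex_sup_left _ _
    have h3 : Y.relIndex T ∣ Nat.card T := Subgroup.relIndex_dvd_card Y T
    rw [h1, h2]
    exact Nat.mul_dvd_mul_left _ h3
  exact Nat.Coprime.coprime_dvd_left hdvd (Nat.Coprime.mul_left hY hT)

end Cfsg.Agent.Lib.Helper37.BG13
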