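import Mathlib

set_option autoImplicit false

/-! # A simplicity criterion from the suborbit lengths of an action with simple point stabiliser -/

namespace Cfsg.Agent.Lib.Helper37

/-- All sums of sublists. -/
def subSums : List ℕ → List ℕ
  | [] => [0]
  | n :: l => subSums l ++ (subSums l).map (· + n)

/-- A set that is a union of some of finitely many pairwise disjoint sets has a sub-sum of their
sizes as its size. -/
theorem ncard_mem_subSums {α : Type*} : ∀ (Os : List (Set α × ℕ)) (T : Set α), T.Finite →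
    (∀ p ∈ Os, p.1.ncard = p.2) →
    Os.Pairwise (fun p q => Disjoint p.1 q.1) →
    (∀ y ∈ T, ∃ p ∈ Os, y ∈ p.1) →
    (∀ p ∈ Os, (∃ y ∈ T, y ∈ p.1) → p.1 ⊆ T) →
    T.ncard ∈ subSums (Os.map Prod.snd)
  | [], T, _, _, _, hT, _ => by
    have : T = ∅ := Set.eq_empty_of_forall_notMem (fun y hy => by
      obtain ⟨p, hp, _⟩ := hT y hy
      simp at hp)
    subst this
    simp [subSums]
  | p :: Os, T, hTf, hcard, hdisj, hT, hall => by
    rw [List.pairwise_cons] at hdisj
    have ih := ncard_mem_subSums Os (T \ p.1) (hTf.sdiff)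
      (fun q hq => hcard q (List.mem_cons_of_mem _ hq)) hdisj.2
      (by
        intro y hy
        obtain ⟨q, hq, hyq⟩ := hT y hy.1
        rcases List.mem_cons.mp hq with rfl | hq
        · exact absurd hyq hy.2
        · exact ⟨q, hq, hyq⟩)
      (by
        rintro q hq ⟨y, hy, hyq⟩
        have h1 := hall q (List.mem_cons_of_mem _ hq) ⟨y, hy.1, hyq⟩
        intro z hz
        exact ⟨h1 hz, fun hzp => Set.disjoint_left.mp (hdisj.1 q hq) hzp hz⟩)
    simp only [List.map_cons, subSums, List.mem_append, List.mem_map]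
    by_cases h : ∃ y ∈ T, y ∈ p.1
    · right
      have hsub := hall p List.mem_cons_self h
      refine ⟨(T \ p.1).ncard, ih, ?_⟩
      rw [← hcard p List.mem_cons_self]
      exact Set.ncard_sdiff_add_ncard_of_subset hsub hTf
    · left
      have e : T \ p.1 = T := by
        ext y
        constructor
        · exact fun hy => hy.1
        · exact fun hy => ⟨hy, fun hyp => h ⟨y, hy, hyp⟩⟩
      rw [e] at ih
      exact ih

/-- Orbit-stabiliser for a subgroup of a group acting on a type. -/
theorem card_eq_orbit_mul_inf {G X : Type*} [Group G] [MulAction G X] (H : Subgroup G)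
    (b : X) :
    Nat.card H = (MulAction.orbit H b).ncard * Nat.card ↥(H ⊓ MulAction.stabilizer G b) := by
  have h1 := Subgroup.card_mul_index (MulAction.stabilizer H b)
  rw [MulAction.index_stabilizer] at h1
  have h2 : MulAction.stabilizer H b = (MulAction.stabilizer G b).subgroupOf H := by
    ext x
    rw [Subgroup.mem_subgroupOf, MulAction.mem_stabilizer_iff, MulAction.mem_stabilizer_iff]
    rfl
  have h3 : Nat.card (MulAction.stabilizer H b) =
      Nat.card ↥(H ⊓ MulAction.stabilizer G b) := by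
    rw [h2, ← Subgroup.inf_subgroupOf_right, inf_comm]
    exact Nat.card_congr (Subgroup.subgroupOfEquivOfLe inf_le_left).toEquiv
  rw [← h1, h3, mul_comm]

/-- A finite group acting with a simple point stabiliser `K`, faithfully on the orbit of the
point, is simple, if the sizes of the `K`-invariant subsets of the orbit containing the point
satisfy the divisibility conditions and a regular normal subgroup is excluded. -/
theorem simple_of_suborbits {G X : Type*} [Group G] [Finite G] [MulAction G X] (x0 : X)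
    (hfaith : ∀ n : G, (∀ g : G, n • g • x0 = g • x0) → n = 1)
    (hK : IsSimpleGroup (MulAction.stabilizer G x0))
    (L : List ℕ) (m : ℕ)
    (hinv : ∀ S : Set X, x0 ∈ S → S ⊆ MulAction.orbit G x0 →
      (∀ k ∈ MulAction.stabilizer G x0, ∀ s ∈ S, k • s ∈ S) → S.ncard ∈ L)
    (hm : (MulAction.orbit G x0).ncard = m) (hm1 : 1 < m)
    (hL1 : ∀ s ∈ L, s ∣ m → s = 1 ∨ s = m)
    (hL2 : ∀ s ∈ L, s ∣ Nat.card G → s = 1 ∨ s = m)
    (hreg : ∀ N : Subgroup G, N.Normal → Nat.card N = m →
      ∃ P : Subgroup G, P.Normal ∧ P ≤ N ∧ Nat.card P ∉ L) : IsSimpleGroup G := by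
  have horb : ∀ N : Subgroup G, N.Normal → (MulAction.orbit N x0).ncard ∈ L := by
    intro N hN
    apply hinv
    · exact MulAction.mem_orbit_self x0
    · rintro _ ⟨n, rfl⟩
      exact ⟨(n : G), rfl⟩
    · rintro k hk _ ⟨n, rfl⟩
      refine ⟨⟨k * n * k⁻¹, hN.conj_mem n n.2 k⟩, ?_⟩
      show (k * (n : G) * k⁻¹) • x0 = k • ((n : G) • x0)
      have h1 : k⁻¹ • x0 = x0 := (MulAction.stabilizer G x0).inv_mem hk
      rw [mul_smul, mul_smul, h1]
  have hcardN : ∀ N : Subgroup G, Nat.card N =
      (MulAction.orbit N x0).ncard * Nat.card ↥(N ⊓ MulAction.stabilizer G x0) :=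
    fun N => card_eq_orbit_mul_inf N x0
  have hG : Nat.card G = m * Nat.card (MulAction.stabilizer G x0) := by
    have h1 := Subgroup.index_mul_card (MulAction.stabilizer G x0)
    rw [MulAction.index_stabilizer, hm] at h1
    exact h1.symm
  have htriv : ∀ N : Subgroup G, N.Normal → (MulAction.orbit N x0).ncard = 1 → N = ⊥ := by
    intro N hN h1
    rw [Set.ncard_eq_one] at h1
    obtain ⟨y, hy⟩ := h1
    have hfix : ∀ n ∈ N, n • x0 = x0 := by
      intro n hn
      have h2 : n • x0 ∈ MulAction.orbit N x0 := ⟨⟨n, hn⟩, rfl⟩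
      have h3 : x0 ∈ MulAction.orbit N x0 := MulAction.mem_orbit_self x0
      rw [hy, Set.mem_singleton_iff] at h2 h3
      rw [h2, h3]
    rw [Subgroup.eq_bot_iff_forall]
    intro n hn
    apply hfaith
    intro g
    have h4 : n * g = g * (g⁻¹ * n * g) := by group
    have h5 : g⁻¹ * n * g ∈ N := by
      have := hN.conj_mem n hn g⁻¹
      simpa using this
    rw [← mul_smul, h4, mul_smul, hfix _ h5]
  have hdisj : ∀ N : Subgroup G, N.Normal → N ⊓ MulAction.stabilizer G x0 = ⊥ →
      Nat.card N ∈ L := by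
    intro N hN hNK
    have h1 := hcardN N
    rw [hNK, Subgroup.card_bot, mul_one] at h1
    rw [h1]
    exact horb N hN
  have hKpos : 0 < Nat.card (MulAction.stabilizer G x0) := Nat.card_pos
  have : Nontrivial G := Finite.one_lt_card_iff_nontrivial.mp (by
    rw [hG]
    calc 1 < m := hm1
      _ ≤ m * Nat.card (MulAction.stabilizer G x0) := Nat.le_mul_of_pos_right m hKpos)
  refine ⟨fun N hN => ?_⟩
  have hsub : (N.subgroupOf (MulAction.stabilizer G x0)).Normal := hN.subgroupOf _
  rcases hsub.eq_bot_or_eq_top with h | h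
  · rw [Subgroup.subgroupOf_eq_bot, disjoint_iff] at h
    have hNL := hdisj N hN h
    rcases hL2 _ hNL N.card_subgroup_dvd_card with h1 | h1
    · exact Or.inl (Subgroup.eq_bot_of_card_eq N h1)
    · exfalso
      obtain ⟨P, hPn, hPN, hPL⟩ := hreg N hN h1
      exact hPL (hdisj P hPn (le_bot_iff.mp (h ▸ inf_le_inf_right _ hPN)))
  · rw [Subgroup.subgroupOf_eq_top] at h
    have h1 := hcardN N
    rw [inf_eq_right.mpr h] at h1
    have hdvd := N.card_subgroup_dvd_card
    rw [h1, hG] at hdvd
    have hdvd' : (MulAction.orbit N x0).ncard ∣ m := Nat.dvd_of_mul_dvd_mul_right hKpos hdvd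
    rcases hL1 _ (horb N hN) hdvd' with h2 | h2
    · exfalso
      have h3 := htriv N hN h2
      rw [h3] at h
      have h4 : MulAction.stabilizer G x0 = ⊥ := le_bot_iff.mp h
      obtain ⟨⟨a, ha⟩, ⟨b, hb⟩, hab⟩ := exists_pair_ne ↥(MulAction.stabilizer G x0)
      have ha' : a ∈ (⊥ : Subgroup G) := h4 ▸ ha
      have hb' : b ∈ (⊥ : Subgroup G) := h4 ▸ hb
      rw [Subgroup.mem_bot] at ha' hb'
      exact hab (Subtype.ext (ha'.trans hb'.symm))
    · right
      apply Subgroup.eq_top_of_card_eq
      rw [h1, h2, hG]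

/-- In a group of order `2 * m` with `m` odd the elements of order dividing `m` form a subgroup
of order `m`. -/
theorem exists_odd_half {N : Type*} [Group N] [Finite N] (m : ℕ) (hm : Odd m)
    (hN : Nat.card N = 2 * m) :
    ∃ M : Subgroup N, Nat.card M = m ∧ ∀ q : N, q ^ m = 1 → q ∈ M := by
  have hm0 : 0 < m := hm.pos
  have hmin : (Nat.card N).minFac = 2 := by
    rw [Nat.minFac_eq_two_iff, hN]
    exact dvd_mul_right 2 m
  have : Fact (Nat.Prime 2) := ⟨Nat.prime_two⟩
  obtain ⟨P⟩ : Nonempty (Sylow 2 N) := Sylow.nonempty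
  have hP : Nat.card P = 2 := by
    obtain ⟨k, hk⟩ := IsPGroup.iff_card.mp P.isPGroup'
    have h1 : Nat.card P ∣ 2 * m := hN ▸ (P : Subgroup N).card_subgroup_dvd_card
    have h2 : 2 ^ 1 ∣ Nat.card P := P.pow_dvd_card_of_pow_dvd_card (by rw [hN]; simp)
    rw [hk] at h1 h2 ⊢
    have hk2 : k < 2 := by
      by_contra hcon
      have h3 : 2 ^ 2 ∣ 2 ^ k := pow_dvd_pow 2 (by omega)
      have h4 := h3.trans h1
      obtain ⟨r, hr⟩ := hm
      omega
    interval_cases k
    · norm_num at h2
    · norm_num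
  have hcyc : IsCyclic P := isCyclic_of_prime_card hP
  have hcomp := IsCyclic.isComplement' hmin hcyc
  set M := (MonoidHom.transferSylow P (hcyc.normalizer_le_centralizer hmin)).ker with hM
  have hcard : Nat.card M * Nat.card P = Nat.card N := hcomp.card_mul_card
  have hMm : Nat.card M = m := by
    rw [hP, hN] at hcard
    omega
  have hidx : M.index = 2 := by
    have h1 := Subgroup.card_mul_index M
    rw [hMm, hN] at h1
    have : m * M.index = m * 2 := by rw [h1]; ring
    exact Nat.eq_of_mul_eq_mul_left hm0 this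
  refine ⟨M, hMm, fun q hq => ?_⟩
  obtain ⟨r, hr⟩ := hm
  have h2 : q * q ∈ M := Subgroup.mul_self_mem_of_index_two hidx q
  have e : q = (q * q) ^ (r + 1) * (q ^ m)⁻¹ := by
    rw [hq, inv_one, mul_one, ← pow_two, ← pow_mul]
    have : 2 * (r + 1) = m + 1 := by omega
    rw [this, pow_succ, hq, one_mul]
  rw [e, hq, inv_one, mul_one]
  exact M.pow_mem h2 _

/-- A normal subgroup of order `2 * m` with `m` odd contains a subgroup of order `m` normal in
the whole group. -/
theorem normal_odd_half {G : Type*} [Group G] [Finite G] (N : Subgroup G) [hNn : N.Normal]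
    (m : ℕ) (hm : Odd m) (hN : Nat.card N = 2 * m) :
    ∃ P : Subgroup G, P.Normal ∧ P ≤ N ∧ Nat.card P = m := by
  obtain ⟨M, hMm, hM⟩ := exists_odd_half (N := N) m hm hN
  refine ⟨M.map N.subtype, ⟨?_⟩, Subgroup.map_subtype_le _, ?_⟩
  · rintro _ ⟨x, hx, rfl⟩ g
    have hx' : (x : G) ∈ N := x.2
    have hc : g * (x : G) * g⁻¹ ∈ N := hNn.conj_mem _ hx' g
    refine ⟨⟨g * (x : G) * g⁻¹, hc⟩, ?_, rfl⟩
    apply hM
    have hxm : x ^ m = 1 := by
      have := pow_card_eq_one' (G := M) (x := ⟨x, hx⟩)
      rw [hMm] at this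
      have h2 := congrArg (fun y : M => (y : N)) this
      simpa using h2
    apply Subtype.ext
    show (g * (x : G) * g⁻¹) ^ m = 1
    rw [conj_pow]
    have h3 : ((x ^ m : N) : G) = 1 := by rw [hxm]; rfl
    rw [Subgroup.coe_pow] at h3
    rw [h3, mul_one, mul_inv_cancel]
  · rw [← hMm]
    exact (Nat.card_congr (M.equivMapOfInjective N.subtype N.subtype_injective).toEquiv).symm

end Cfsg.Agent.Lib.Helper37
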