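import Mathlib
import Cfsg.Prelude.Def_Sporadic_a
import Cfsg.Agent.Lib.Helper9.Golay
import Cfsg.Agent.Lib.Helper10.LeechStruct
import Cfsg.Agent.Lib.Helper10.LeechCountNum
import Cfsg.Agent.Lib.Helper10.Xi
import Cfsg.Agent.Lib.Helper10.Lambda2

set_option autoImplicit false

/-! # The minimal vectors of the Leech lattice by shape

Every lattice vector of squared length 32 is `ofN (f3N μ k)` (shape `(∓3, ±1^23)`),
`ofN (f2N μ S)` (shape `(±2^8)`) or `ofN (f1N i j a b)` (shape `(±4, ±4)`). -/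

namespace Cfsg.Agent.Lib.Helper37

open Cfsg Cfsg.Agent.Lib.Helper9 Cfsg.Agent.Lib.Helper10

/-- The vector given by a function of the index. -/
def ofN (f : ℕ → ℤ) : GolayPt → ℤ := fun q => f (idx q)

/-- Shape `(∓3, ±1^23)`: signs from the mask `μ`, the entry of absolute value 3 at `k`. -/
def f3N (μ k c : ℕ) : ℤ := (if μ.testBit c then -1 else 1) * (if c = k then -3 else 1)

/-- The positions of the mask `μ`. -/
def posL (μ : ℕ) : List ℕ := (List.range 24).filter (fun c => μ.testBit c)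

/-- Shape `(±2^8)`: support the mask `μ`, minus signs at the positions in `S`. -/
def f2N (μ : ℕ) (S : List ℕ) (c : ℕ) : ℤ := if μ.testBit c then (if c ∈ S then -2 else 2) else 0

/-- Shape `(±4, ±4)`. -/
def f1N (i j : ℕ) (a b : ℤ) (c : ℕ) : ℤ := if c = i then a else if c = j then b else 0

theorem mem_posL {μ c : ℕ} : c ∈ posL μ ↔ c < 24 ∧ μ.testBit c = true := by
  simp [posL]

theorem nodup_posL (μ : ℕ) : (posL μ).Nodup := List.Nodup.filter _ List.nodup_range

theorem sum_range_list (n : ℕ) (g : ℕ → ℤ) :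
    ∑ c ∈ Finset.range n, g c = ((List.range n).map g).sum := by
  induction n with
  | zero => simp
  | succ n ih => rw [Finset.sum_range_succ, ih, List.range_succ, List.map_append, List.sum_append]; simp

theorem length_posL (μ : ℕ) : (posL μ).length = popc μ := by
  rw [popc_eq, posL, ← List.toFinset_card_of_nodup (List.Nodup.filter _ List.nodup_range)]
  congr 1
  ext c
  simp

theorem sum_f2N {μ : ℕ} {S : List ℕ} (hS : S.Sublist (posL μ)) :
    ∑ c ∈ Finset.range 24, f2N μ S c = 2 * (posL μ).length - 4 * S.length := by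
  classical
  have hSn : S.Nodup := (nodup_posL μ).sublist hS
  have e1 : ∀ c ∈ Finset.range 24, f2N μ S c
      = (if c ∈ (posL μ).toFinset then (2 : ℤ) else 0) - (if c ∈ S.toFinset then (4 : ℤ) else 0) := by
    intro c hc
    rw [Finset.mem_range] at hc
    unfold f2N
    by_cases hb : μ.testBit c = true
    · have h1 : c ∈ (posL μ).toFinset := by rw [List.mem_toFinset, mem_posL]; exact ⟨hc, hb⟩
      rw [if_pos hb, if_pos h1]
      by_cases hs : c ∈ S
      · rw [if_pos hs, if_pos (List.mem_toFinset.mpr hs)]; norm_num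
      · rw [if_neg hs, if_neg (by rwa [List.mem_toFinset])]; norm_num
    · have h1 : c ∉ (posL μ).toFinset := by
        rw [List.mem_toFinset, mem_posL]; exact fun h => hb h.2
      have h2 : c ∉ S.toFinset := by
        rw [List.mem_toFinset]; exact fun h => h1 (List.mem_toFinset.mpr (hS.subset h))
      rw [if_neg hb, if_neg h1, if_neg h2]; norm_num
  rw [Finset.sum_congr rfl e1, Finset.sum_sub_distrib, Finset.sum_ite_mem, Finset.sum_ite_mem,
    Finset.sum_const, Finset.sum_const]
  have h3 : Finset.range 24 ∩ (posL μ).toFinset = (posL μ).toFinset := by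
    apply Finset.inter_eq_right.mpr
    intro c hc
    rw [List.mem_toFinset, mem_posL] at hc
    exact Finset.mem_range.mpr hc.1
  have h4 : Finset.range 24 ∩ S.toFinset = S.toFinset := by
    apply Finset.inter_eq_right.mpr
    intro c hc
    rw [List.mem_toFinset] at hc
    exact Finset.mem_range.mpr (mem_posL.mp (hS.subset hc)).1
  rw [h3, h4, List.toFinset_card_of_nodup (nodup_posL μ), List.toFinset_card_of_nodup hSn]
  simp only [nsmul_eq_mul]
  ring

theorem sum_ofN (f : ℕ → ℤ) : ∑ q : GolayPt, ofN f q = ∑ c ∈ Finset.range 24, f c :=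
  sum_idx f

theorem odd_sq_cases {a : ℤ} (h : a % 2 = 1) : a ^ 2 = 1 ∨ 9 ≤ a ^ 2 := by
  have h' : a = 1 ∨ a = -1 ∨ 3 ≤ a ∨ a ≤ -3 := by omega
  rcases h' with h | h | h | h
  · left; rw [h]; norm_num
  · left; rw [h]; norm_num
  · right; nlinarith
  · right; nlinarith

theorem sq_eq_cases {a : ℤ} (n : ℤ) (h : a ^ 2 = n ^ 2) : a = n ∨ a = -n := by
  have h' : (a - n) * (a + n) = 0 := by ring_nf; ring_nf at h; omega
  rcases mul_eq_zero.mp h' with h | h
  · left; omega
  · right; omega

theorem min_two {x : GolayPt → ℤ} (hn : sqNorm x = 32) (h4 : ∀ i, x i % 4 = 0) :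
    ∃ i j, i < j ∧ j < 24 ∧ ∃ a b : ℤ, (a = 4 ∨ a = -4) ∧ (b = 4 ∨ b = -4) ∧
      x = ofN (f1N i j a b) := by
  classical
  obtain ⟨F, hF⟩ : ∃ F : Finset GolayPt, F = Finset.univ.filter (fun i => x i ≠ 0) := ⟨_, rfl⟩
  have hmemF : ∀ i, i ∈ F ↔ x i ≠ 0 := fun i => by rw [hF, Finset.mem_filter]; simp
  have hsum : ∑ i ∈ F, x i ^ 2 = 32 := by
    rw [← hn, sqNorm, hF]
    apply Finset.sum_filter_of_ne
    intro i _ h
    exact fun h0 => h (by rw [h0]; norm_num)
  have hge : ∀ i ∈ F, 16 ≤ x i ^ 2 := fun i hi => sq_ge_16 (h4 i) ((hmemF i).mp hi)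
  have hcard := Finset.card_nsmul_le_sum F (fun i => x i ^ 2) 16 hge
  rw [hsum] at hcard
  have hc2 : F.card ≤ 2 := by
    have : (F.card : ℤ) * 16 ≤ 32 := by simpa [nsmul_eq_mul] using hcard
    omega
  have hc0 : F.card ≠ 0 := by
    intro h0
    rw [Finset.card_eq_zero] at h0
    rw [h0, Finset.sum_empty] at hsum
    norm_num at hsum
  have hc1 : F.card ≠ 1 := by
    intro h1
    obtain ⟨j, hj⟩ := Finset.card_eq_one.mp h1
    rw [hj, Finset.sum_singleton] at hsum
    have hb1 : -6 < x j := by nlinarith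
    have hb2 : x j < 6 := by nlinarith
    have h4j := h4 j
    generalize x j = t at hsum hb1 hb2 h4j
    interval_cases t <;> omega
  have hc : F.card = 2 := by omega
  obtain ⟨i, j, hij, hFe⟩ := Finset.card_eq_two.mp hc
  rw [hFe, Finset.sum_pair hij] at hsum
  have hi : 16 ≤ x i ^ 2 := hge i (by rw [hFe]; exact Finset.mem_insert_self _ _)
  have hj : 16 ≤ x j ^ 2 :=
    hge j (by rw [hFe]; exact Finset.mem_insert_of_mem (Finset.mem_singleton_self _))
  have hi' : x i = 4 ∨ x i = -4 := sq_eq_cases 4 (by omega)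
  have hj' : x j = 4 ∨ x j = -4 := sq_eq_cases 4 (by omega)
  have h0 : ∀ q, q ≠ i → q ≠ j → x q = 0 := by
    intro q hqi hqj
    by_contra hq
    have hqF : q ∈ F := (hmemF q).mpr hq
    rw [hFe, Finset.mem_insert, Finset.mem_singleton] at hqF
    rcases hqF with h | h
    · exact hqi h
    · exact hqj h
  have hne : idx i ≠ idx j := fun h => hij (idx_injective h)
  have key : ∀ i j : GolayPt, i ≠ j → (∀ q, q ≠ i → q ≠ j → x q = 0) →
      x = ofN (f1N (idx i) (idx j) (x i) (x j)) := by
    intro i j hij h0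
    funext q
    unfold ofN f1N
    by_cases hqi : q = i
    · rw [hqi, if_pos rfl]
    · have e1 : idx q ≠ idx i := fun h => hqi (idx_injective h)
      rw [if_neg e1]
      by_cases hqj : q = j
      · rw [hqj, if_pos rfl]
      · have e2 : idx q ≠ idx j := fun h => hqj (idx_injective h)
        rw [if_neg e2, h0 q hqi hqj]
  rcases Nat.lt_or_gt_of_ne hne with hlt | hlt
  · exact ⟨idx i, idx j, hlt, idx_lt j, x i, x j, hi', hj', key i j hij h0⟩
  · exact ⟨idx j, idx i, hlt, idx_lt i, x j, x i, hj', hi',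
      key j i (Ne.symm hij) (fun q h1 h2 => h0 q h2 h1)⟩

theorem min_oct {x : GolayPt → ℤ} {μ : ℕ} (hn : sqNorm x = 32)
    (hlow : ∀ q : GolayPt, (if μ.testBit (idx q) then (4 : ℤ) else 0) ≤ x q ^ 2)
    (hsumw : ∑ q : GolayPt, (if μ.testBit (idx q) then (4 : ℤ) else 0) = 4 * popc μ)
    (hp : popc μ = 8) (hsum8 : (∑ i, x i) % 8 = 0) :
    ∃ S : List ℕ, S.Sublist (posL μ) ∧ S.length % 2 = 0 ∧ x = ofN (f2N μ S) := by
  classical
  have hzero : ∑ q : GolayPt, (x q ^ 2 - (if μ.testBit (idx q) then (4 : ℤ) else 0)) = 0 := by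
    rw [Finset.sum_sub_distrib, hsumw, hp]
    have : ∑ q : GolayPt, x q ^ 2 = 32 := hn
    rw [this]; norm_num
  have hall := (Finset.sum_eq_zero_iff_of_nonneg
    (fun q _ => sub_nonneg.mpr (hlow q))).mp hzero
  have hval : ∀ q : GolayPt, x q ^ 2 = if μ.testBit (idx q) then (4 : ℤ) else 0 := by
    intro q
    have := hall q (Finset.mem_univ q)
    omega
  obtain ⟨S, hS⟩ : ∃ S : List ℕ, S = (posL μ).filter (fun c => decide (x (pt c) = -2)) :=
    ⟨_, rfl⟩
  have hSsub : S.Sublist (posL μ) := by rw [hS]; exact List.filter_sublist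
  have hxe : x = ofN (f2N μ S) := by
    funext q
    unfold ofN f2N
    have hv := hval q
    by_cases hb : μ.testBit (idx q) = true
    · rw [if_pos hb] at hv ⊢
      have h2 : x q = 2 ∨ x q = -2 := sq_eq_cases 2 (by rw [hv]; norm_num)
      have hmem : idx q ∈ S ↔ x q = -2 := by
        rw [hS, List.mem_filter, mem_posL, pt_idx]
        simp only [decide_eq_true_eq]
        exact ⟨fun h => h.2, fun h => ⟨⟨idx_lt q, hb⟩, h⟩⟩
      rcases h2 with h2 | h2
      · rw [if_neg (fun h => by rw [hmem.mp h] at h2; norm_num at h2), h2]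
      · rw [if_pos (hmem.mpr h2), h2]
    · rw [if_neg hb] at hv ⊢
      exact pow_eq_zero_iff (two_ne_zero) |>.mp hv
  refine ⟨S, hSsub, ?_, hxe⟩
  have hs : (∑ i, x i) = 2 * (posL μ).length - 4 * S.length := by
    rw [hxe, sum_ofN, sum_f2N hSsub]
  rw [hs, length_posL, hp] at hsum8
  push_cast at hsum8
  omega

theorem min_odd {x : GolayPt → ℤ} {μ : ℕ} (hn : sqNorm x = 32)
    (hmod' : ∀ i, x i % 4 = 1 + 2 * bitZ μ i) :
    ∃ k < 24, x = ofN (f3N μ k) := by
  classical
  have hodd : ∀ i, x i % 2 = 1 := by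
    intro i
    have := hmod' i
    rcases bitZ_cases μ i with ⟨-, hz⟩ | ⟨-, hz⟩ <;> rw [hz] at this <;> omega
  obtain ⟨F, hF⟩ : ∃ F : Finset GolayPt, F = Finset.univ.filter (fun i => x i ^ 2 ≠ 1) :=
    ⟨_, rfl⟩
  have hmemF : ∀ i, i ∈ F ↔ x i ^ 2 ≠ 1 := fun i => by rw [hF, Finset.mem_filter]; simp
  have htot : ∑ i : GolayPt, (x i ^ 2 - 1) = 8 := by
    rw [Finset.sum_sub_distrib]
    have : ∑ q : GolayPt, x q ^ 2 = 32 := hn
    rw [this, Finset.sum_const, Cfsg.Agent.Lib.Helper10.card_golayPt]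
    norm_num
  have hsum : ∑ i ∈ F, (x i ^ 2 - 1) = 8 := by
    rw [← htot, hF]
    apply Finset.sum_filter_of_ne
    intro i _ h
    exact fun h0 => h (by rw [h0]; norm_num)
  have hge : ∀ i ∈ F, 8 ≤ x i ^ 2 - 1 := by
    intro i hi
    rcases odd_sq_cases (hodd i) with h | h
    · exact absurd h ((hmemF i).mp hi)
    · omega
  have hcard := Finset.card_nsmul_le_sum F (fun i => x i ^ 2 - 1) 8 hge
  rw [hsum] at hcard
  have hc1 : F.card ≤ 1 := by
    have : (F.card : ℤ) * 8 ≤ 8 := by simpa [nsmul_eq_mul] using hcard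
    omega
  have hc0 : F.card ≠ 0 := by
    intro h0
    rw [Finset.card_eq_zero] at h0
    rw [h0, Finset.sum_empty] at hsum
    norm_num at hsum
  have hc : F.card = 1 := by omega
  obtain ⟨k0, hk0⟩ := Finset.card_eq_one.mp hc
  rw [hk0, Finset.sum_singleton] at hsum
  have hk3 : x k0 = 3 ∨ x k0 = -3 := sq_eq_cases 3 (by omega)
  have hother : ∀ q, q ≠ k0 → (x q = 1 ∨ x q = -1) := by
    intro q hq
    have hqF : q ∉ F := by rw [hk0, Finset.mem_singleton]; exact hq
    rw [hmemF] at hqF
    rw [not_not] at hqF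
    exact sq_eq_cases 1 (by rw [hqF]; norm_num)
  refine ⟨idx k0, idx_lt k0, ?_⟩
  funext q
  unfold ofN f3N
  have hm := hmod' q
  by_cases hq : q = k0
  · rw [hq] at hm ⊢
    rw [if_pos rfl]
    rcases bitZ_cases μ k0 with ⟨hb, hz⟩ | ⟨hb, hz⟩
    · rw [hb, if_pos rfl]
      rw [hz] at hm
      rcases hk3 with h | h
      · rw [h]; norm_num
      · rw [h] at hm; omega
    · rw [hb]
      rw [hz] at hm
      rcases hk3 with h | h
      · rw [h] at hm; omega
      · rw [h]; norm_num
  · have e1 : idx q ≠ idx k0 := fun h => hq (idx_injective h)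
    rw [if_neg e1]
    rcases bitZ_cases μ q with ⟨hb, hz⟩ | ⟨hb, hz⟩
    · rw [hb, if_pos rfl]
      rw [hz] at hm
      rcases hother q hq with h | h
      · rw [h] at hm; omega
      · rw [h]; norm_num
    · rw [hb]
      rw [hz] at hm
      rcases hother q hq with h | h
      · rw [h]; norm_num
      · rw [h] at hm; omega

/-- The classification of the vectors of squared length 32 by shape. -/
theorem min_cases {x : GolayPt → ℤ} (hx : x ∈ leechLattice) (hn : sqNorm x = 32) :
    (∃ μ ∈ sums gB, ∃ k < 24, x = ofN (f3N μ k)) ∨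
    (∃ μ ∈ sums gB, popc μ = 8 ∧ ∃ S : List ℕ, S.Sublist (posL μ) ∧ S.length % 2 = 0 ∧
      x = ofN (f2N μ S)) ∨
    (∃ i j, i < j ∧ j < 24 ∧ ∃ a b : ℤ, (a = 4 ∨ a = -4) ∧ (b = 4 ∨ b = -4) ∧
      x = ofN (f1N i j a b)) := by
  obtain ⟨par, hpar, μ, hμ, hmod, hsum8⟩ :=
    (mem_leechSet_struct x).mp ((mem_leechLattice_iff x).mp hx)
  have hpar' : par = 0 ∨ par = 1 := by omega
  rcases hpar' with rfl | rfl
  · right
    have hmod' : ∀ i, x i % 4 = 2 * bitZ μ i := fun i => by
      have := hmod i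
      push_cast at this
      omega
    have hlow : ∀ q : GolayPt, (if μ.testBit (idx q) then (4 : ℤ) else 0) ≤ x q ^ 2 := by
      intro q
      have := hmod' q
      rcases bitZ_cases μ q with ⟨hb, hz⟩ | ⟨hb, hz⟩
      · rw [hb, if_pos rfl]
        rw [hz] at this
        have h2 : x q ≤ -2 ∨ 2 ≤ x q := by omega
        rcases h2 with h2 | h2 <;> nlinarith
      · rw [hb, if_neg (by decide)]; positivity
    have hsumw : ∑ q : GolayPt, (if μ.testBit (idx q) then (4 : ℤ) else 0) = 4 * popc μ := by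
      rw [sum_idx (fun c => if μ.testBit c then (4 : ℤ) else 0), popc_eq, Finset.sum_ite,
        Finset.sum_const, Finset.sum_const, smul_zero, add_zero, nsmul_eq_mul]
      ring
    have hle : (4 : ℤ) * popc μ ≤ 32 := by
      rw [← hsumw, ← hn]
      exact Finset.sum_le_sum (fun q _ => hlow q)
    have hwt := wtOK_of_mem_sums hμ
    simp only [wtOK, Bool.or_eq_true, beq_iff_eq] at hwt
    have hp : popc μ = 0 ∨ popc μ = 8 := by omega
    rcases hp with hp | hp
    · right
      have hbit : ∀ q : GolayPt, μ.testBit (idx q) = false := by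
        intro q
        rw [popc_eq, Finset.card_eq_zero] at hp
        by_contra hb
        have : idx q ∈ (Finset.range 24).filter (fun i => μ.testBit i) := by
          rw [Finset.mem_filter, Finset.mem_range]
          exact ⟨idx_lt q, by simpa using hb⟩
        rw [hp] at this
        exact absurd this (Finset.notMem_empty _)
      have h4 : ∀ i, x i % 4 = 0 := by
        intro i
        have := hmod' i
        rcases bitZ_cases μ i with ⟨hb, hz⟩ | ⟨hb, hz⟩
        · rw [hbit i] at hb; exact absurd hb (by decide)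
        · rw [hz] at this; omega
      exact min_two hn h4
    · left
      have h8 : (∑ i, x i) % 8 = 0 := by
        have := hsum8
        push_cast at this
        omega
      obtain ⟨S, h1, h2, h3⟩ := min_oct hn hlow hsumw hp h8
      exact ⟨μ, hμ, hp, S, h1, h2, h3⟩
  · left
    have hmod' : ∀ i, x i % 4 = 1 + 2 * bitZ μ i := fun i => by
      have := hmod i
      push_cast at this
      omega
    obtain ⟨k, hk, hxe⟩ := min_odd hn hmod'
    exact ⟨μ, hμ, k, hk, hxe⟩

end Cfsg.Agent.Lib.Helper37
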