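import Mathlib
import Cfsg.Agent.Lib.Helper37.LeechMin

set_option autoImplicit false

/-! # The list of parameters of the 196560 minimal vectors, and counting by parameters -/

namespace Cfsg.Agent.Lib.Helper37

open Cfsg Cfsg.Agent.Lib.Helper9 Cfsg.Agent.Lib.Helper10

/-- Parameters of the minimal vectors. -/
inductive MinP
  | odd (μ k : ℕ)
  | oct (μ : ℕ) (S : List ℕ)
  | two (i j : ℕ) (a b : ℤ)

/-- The vector of a parameter, as a function of the index. -/
def MinP.vec : MinP → ℕ → ℤ
  | .odd μ k => f3N μ k
  | .oct μ S => f2N μ S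
  | .two i j a b => f1N i j a b

/-- Even length. -/
def evenL (S : List ℕ) : Bool := S.length % 2 == 0

def P3 : List MinP := (sums gB).flatMap (fun μ => (List.range 24).map (MinP.odd μ))

def P2 : List MinP := (sums gB).flatMap (fun μ =>
  if popc μ = 8 then ((posL μ).sublists'.filter evenL).map (MinP.oct μ) else [])

def P1 : List MinP := (List.range 24).flatMap (fun j => (List.range j).flatMap (fun i =>
  [MinP.two i j 4 4, MinP.two i j 4 (-4), MinP.two i j (-4) 4, MinP.two i j (-4) (-4)]))

/-- All parameters. -/
def allMinP : List MinP := P1 ++ (P2 ++ P3)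

theorem length_P1 : P1.length = 1104 := by decide +kernel

theorem length_gB : gB.length = 12 := by decide

theorem length_P3 : P3.length = 98304 := by
  unfold P3
  rw [List.length_flatMap]
  have h : ∀ μ : ℕ, ((List.range 24).map (MinP.odd μ)).length = 24 := fun μ => by simp
  simp only [h, List.map_const', List.sum_replicate, length_sums, length_gB, smul_eq_mul]
  norm_num

theorem count_even_sublists (l : List ℕ) (a : ℕ) :
    ((a :: l).sublists'.filter evenL).length = 2 ^ l.length := by
  rw [List.sublists'_cons, List.filter_append, List.length_append, List.filter_map,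
    List.length_map, ← List.countP_eq_length_filter, ← List.countP_eq_length_filter,
    ← List.length_sublists' l, List.length_eq_countP_add_countP (p := evenL) (l := l.sublists')]
  congr 1
  apply List.countP_congr
  intro S _
  simp only [Function.comp, evenL, List.length_cons, beq_iff_eq, decide_eq_true_eq]
  omega

theorem sum_map_ite_const (l : List ℕ) (p : ℕ → Bool) (c : ℕ) :
    (l.map (fun μ => if p μ = true then c else 0)).sum = c * l.countP p := by
  induction l with
  | nil => simp
  | cons a l ih =>
    rw [List.map_cons, List.sum_cons, ih, List.countP_cons]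
    by_cases h : p a = true
    · simp [h]; ring
    · simp [h]

theorem length_P2 : P2.length = 97152 := by
  unfold P2
  rw [List.length_flatMap]
  have h : ∀ μ : ℕ, (if popc μ = 8 then ((posL μ).sublists'.filter evenL).map (MinP.oct μ)
      else []).length = if (popc μ == 8) = true then 128 else 0 := by
    intro μ
    by_cases hp : popc μ = 8
    · rw [if_pos hp, if_pos (by simpa using hp), List.length_map]
      have hl : (posL μ).length = 8 := by rw [length_posL, hp]
      match hm : posL μ, hl with
      | a :: l, hl =>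
        rw [count_even_sublists]
        have : l.length = 7 := by simpa using hl
        rw [this]
        norm_num
    · rw [if_neg hp, if_neg (by simpa using hp)]; rfl
  simp only [h]
  rw [sum_map_ite_const]
  have h8 := cnt_8
  rw [cnt_eq] at h8
  simp only [Nat.zero_xor] at h8
  rw [h8]

theorem length_allMinP : allMinP.length = 196560 := by
  unfold allMinP
  rw [List.length_append, List.length_append, length_P1, length_P2, length_P3]

/-- Every minimal vector has a parameter. -/
theorem exists_minP {x : GolayPt → ℤ} (hx : x ∈ leechLattice) (hn : sqNorm x = 32) :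
    ∃ p ∈ allMinP, x = ofN p.vec := by
  rcases min_cases hx hn with ⟨μ, hμ, k, hk, rfl⟩ | ⟨μ, hμ, hp, S, hS, hev, rfl⟩ |
    ⟨i, j, hij, hj, a, b, ha, hb, rfl⟩
  · refine ⟨MinP.odd μ k, ?_, rfl⟩
    unfold allMinP P3
    apply List.mem_append_right
    apply List.mem_append_right
    exact List.mem_flatMap.mpr ⟨μ, hμ, List.mem_map.mpr ⟨k, List.mem_range.mpr hk, rfl⟩⟩
  · refine ⟨MinP.oct μ S, ?_, rfl⟩
    unfold allMinP P2
    apply List.mem_append_right
    apply List.mem_append_left
    refine List.mem_flatMap.mpr ⟨μ, hμ, ?_⟩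
    rw [if_pos hp]
    refine List.mem_map.mpr ⟨S, List.mem_filter.mpr ⟨List.mem_sublists'.mpr hS, ?_⟩, rfl⟩
    simpa [evenL] using hev
  · refine ⟨MinP.two i j a b, ?_, rfl⟩
    unfold allMinP P1
    apply List.mem_append_left
    refine List.mem_flatMap.mpr ⟨j, List.mem_range.mpr hj, List.mem_flatMap.mpr
      ⟨i, List.mem_range.mpr hij, ?_⟩⟩
    rcases ha with rfl | rfl <;> rcases hb with rfl | rfl <;> simp

/-- The number of minimal vectors with a property is the number of parameters with it. -/
theorem ncard_min (C : (GolayPt → ℤ) → Prop) [DecidablePred C] :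
    {x : GolayPt → ℤ | x ∈ leechLattice ∧ sqNorm x = 32 ∧ C x}.ncard
      = allMinP.countP (fun p => decide (C (ofN p.vec))) := by
  classical
  obtain ⟨F, hF⟩ : ∃ F : MinP → (GolayPt → ℤ), F = fun p => ofN p.vec := ⟨_, rfl⟩
  have hsub : {x : GolayPt → ℤ | x ∈ leechLattice ∧ sqNorm x = 32} ⊆
      ((allMinP.map F).toFinset : Set (GolayPt → ℤ)) := by
    intro x hx
    obtain ⟨p, hp, rfl⟩ := exists_minP hx.1 hx.2
    rw [Finset.mem_coe, List.mem_toFinset]
    exact List.mem_map.mpr ⟨p, hp, by rw [hF]⟩
  have hle : (allMinP.map F).toFinset.card ≤ 196560 := by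
    have := List.toFinset_card_le (allMinP.map F)
    rwa [List.length_map, length_allMinP] at this
  have hge : 196560 ≤ (allMinP.map F).toFinset.card := by
    rw [← leech_count_32, ← Set.ncard_coe_finset]
    exact Set.ncard_le_ncard hsub (Finset.finite_toSet _)
  have hnodup : (allMinP.map F).Nodup := by
    have h1 : (allMinP.map F).toFinset.card = (allMinP.map F).length := by
      rw [List.length_map, length_allMinP]; omega
    exact Multiset.toFinset_card_eq_card_iff_nodup.mp h1
  have heq : {x : GolayPt → ℤ | x ∈ leechLattice ∧ sqNorm x = 32} =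
      ((allMinP.map F).toFinset : Set (GolayPt → ℤ)) := by
    apply Set.eq_of_subset_of_ncard_le hsub _ (Finset.finite_toSet _)
    rw [Set.ncard_coe_finset, leech_count_32]
    exact hle
  have hset : {x : GolayPt → ℤ | x ∈ leechLattice ∧ sqNorm x = 32 ∧ C x} =
      (((allMinP.filter (fun p => decide (C (F p)))).map F).toFinset : Set (GolayPt → ℤ)) := by
    ext x
    rw [Finset.mem_coe, List.mem_toFinset, List.mem_map]
    constructor
    · rintro ⟨h1, h2, h3⟩
      have hx : x ∈ ((allMinP.map F).toFinset : Set (GolayPt → ℤ)) := by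
        rw [← heq]; exact ⟨h1, h2⟩
      rw [Finset.mem_coe, List.mem_toFinset, List.mem_map] at hx
      obtain ⟨p, hp, rfl⟩ := hx
      exact ⟨p, List.mem_filter.mpr ⟨hp, by simpa using h3⟩, rfl⟩
    · rintro ⟨p, hp, rfl⟩
      rw [List.mem_filter] at hp
      have hx : F p ∈ ((allMinP.map F).toFinset : Set (GolayPt → ℤ)) := by
        rw [Finset.mem_coe, List.mem_toFinset]
        exact List.mem_map.mpr ⟨p, hp.1, rfl⟩
      rw [← heq] at hx
      exact ⟨hx.1, hx.2, by simpa using hp.2⟩
  rw [hset, Set.ncard_coe_finset, List.toFinset_card_of_nodup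
    ((List.filter_sublist.map F).nodup hnodup), List.length_map, List.countP_eq_length_filter, hF]

/-- The same, for sets of elements of the lattice. -/
theorem ncard_min_sub (C : (GolayPt → ℤ) → Prop) [DecidablePred C] :
    {x : leechLattice | sqNorm (x : GolayPt → ℤ) = 32 ∧ C x}.ncard
      = allMinP.countP (fun p => decide (C (ofN p.vec))) := by
  rw [← ncard_min C, ← Set.ncard_image_of_injective _ Subtype.val_injective]
  congr 1
  ext x
  constructor
  · rintro ⟨y, ⟨h1, h2⟩, rfl⟩
    exact ⟨y.2, h1, h2⟩
  · rintro ⟨h1, h2, h3⟩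
    exact ⟨⟨x, h1⟩, ⟨h2, h3⟩, rfl⟩

end Cfsg.Agent.Lib.Helper37
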