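import Mathlib
import Cfsg.Agent.Lib.Helper37.LeechParam

set_option autoImplicit false

/-! # Kernel-friendly counting of minimal vectors with a given inner product -/

namespace Cfsg.Agent.Lib.Helper37

open Cfsg Cfsg.Agent.Lib.Helper9 Cfsg.Agent.Lib.Helper10

/-- Force the evaluation of a natural number argument (for the kernel). -/
def strictN {β : Type} (f : ℕ → β) (n : ℕ) : β := Nat.rec (f 0) (fun k _ => f (Nat.succ k)) n

theorem strictN_eq {β : Type} (f : ℕ → β) (n : ℕ) : strictN f n = f n := by cases n <;> rfl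

/-- Sum of `h (acc ^^^ m)` over all combinations `m`. -/
def sumS (h : ℕ → ℕ) : List ℕ → ℕ → ℕ
  | [], acc => strictN h acc
  | b :: bs, acc => sumS h bs acc + sumS h bs (Nat.xor acc b)

theorem sumS_eq (h : ℕ → ℕ) (bs : List ℕ) (acc : ℕ) :
    sumS h bs acc = ((sums bs).map (fun m => h (acc ^^^ m))).sum := by
  induction bs generalizing acc with
  | nil => simp [sumS, sums, strictN_eq]
  | cons b bs ih =>
    simp only [sumS, ih, sums, List.map_append, List.sum_append, List.map_map]
    congr 2
    apply List.map_congr_left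
    intro m _
    show h (acc ^^^ b ^^^ m) = h (acc ^^^ (m ^^^ b))
    rw [Nat.xor_assoc, Nat.xor_comm b m]

/-- The vector given by a list. -/
def ofL (l : List ℤ) : GolayPt → ℤ := fun q => l.getD (idx q) 0

/-- Inner product of a list vector and a function of the index. -/
def dotN (aL : List ℤ) (f : ℕ → ℤ) : ℤ := ∑ c ∈ Finset.range 24, aL.getD c 0 * f c

theorem dotInt_ofL_ofN (aL : List ℤ) (f : ℕ → ℤ) : dotInt (ofL aL) (ofN f) = dotN aL f :=
  sum_idx (fun c => aL.getD c 0 * f c)

/-- Table for the odd shape. -/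
def tab3 (aL : List ℤ) (OFF : ℤ) : List (ℕ × ℕ × ℕ) :=
  (List.range 24).map (fun c => (2 ^ c, (OFF + aL.getD c 0).toNat, (OFF - aL.getD c 0).toNat))

/-- Table for the octad shape. -/
def tab2 (aL : List ℤ) (OFF : ℤ) : List (ℕ × ℕ × ℕ) :=
  (List.range 24).map (fun c =>
    (2 ^ c, (2 * (OFF + aL.getD c 0)).toNat, (2 * (OFF - aL.getD c 0)).toNat))

/-- Select by the bit of `μ`. -/
def selN (μ : ℕ) (e : ℕ × ℕ × ℕ) : ℕ := cond (Nat.beq (Nat.land μ e.1) 0) e.2.1 e.2.2

def sum3 (μ : ℕ) : List (ℕ × ℕ × ℕ) → ℕ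
  | e :: l => Nat.add (selN μ e) (sum3 μ l)
  | [] => 0

def go3 (μ α3 A : ℕ) : List (ℕ × ℕ × ℕ) → ℕ
  | e :: l => Nat.add (cond (Nat.beq (Nat.add α3 (Nat.mul 4 (selN μ e))) A) 1 0) (go3 μ α3 A l)
  | [] => 0

/-- Number of `k` with the given inner product, odd shape with signs `μ`. -/
def cnt3 (T3 : List (ℕ × ℕ × ℕ)) (α3 μ : ℕ) : ℕ :=
  strictN (fun A => go3 μ α3 A T3) (sum3 μ T3)

def sel2 (μ : ℕ) : List (ℕ × ℕ × ℕ) → List (ℕ × ℕ)
  | e :: l => cond (Nat.beq (Nat.land μ e.1) 0) (sel2 μ l) (e.2 :: sel2 μ l)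
  | [] => []

def go2 (tgt : ℕ) : List (ℕ × ℕ) → ℕ → Bool → ℕ
  | e :: l, Z, par =>
      Nat.add (strictN (fun Z1 => go2 tgt l Z1 par) (Nat.add Z e.1))
        (strictN (fun Z2 => go2 tgt l Z2 (!par)) (Nat.add Z e.2))
  | [], Z, par => cond (Nat.beq Z tgt && !par) 1 0

/-- Number of sign patterns with the given inner product, octad shape on `μ`. -/
def cnt2 (T2 : List (ℕ × ℕ × ℕ)) (α2 μ : ℕ) : ℕ :=
  cond (Nat.beq (popc μ) 8) (go2 α2 (sel2 μ T2) 0 false) 0

/-- Inner product for the shape `(±4, ±4)`. -/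
def MinP.dot1 (aL : List ℤ) : MinP → ℤ
  | .two i j a b => aL.getD i 0 * a + aL.getD j 0 * b
  | _ => 0

/-- Number of vectors of shape `(±4, ±4)` with the given inner product. -/
def cnt1 (aL : List ℤ) (α : ℤ) : ℕ := P1.countP (fun p => decide (p.dot1 aL = α))

/-! ### Semantics -/

theorem land_two_pow_beq (μ c : ℕ) : Nat.beq (Nat.land μ (2 ^ c)) 0 = !μ.testBit c := by
  show Nat.beq (μ &&& 2 ^ c) 0 = !μ.testBit c
  rw [Nat.and_two_pow]
  cases h : μ.testBit c
  · simp
  · simp only [Bool.toNat_true, one_mul, Bool.not_true]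
    have : 2 ^ c ≠ 0 := by positivity
    cases h2 : 2 ^ c with
    | zero => exact absurd h2 this
    | succ n => rfl

theorem selN_pow (μ c p n : ℕ) : selN μ (2 ^ c, p, n) = if μ.testBit c then n else p := by
  unfold selN
  rw [land_two_pow_beq]
  cases μ.testBit c <;> rfl

theorem sum3_map (μ : ℕ) (g : ℕ → ℕ × ℕ × ℕ) (l : List ℕ) :
    sum3 μ (l.map g) = (l.map (fun c => selN μ (g c))).sum := by
  induction l with
  | nil => rfl
  | cons a l ih =>
    rw [List.map_cons, List.map_cons, List.sum_cons, ← ih]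
    rfl

theorem nat_beq_eq_beq (a b : ℕ) : Nat.beq a b = (a == b) := by
  cases h : (a == b) with
  | true => rw [beq_iff_eq] at h; subst h; exact Nat.beq_refl a
  | false =>
    rw [beq_eq_false_iff_ne] at h
    cases h2 : Nat.beq a b with
    | false => rfl
    | true => exact absurd (Nat.eq_of_beq_eq_true h2) h

theorem go3_map (μ α3 A : ℕ) (g : ℕ → ℕ × ℕ × ℕ) (l : List ℕ) :
    go3 μ α3 A (l.map g) = l.countP (fun c => α3 + 4 * selN μ (g c) == A) := by
  induction l with
  | nil => rfl
  | cons a l ih =>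
    rw [List.map_cons, List.countP_cons, ← ih]
    show (cond (Nat.beq (α3 + 4 * selN μ (g a)) A) 1 0) + go3 μ α3 A (l.map g) = _
    rw [nat_beq_eq_beq]
    cases (α3 + 4 * selN μ (g a) == A) <;> simp [Nat.add_comm]

/-- The sign of the mask at an index. -/
def sgZ (μ c : ℕ) : ℤ := if μ.testBit c then -1 else 1

theorem dotN_f3N (aL : List ℤ) (μ : ℕ) {k : ℕ} (hk : k < 24) :
    dotN aL (f3N μ k) = (∑ c ∈ Finset.range 24, aL.getD c 0 * sgZ μ c)
      - 4 * (aL.getD k 0 * sgZ μ k) := by
  unfold dotN f3N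
  have e : ∀ c ∈ Finset.range 24,
      aL.getD c 0 * ((if μ.testBit c then (-1 : ℤ) else 1) * (if c = k then -3 else 1))
      = aL.getD c 0 * sgZ μ c - (if c = k then 4 * (aL.getD c 0 * sgZ μ c) else 0) := by
    intro c _
    unfold sgZ
    by_cases h : c = k
    · rw [if_pos h, if_pos h]; ring
    · rw [if_neg h, if_neg h]; ring
  rw [Finset.sum_congr rfl e, Finset.sum_sub_distrib, Finset.sum_ite_eq' (Finset.range 24) k,
    if_pos (Finset.mem_range.mpr hk)]

theorem cast_selN_tab3 (aL : List ℤ) (OFF : ℤ) (μ c : ℕ)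
    (h : -OFF ≤ aL.getD c 0 ∧ aL.getD c 0 ≤ OFF) :
    ((selN μ (2 ^ c, (OFF + aL.getD c 0).toNat, (OFF - aL.getD c 0).toNat) : ℕ) : ℤ)
      = OFF + aL.getD c 0 * sgZ μ c := by
  rw [selN_pow]
  unfold sgZ
  by_cases hb : μ.testBit c = true
  · rw [if_pos hb, if_pos hb, Int.toNat_of_nonneg (by omega)]; ring
  · rw [if_neg hb, if_neg hb, Int.toNat_of_nonneg (by omega)]; ring

theorem cnt3_eq (aL : List ℤ) (α OFF : ℤ) (α3 : ℕ) (hα3 : (α3 : ℤ) = α + 20 * OFF)
    (hOFF : ∀ c < 24, -OFF ≤ aL.getD c 0 ∧ aL.getD c 0 ≤ OFF) (μ : ℕ) :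
    (List.range 24).countP (fun k => decide (dotN aL (f3N μ k) = α))
      = cnt3 (tab3 aL OFF) α3 μ := by
  unfold cnt3
  rw [strictN_eq, tab3, go3_map, sum3_map]
  apply List.countP_congr
  intro k hk
  rw [List.mem_range] at hk
  simp only [decide_eq_true_eq, beq_iff_eq]
  rw [dotN_f3N aL μ hk]
  have hsum : (((List.map (fun c => selN μ (2 ^ c, (OFF + aL.getD c 0).toNat,
      (OFF - aL.getD c 0).toNat)) (List.range 24)).sum : ℕ) : ℤ)
      = 24 * OFF + ∑ c ∈ Finset.range 24, aL.getD c 0 * sgZ μ c := by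
    rw [sum_range_list]
    have : ∀ l : List ℕ, (∀ c ∈ l, c < 24) →
        (((List.map (fun c => selN μ (2 ^ c, (OFF + aL.getD c 0).toNat,
          (OFF - aL.getD c 0).toNat)) l).sum : ℕ) : ℤ)
        = l.length * OFF + (l.map (fun c => aL.getD c 0 * sgZ μ c)).sum := by
      intro l
      induction l with
      | nil => intro _; simp
      | cons a l ih =>
        intro hl
        rw [List.map_cons, List.sum_cons, Nat.cast_add, ih (fun c hc => hl c (List.mem_cons_of_mem _ hc)),
          cast_selN_tab3 aL OFF μ a (hOFF a (hl a List.mem_cons_self)), List.map_cons,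
          List.sum_cons, List.length_cons]
        push_cast
        ring
    rw [this (List.range 24) (fun c hc => List.mem_range.mp hc)]
    simp
  have hk' := cast_selN_tab3 aL OFF μ k (hOFF k hk)
  constructor
  · intro h
    have : ((α3 + 4 * selN μ (2 ^ k, (OFF + aL.getD k 0).toNat, (OFF - aL.getD k 0).toNat) : ℕ) : ℤ)
        = ((List.map (fun c => selN μ (2 ^ c, (OFF + aL.getD c 0).toNat,
          (OFF - aL.getD c 0).toNat)) (List.range 24)).sum : ℕ) := by
      rw [hsum]; push_cast; rw [hk', hα3]; linarith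
    exact_mod_cast this
  · intro h
    have h' := congrArg (Nat.cast : ℕ → ℤ) h
    rw [hsum] at h'
    push_cast at h'
    rw [hk', hα3] at h'
    linarith

theorem countP_congr_eq {α : Type} {p q : α → Bool} {l : List α} (h : ∀ x ∈ l, p x = q x) :
    l.countP p = l.countP q :=
  List.countP_congr (fun x hx => by rw [h x hx])

theorem sel2_map (μ : ℕ) (g : ℕ → ℕ × ℕ × ℕ) (hg : ∀ c, (g c).1 = 2 ^ c) (l : List ℕ) :
    sel2 μ (l.map g) = (l.filter (fun c => μ.testBit c)).map (fun c => (g c).2) := by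
  induction l with
  | nil => rfl
  | cons a l ih =>
    rw [List.map_cons]
    show cond (Nat.beq (Nat.land μ (g a).1) 0) (sel2 μ (l.map g))
      ((g a).2 :: sel2 μ (l.map g)) = _
    rw [hg a, land_two_pow_beq, ih, List.filter_cons]
    cases μ.testBit a <;> simp

/-- The total weight of a sign pattern. -/
def valW (w : ℕ → ℕ × ℕ) (ps S : List ℕ) : ℕ :=
  (ps.map (fun p => if p ∈ S then (w p).2 else (w p).1)).sum

theorem evenL_cons (a : ℕ) (S : List ℕ) : evenL (a :: S) = !evenL S := by
  unfold evenL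
  rw [List.length_cons]
  rcases Nat.mod_two_eq_zero_or_one S.length with h | h <;> simp [h, Nat.add_mod]

theorem go2_map (tgt : ℕ) (w : ℕ → ℕ × ℕ) : ∀ (ps : List ℕ), ps.Nodup → ∀ (Z : ℕ) (par : Bool),
    go2 tgt (ps.map w) Z par
      = ps.sublists'.countP (fun S => (Z + valW w ps S == tgt) && !(xor par (!evenL S))) := by
  intro ps
  induction ps with
  | nil =>
    intro _ Z par
    show cond (Nat.beq Z tgt && !par) 1 0 = _
    rw [nat_beq_eq_beq]
    simp only [List.sublists'_nil, List.countP_singleton, valW, List.map_nil, List.sum_nil,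
      Nat.add_zero, evenL, List.length_nil, Nat.zero_mod, beq_self_eq_true, Bool.not_true,
      Bool.xor_false]
    cases ((Z == tgt) && !par) <;> rfl
  | cons p ps ih =>
    intro hnd Z par
    rw [List.nodup_cons] at hnd
    rw [List.map_cons]
    show Nat.add (strictN (fun Z1 => go2 tgt (ps.map w) Z1 par) (Nat.add Z (w p).1))
      (strictN (fun Z2 => go2 tgt (ps.map w) Z2 (!par)) (Nat.add Z (w p).2)) = _
    rw [strictN_eq, strictN_eq, ih hnd.2, ih hnd.2, List.sublists'_cons, List.countP_append,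
      List.countP_map]
    have hadd : ∀ a b c d : ℕ, a = c → b = d → Nat.add a b = c + d :=
      fun _ _ _ _ h1 h2 => by rw [h1, h2]; rfl
    apply hadd
    · apply countP_congr_eq
      intro S hS
      have hpS : p ∉ S := fun h => hnd.1 ((List.mem_sublists'.mp hS).subset h)
      have hv : valW w (p :: ps) S = (w p).1 + valW w ps S := by
        unfold valW; rw [List.map_cons, List.sum_cons, if_neg hpS]
      rw [hv]
      show ((Z + (w p).1 + valW w ps S == tgt) && !(xor par (!evenL S)))
        = ((Z + ((w p).1 + valW w ps S) == tgt) && !(xor par (!evenL S)))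
      rw [Nat.add_assoc]
    · apply countP_congr_eq
      intro S hS
      have hpS : p ∉ S := fun h => hnd.1 ((List.mem_sublists'.mp hS).subset h)
      have hv : valW w (p :: ps) (p :: S) = (w p).2 + valW w ps S := by
        unfold valW
        rw [List.map_cons, List.sum_cons, if_pos List.mem_cons_self]
        congr 2
        apply List.map_congr_left
        intro q hq
        have hqp : q ≠ p := fun h => hnd.1 (h ▸ hq)
        simp [hqp]
      show ((Z + (w p).2 + valW w ps S == tgt) && !(xor (!par) (!evenL S)))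
        = ((Z + valW w (p :: ps) (p :: S) == tgt) && !(xor par (!evenL (p :: S))))
      rw [hv, evenL_cons, Nat.add_assoc]
      cases par <;> cases evenL S <;> rfl

theorem sum_map_filter_ite (l : List ℕ) (P : ℕ → Bool) (a g : ℕ → ℤ) :
    (l.map (fun c => a c * (if P c = true then g c else 0))).sum
      = ((l.filter P).map (fun c => a c * g c)).sum := by
  induction l with
  | nil => rfl
  | cons x l ih =>
    rw [List.map_cons, List.sum_cons, ih, List.filter_cons]
    by_cases h : P x = true <;> simp [h]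

theorem dotN_f2N (aL : List ℤ) (μ : ℕ) (S : List ℕ) :
    dotN aL (f2N μ S)
      = ((posL μ).map (fun c => aL.getD c 0 * (if c ∈ S then -2 else 2))).sum := by
  unfold dotN f2N posL
  rw [sum_range_list]
  exact sum_map_filter_ite (List.range 24) (fun c => μ.testBit c) (fun c => aL.getD c 0)
    (fun c => if c ∈ S then -2 else 2)

/-- The weights of the table for the octad shape. -/
def w2 (aL : List ℤ) (OFF : ℤ) (c : ℕ) : ℕ × ℕ :=
  ((2 * (OFF + aL.getD c 0)).toNat, (2 * (OFF - aL.getD c 0)).toNat)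

theorem cast_valW (aL : List ℤ) (OFF : ℤ) (S : List ℕ) (ps : List ℕ)
    (hps : ∀ c ∈ ps, -OFF ≤ aL.getD c 0 ∧ aL.getD c 0 ≤ OFF) :
    ((valW (w2 aL OFF) ps S : ℕ) : ℤ) = 2 * ps.length * OFF
      + (ps.map (fun c => aL.getD c 0 * (if c ∈ S then -2 else 2))).sum := by
  induction ps with
  | nil => simp [valW]
  | cons a ps ih =>
    have ha := hps a List.mem_cons_self
    have ih' := ih (fun c hc => hps c (List.mem_cons_of_mem _ hc))
    unfold valW at ih' ⊢
    rw [List.map_cons, List.sum_cons, Nat.cast_add, ih', List.map_cons, List.sum_cons,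
      List.length_cons]
    unfold w2
    by_cases h : a ∈ S
    · rw [if_pos h, if_pos h]
      simp only []
      rw [Int.toNat_of_nonneg (by omega)]
      push_cast
      ring
    · rw [if_neg h, if_neg h]
      simp only []
      rw [Int.toNat_of_nonneg (by omega)]
      push_cast
      ring

theorem cnt2_eq (aL : List ℤ) (α OFF : ℤ) (α2 : ℕ) (hα2 : (α2 : ℤ) = α + 16 * OFF)
    (hOFF : ∀ c < 24, -OFF ≤ aL.getD c 0 ∧ aL.getD c 0 ≤ OFF) (μ : ℕ) :
    (if popc μ = 8 then ((posL μ).sublists'.filter evenL).map (MinP.oct μ) else []).countP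
        (fun p => decide (dotN aL p.vec = α))
      = cnt2 (tab2 aL OFF) α2 μ := by
  unfold cnt2
  rw [nat_beq_eq_beq]
  by_cases hp : popc μ = 8
  · rw [if_pos hp, (by simpa using hp : (popc μ == 8) = true), cond_true, tab2,
      sel2_map μ _ (fun c => rfl)]
    have e : (List.filter (fun c => μ.testBit c) (List.range 24)).map
        (fun c => ((2 ^ c, (2 * (OFF + aL.getD c 0)).toNat,
          (2 * (OFF - aL.getD c 0)).toNat) : ℕ × ℕ × ℕ).2) = (posL μ).map (w2 aL OFF) := rfl
    rw [e, go2_map _ _ _ (nodup_posL μ), List.countP_map, List.countP_filter]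
    apply countP_congr_eq
    intro S _
    have hc := cast_valW aL OFF S (posL μ) (fun c hc => hOFF c (mem_posL.mp hc).1)
    rw [length_posL, hp] at hc
    have hd := dotN_f2N aL μ S
    show (decide (dotN aL (f2N μ S) = α) && evenL S)
      = ((0 + valW (w2 aL OFF) (posL μ) S == α2) && !(xor false (!evenL S)))
    rw [Nat.zero_add, Bool.false_xor, Bool.not_not]
    rw [← hd] at hc
    have hb : decide (dotN aL (f2N μ S) = α) = (valW (w2 aL OFF) (posL μ) S == α2) := by
      by_cases h : dotN aL (f2N μ S) = α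
      · rw [decide_eq_true h]
        symm
        rw [beq_iff_eq]
        have : ((valW (w2 aL OFF) (posL μ) S : ℕ) : ℤ) = (α2 : ℤ) := by
          rw [hc, hα2, h]; push_cast; ring
        exact_mod_cast this
      · rw [decide_eq_false h]
        symm
        rw [beq_eq_false_iff_ne]
        intro h2
        apply h
        have h3 := congrArg (Nat.cast : ℕ → ℤ) h2
        rw [hc, hα2] at h3
        push_cast at h3
        linarith
    rw [hb]
  · rw [if_neg hp, (by simpa using hp : (popc μ == 8) = false)]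
    rfl

theorem dotN_f1N (aL : List ℤ) {i j : ℕ} (hij : i < j) (hj : j < 24) (a b : ℤ) :
    dotN aL (f1N i j a b) = aL.getD i 0 * a + aL.getD j 0 * b := by
  unfold dotN f1N
  have e : ∀ c ∈ Finset.range 24,
      aL.getD c 0 * (if c = i then a else if c = j then b else 0)
      = (if c = i then aL.getD c 0 * a else 0) + (if c = j then aL.getD c 0 * b else 0) := by
    intro c _
    by_cases h1 : c = i
    · have h2 : c ≠ j := by omega
      rw [if_pos h1, if_pos h1, if_neg h2]; ring
    · rw [if_neg h1, if_neg h1]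
      by_cases h2 : c = j
      · rw [if_pos h2, if_pos h2]; ring
      · rw [if_neg h2, if_neg h2]; ring
  rw [Finset.sum_congr rfl e, Finset.sum_add_distrib, Finset.sum_ite_eq' (Finset.range 24) i,
    Finset.sum_ite_eq' (Finset.range 24) j, if_pos (Finset.mem_range.mpr (by omega)),
    if_pos (Finset.mem_range.mpr hj)]

theorem cnt1_eq (aL : List ℤ) (α : ℤ) :
    P1.countP (fun p => decide (dotN aL p.vec = α)) = cnt1 aL α := by
  unfold cnt1
  apply countP_congr_eq
  intro p hp
  unfold P1 at hp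
  rw [List.mem_flatMap] at hp
  obtain ⟨j, hj, hp⟩ := hp
  rw [List.mem_flatMap] at hp
  obtain ⟨i, hi, hp⟩ := hp
  rw [List.mem_range] at hj hi
  have key : ∀ a b : ℤ, decide (dotN aL (MinP.two i j a b).vec = α)
      = decide ((MinP.two i j a b).dot1 aL = α) := by
    intro a b
    show decide (dotN aL (f1N i j a b) = α) = decide (aL.getD i 0 * a + aL.getD j 0 * b = α)
    rw [dotN_f1N aL hi hj]
  simp only [List.mem_cons, List.not_mem_nil, or_false] at hp
  rcases hp with rfl | rfl | rfl | rfl <;> exact key _ _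

end Cfsg.Agent.Lib.Helper37
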