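import Mathlib
import Cfsg.Agent.Lib.Helper9.M24
import Cfsg.Agent.Lib.Helper9.M24Chain
import Cfsg.Agent.Lib.Helper10.LeechStruct
import Cfsg.Agent.Lib.Helper10.Xi
import Cfsg.Agent.Lib.Helper10.Co0Perm
import Cfsg.Agent.Lib.Helper10.Co0Center
import Cfsg.Agent.Lib.Helper37.LeechFast

set_option autoImplicit false

/-! # Words in explicit elements of `Co0` acting on list vectors

Vectors are lists of 24 natural numbers, the coordinates plus 16. Letters: a coordinate
permutation given by a table of the code group, a sign change on a code word, and the element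
`xiPerm`. -/

namespace Cfsg.Agent.Lib.Helper37

open Cfsg Cfsg.Agent.Lib.Helper9 Cfsg.Agent.Lib.Helper10

/-- The vector of a list of coordinates plus 16. -/
def decL (l : List ℕ) : GolayPt → ℤ := fun q => (l.getD (idx q) 16 : ℤ) - 16

/-- The list represents the lattice vector. -/
def Rep (v : leechLattice) (l : List ℕ) : Prop := (v : GolayPt → ℤ) = decL l

theorem Rep.eq {v w : leechLattice} {l : List ℕ} (hv : Rep v l) (hw : Rep w l) : v = w :=
  Subtype.ext (hv.trans hw.symm)

/-- Letters. -/
inductive Letter
  | perm (S : List ℕ)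
  | sign (m : ℕ)
  | xi

/-- The powers of two. -/
def pows : List ℕ := [1, 2, 4, 8, 16, 32, 64, 128, 256, 512, 1024, 2048, 4096, 8192, 16384, 32768,
  65536, 131072, 262144, 524288, 1048576, 2097152, 4194304, 8388608]

theorem pows_eq : pows = (List.range 24).map (fun c => 2 ^ c) := by decide

/-- Sign change on the mask `m`. -/
def signL (m : ℕ) (l : List ℕ) : List ℕ :=
  List.zipWith (fun x p => cond (Nat.beq (Nat.land m p) 0) x (32 - x)) l pows

/-- The image under `xiPerm`, at the index `c`. -/
def xiE (l : List ℕ) (c : ℕ) : ℕ :=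
  cond (decide (c = 0 ∨ c = 1 ∨ c = 2 ∨ c = 23))
    (((tetL c).map (fun d => l.getD d 16)).sum / 2 - l.getD c 16)
    (l.getD c 16 + 32 - ((tetL c).map (fun d => l.getD d 16)).sum / 2)

/-- The action of a letter on lists. -/
def Letter.act : Letter → List ℕ → List ℕ
  | .perm S, l => S.map (fun s => l.getD s 16)
  | .sign m, l => signL m l
  | .xi, l => (List.range 24).map (xiE l)

/-- Validity of a letter. -/
def Letter.ok : Letter → Bool
  | .perm S => tableOK S && decide S.Nodup
  | .sign m => inCode m
  | .xi => true

theorem coord_bound {x : GolayPt → ℤ} (h : sqNorm x ≤ 225) (q : GolayPt) :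
    -15 ≤ x q ∧ x q ≤ 15 := by
  have h1 : x q ^ 2 ≤ sqNorm x :=
    Finset.single_le_sum (f := fun i => x i ^ 2) (fun i _ => sq_nonneg (x i)) (Finset.mem_univ q)
  constructor <;> nlinarith

theorem exists_perm_of_table (S : List ℕ) (hv : tableValid S = true) (hn : S.Nodup) :
    ∃ τ : Equiv.Perm GolayPt, ∀ p, τ p = pt (S.getD (idx p) 0) := by
  rw [tableValid_iff] at hv
  have hlt : ∀ p : GolayPt, S.getD (idx p) 0 < 24 := by
    intro p
    have hp : idx p < S.length := by rw [hv.1]; exact idx_lt p
    rw [List.getD_eq_getElem _ _ hp]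
    exact hv.2 _ (List.getElem_mem hp)
  have hinj : Function.Injective (fun p : GolayPt => pt (S.getD (idx p) 0)) := by
    intro p q hpq
    have h1 : S.getD (idx p) 0 = S.getD (idx q) 0 := by
      have := congrArg idx hpq
      rwa [idx_pt (hlt p), idx_pt (hlt q)] at this
    have hp : idx p < S.length := by rw [hv.1]; exact idx_lt p
    have hq : idx q < S.length := by rw [hv.1]; exact idx_lt q
    rw [List.getD_eq_getElem _ _ hp, List.getD_eq_getElem _ _ hq] at h1
    exact idx_injective ((List.Nodup.getElem_inj_iff hn).mp h1)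
  exact ⟨Equiv.ofBijective _ ⟨hinj, Finite.surjective_of_injective hinj⟩, fun p => rfl⟩

theorem length_signL (m : ℕ) (l : List ℕ) (hl : l.length = 24) : (signL m l).length = 24 := by
  unfold signL
  rw [List.length_zipWith, hl]
  rfl

theorem getD_signL (m : ℕ) (l : List ℕ) (hl : l.length = 24) {c : ℕ} (hc : c < 24) :
    (signL m l).getD c 16 = if m.testBit c then 32 - l.getD c 16 else l.getD c 16 := by
  have h2 : c < l.length := by rw [hl]; exact hc
  have h3 : c < pows.length := hc
  have h4 : pows[c] = 2 ^ c := by
    have : pows[c]? = ((List.range 24).map (fun c => 2 ^ c))[c]? := by rw [pows_eq]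
    rw [List.getElem?_eq_getElem h3, List.getElem?_map, List.getElem?_range hc] at this
    simpa using this
  have h5 : Nat.beq (Nat.land m (2 ^ c)) 0 = !m.testBit c := by
    show Nat.beq (m &&& 2 ^ c) 0 = !m.testBit c
    rw [Nat.and_two_pow]
    cases h : m.testBit c
    · simp
    · simp only [Bool.toNat_true, one_mul, Bool.not_true]
      have hpos : 2 ^ c ≠ 0 := by positivity
      cases h2 : 2 ^ c with
      | zero => exact absurd h2 hpos
      | succ n => rfl
  have h6 : (signL m l)[c]? = some (cond (Nat.beq (Nat.land m (2 ^ c)) 0) l[c] (32 - l[c])) := by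
    unfold signL
    rw [List.getElem?_zipWith, List.getElem?_eq_getElem h2, List.getElem?_eq_getElem h3, h4]
  rw [List.getD_eq_getElem?_getD, h6, List.getD_eq_getElem _ _ h2, h5]
  cases m.testBit c <;> rfl

theorem tetL_length : ∀ c < 24, (tetL c).length = 4 := by decide +kernel

/-- Each valid letter is realised by an element of the automorphism group. -/
theorem Letter.real (L : Letter) (h : L.ok = true) :
    ∃ g : Co0, ∀ (v : leechLattice) (l : List ℕ), l.length = 24 →
      sqNorm (v : GolayPt → ℤ) ≤ 225 → Rep v l → Rep (g • v) (L.act l) := by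
  cases L with
  | perm S =>
    simp only [Letter.ok, Bool.and_eq_true, decide_eq_true_eq] at h
    have hv : tableValid S = true := by
      have := h.1
      simp only [tableOK, Bool.and_eq_true] at this
      exact this.1
    obtain ⟨τ, hτ⟩ := exists_perm_of_table S hv h.2
    have hτM : τ ∈ M24 := mem_M24_of_table S hτ h.1
    refine ⟨⟨permPerm τ⁻¹ (M24.inv_mem hτM), permPerm_mem _ _⟩, ?_⟩
    intro v l _ _ hr
    rw [tableValid_iff] at hv
    show ((permPerm τ⁻¹ (M24.inv_mem hτM) v : leechLattice) : GolayPt → ℤ) = decL (S.map _)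
    funext q
    rw [permPerm_apply]
    have e1 : (τ⁻¹).symm q = τ q := rfl
    rw [e1, hr]
    unfold decL
    have hq : idx q < S.length := by rw [hv.1]; exact idx_lt q
    have hlt : S.getD (idx q) 0 < 24 := by
      rw [List.getD_eq_getElem _ _ hq]
      exact hv.2 _ (List.getElem_mem hq)
    rw [hτ q, idx_pt hlt, List.getD_eq_getElem (S.map _) _ (by rw [List.length_map]; exact hq),
      List.getElem_map, List.getD_eq_getElem _ _ hq]
  | sign m =>
    simp only [Letter.ok] at h
    have hμ := mem_sums_of_inCode h
    have hc : support₂ (dec m) ∈ gsup := ⟨dec m, dec_mem_golay hμ, rfl⟩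
    refine ⟨⟨signPerm _ hc, signPerm_mem _ hc⟩, ?_⟩
    intro v l hl hn hr
    show ((signPerm _ hc v : leechLattice) : GolayPt → ℤ) = decL (signL m l)
    funext q
    rw [signPerm_apply, signVec_apply]
    have hb := coord_bound hn q
    have hq : (v : GolayPt → ℤ) q = (l.getD (idx q) 16 : ℤ) - 16 := congrFun hr q
    rw [hq] at hb
    unfold decL
    rw [getD_signL m l hl (idx_lt q), hq]
    by_cases hbit : m.testBit (idx q) = true
    · rw [if_pos ((mem_supp_dec m q).mpr hbit), if_pos hbit]
      have : l.getD (idx q) 16 ≤ 32 := by omega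
      rw [Nat.cast_sub this]
      push_cast
      ring
    · rw [if_neg (fun hh => hbit ((mem_supp_dec m q).mp hh)), if_neg hbit]
  | xi =>
    refine ⟨⟨xiPerm, xiPerm_mem⟩, ?_⟩
    intro v l _ hn hr
    have hn' : sqNorm ((xiPerm v : leechLattice) : GolayPt → ℤ) ≤ 225 := by
      rw [xiPerm_mem.2 v]; exact hn
    show ((xiPerm v : leechLattice) : GolayPt → ℤ) = decL ((List.range 24).map (xiE l))
    funext q
    have hb := coord_bound hn' q
    have h2 : (2 : ℤ) * ((xiPerm v : leechLattice) : GolayPt → ℤ) q
        = xi2 (v : GolayPt → ℤ) q := by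
      have := congrFun (two_smul_xiVec v.2) q
      simpa [xiPerm_apply] using this
    have hv : (v : GolayPt → ℤ) = fun p => (l.getD (idx p) 16 : ℤ) - 16 := hr
    rw [hv, show xi2 (fun p => (l.getD (idx p) 16 : ℤ) - 16) q
      = xi2N (fun c => (l.getD c 16 : ℤ) - 16) (idx q) from
        xi2_idx (fun c => (l.getD c 16 : ℤ) - 16) q] at h2
    generalize ((xiPerm v : leechLattice) : GolayPt → ℤ) q = y at hb h2 ⊢
    unfold decL
    have hc := idx_lt q
    rw [List.getD_eq_getElem _ _ (by rw [List.length_map, List.length_range]; exact hc),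
      List.getElem_map, List.getElem_range]
    generalize idx q = c at hc h2 ⊢
    unfold xi2N at h2
    have hT : ((tetL c).map (fun d => (l.getD d 16 : ℤ) - 16)).sum
        = (((tetL c).map (fun d => l.getD d 16)).sum : ℕ) - 64 := by
      have hlen := tetL_length c hc
      have : ∀ L : List ℕ, (L.map (fun d => (l.getD d 16 : ℤ) - 16)).sum
          = ((L.map (fun d => l.getD d 16)).sum : ℕ) - 16 * L.length := by
        intro L
        induction L with
        | nil => simp
        | cons a L ih => simp only [List.map_cons, List.sum_cons, List.length_cons, ih]; push_cast; ring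
      rw [this, hlen]; norm_num
    rw [hT] at h2
    beta_reduce at h2
    unfold xiE
    generalize ((tetL c).map (fun d => l.getD d 16)).sum = T at h2 ⊢
    generalize l.getD c 16 = x at h2 ⊢
    by_cases hs : c = 0 ∨ c = 1 ∨ c = 2 ∨ c = 23
    · rw [decide_eq_true hs, cond_true]
      unfold sgnN at h2
      rw [if_pos hs] at h2
      omega
    · rw [decide_eq_false hs, cond_false]
      unfold sgnN at h2
      rw [if_neg hs] at h2
      omega

theorem Letter.length_act (L : Letter) (h : L.ok = true) (l : List ℕ) (hl : l.length = 24) :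
    (L.act l).length = 24 := by
  cases L with
  | perm S =>
    simp only [Letter.ok, Bool.and_eq_true, tableOK] at h
    have := (tableValid_iff S).mp h.1.1
    simp [Letter.act, this.1]
  | sign m => exact length_signL m l hl
  | xi => simp [Letter.act]

/-- The action of a word. -/
def actW (w : List Letter) (l : List ℕ) : List ℕ := w.foldr Letter.act l

/-- Validity of a word. -/
def okW (w : List Letter) : Bool := w.all Letter.ok

theorem length_actW (w : List Letter) (h : okW w = true) (l : List ℕ) (hl : l.length = 24) :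
    (actW w l).length = 24 := by
  induction w with
  | nil => exact hl
  | cons L w ih =>
    simp only [okW, List.all_cons, Bool.and_eq_true] at h
    exact L.length_act h.1 _ (ih h.2)

theorem co0_norm (g : Co0) (v : leechLattice) :
    sqNorm ((g • v : leechLattice) : GolayPt → ℤ) = sqNorm (v : GolayPt → ℤ) := g.2.2 v

theorem rep_getD {v : leechLattice} {l : List ℕ} (hr : Rep v l) {c : ℕ} (hc : c < 24) :
    ((l.getD c 16 : ℕ) : ℤ) = (v : GolayPt → ℤ) (pt c) + 16 := by
  have := congrFun hr (pt c)
  unfold decL at this
  rw [idx_pt hc] at this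
  omega

theorem rep_lt {v : leechLattice} {l : List ℕ} (hr : Rep v l) (hl : l.length = 24)
    (hn : sqNorm (v : GolayPt → ℤ) ≤ 225) : ∀ x ∈ l, x < 32 := by
  intro x hx
  obtain ⟨i, hi, rfl⟩ := List.mem_iff_getElem.mp hx
  have hi' : i < 24 := by rw [← hl]; exact hi
  have h1 := rep_getD hr hi'
  rw [List.getD_eq_getElem _ _ hi] at h1
  have h2 := coord_bound hn (pt i)
  omega

theorem rep_inj {v : leechLattice} {l l' : List ℕ} (hr : Rep v l) (hr' : Rep v l')
    (hl : l.length = 24) (hl' : l'.length = 24) : l = l' := by
  apply List.ext_getElem (by rw [hl, hl'])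
  intro i h1 h2
  have hi : i < 24 := by rw [← hl]; exact h1
  have e1 := rep_getD hr hi
  have e2 := rep_getD hr' hi
  rw [List.getD_eq_getElem _ _ h1] at e1
  rw [List.getD_eq_getElem _ _ h2] at e2
  omega

/-! ### Keys -/

/-- The key of a list vector. -/
def packL (l : List ℕ) : ℕ := l.foldr (fun x acc => x + 32 * acc) 0

def unpackAux : ℕ → ℕ → List ℕ
  | 0, _ => []
  | n + 1, k => strictN (fun d => strictN (fun k' => d :: unpackAux n k') (k / 32)) (k % 32)

/-- The list vector of a key. -/
def unpackL (k : ℕ) : List ℕ := unpackAux 24 k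

theorem unpackAux_packL : ∀ (n : ℕ) (l : List ℕ), l.length = n → (∀ x ∈ l, x < 32) →
    unpackAux n (packL l) = l := by
  intro n
  induction n with
  | zero =>
    intro l hl _
    rw [List.length_eq_zero_iff] at hl
    subst hl
    rfl
  | succ n ih =>
    intro l hl hx
    match l, hl, hx with
    | x :: l, hl, hx =>
      have hx0 : x < 32 := hx x List.mem_cons_self
      have e : packL (x :: l) = x + 32 * packL l := rfl
      show strictN (fun d => strictN (fun k' => d :: unpackAux n k') (packL (x :: l) / 32))
        (packL (x :: l) % 32) = x :: l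
      rw [strictN_eq, strictN_eq, e]
      have h1 : (x + 32 * packL l) % 32 = x := by omega
      have h2 : (x + 32 * packL l) / 32 = packL l := by omega
      rw [h1, h2, ih l (by simpa using hl) (fun y hy => hx y (List.mem_cons_of_mem _ hy))]

theorem unpackL_packL (l : List ℕ) (hl : l.length = 24) (hx : ∀ x ∈ l, x < 32) :
    unpackL (packL l) = l := unpackAux_packL 24 l hl hx

/-- Force the evaluation of a list of natural numbers (for the kernel). -/
def forceK {β : Type} : List ℕ → (List ℕ → β) → β
  | [], k => k []
  | x :: l, k => strictN (fun x' => forceK l (fun l' => k (x' :: l'))) x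

theorem forceK_eq {β : Type} (l : List ℕ) (k : List ℕ → β) : forceK l k = k l := by
  induction l generalizing k with
  | nil => rfl
  | cons x l ih => show strictN _ x = _; rw [strictN_eq, ih]

theorem digit_packL : ∀ (l : List ℕ) (s : ℕ), (∀ x ∈ l, x < 32) → s < l.length →
    packL l / 32 ^ s % 32 = l.getD s 16 := by
  intro l
  induction l with
  | nil => intro s _ hs; simp at hs
  | cons x l ih =>
    intro s hx hs
    have hx0 : x < 32 := hx x List.mem_cons_self
    have e : packL (x :: l) = x + 32 * packL l := rfl
    cases s with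
    | zero => rw [e, pow_zero, Nat.div_one, List.getD_cons_zero]; omega
    | succ s =>
      have h2 : (x + 32 * packL l) / 32 = packL l := by omega
      rw [e, pow_succ' 32 s, ← Nat.div_div_eq_div_mul, List.getD_cons_succ, h2]
      exact ih s (fun y hy => hx y (List.mem_cons_of_mem _ hy)) (by simpa using hs)

/-- A coordinate permutation acting on keys. -/
def permK (X : ℕ) : List ℕ → ℕ
  | [] => 0
  | s :: S => Nat.add (Nat.land (Nat.shiftRight X (Nat.mul 5 s)) 31) (Nat.mul 32 (permK X S))

theorem permK_eq (X : ℕ) (S : List ℕ) :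
    permK X S = packL (S.map (fun s => X / 32 ^ s % 32)) := by
  induction S with
  | nil => rfl
  | cons s S ih =>
    show Nat.add (Nat.land (Nat.shiftRight X (Nat.mul 5 s)) 31) (Nat.mul 32 (permK X S)) = _
    rw [ih]
    show (X >>> (5 * s) &&& 31) + 32 * _ = X / 32 ^ s % 32 + 32 * _
    congr 1
    rw [Nat.shiftRight_eq_div_pow, pow_mul]
    exact Nat.and_two_pow_sub_one_eq_mod _ 5

/-- The action of a letter on keys. -/
def Letter.actKey : Letter → ℕ → ℕ
  | .perm S, X => permK X S
  | .sign m, X => forceK (unpackL X) (fun l => packL (signL m l))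
  | .xi, X => forceK (unpackL X) (fun l => packL ((List.range 24).map (xiE l)))

theorem Letter.actKey_eq (L : Letter) (h : L.ok = true) (l : List ℕ) (hl : l.length = 24)
    (hlt : ∀ x ∈ l, x < 32) : L.actKey (packL l) = packL (L.act l) := by
  cases L with
  | perm S =>
    simp only [Letter.ok, Bool.and_eq_true, tableOK] at h
    have hv := (tableValid_iff S).mp h.1.1
    show permK (packL l) S = packL (S.map (fun s => l.getD s 16))
    rw [permK_eq]
    congr 1
    apply List.map_congr_left
    intro s hs
    exact digit_packL l s hlt (by rw [hl]; exact hv.2 s hs)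
  | sign m =>
    show forceK (unpackL (packL l)) _ = _
    rw [forceK_eq, unpackL_packL l hl hlt]
    rfl
  | xi =>
    show forceK (unpackL (packL l)) _ = _
    rw [forceK_eq, unpackL_packL l hl hlt]
    rfl

/-- The action of a word on keys. -/
def actWK : List Letter → ℕ → ℕ
  | [], X => X
  | L :: w, X => strictN (fun X1 => L.actKey X1) (actWK w X)

/-- Each valid word is realised by an element of the automorphism group; the action on keys
agrees with the action on lists. -/
theorem exists_word (w : List Letter) (h : okW w = true) :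
    ∃ g : Co0, ∀ (v : leechLattice) (l : List ℕ), l.length = 24 →
      sqNorm (v : GolayPt → ℤ) ≤ 225 → Rep v l →
        Rep (g • v) (actW w l) ∧ actWK w (packL l) = packL (actW w l) := by
  induction w with
  | nil => exact ⟨1, fun v l _ _ hr => ⟨by rw [one_smul]; exact hr, rfl⟩⟩
  | cons L w ih =>
    simp only [okW, List.all_cons, Bool.and_eq_true] at h
    obtain ⟨g1, h1⟩ := L.real h.1
    obtain ⟨g2, h2⟩ := ih h.2
    refine ⟨g1 * g2, fun v l hl hn hr => ?_⟩
    obtain ⟨hr2, hk2⟩ := h2 v l hl hn hr
    have hl2 := length_actW w h.2 l hl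
    have hn2 : sqNorm ((g2 • v : leechLattice) : GolayPt → ℤ) ≤ 225 := by
      rw [co0_norm]; exact hn
    refine ⟨?_, ?_⟩
    · rw [mul_smul]
      exact h1 (g2 • v) (actW w l) hl2 hn2 hr2
    · show strictN (fun X1 => L.actKey X1) (actWK w (packL l)) = packL (L.act (actW w l))
      rw [strictN_eq, hk2]
      exact L.actKey_eq h.1 _ hl2 (rep_lt hr2 hl2 hn2)

end Cfsg.Agent.Lib.Helper37
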