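import Mathlib
import Cfsg.Agent.Lib.Helper37.LeechFast

set_option autoImplicit false

/-! # The number of minimal vectors with a given inner product, kernel-friendly -/

namespace Cfsg.Agent.Lib.Helper37

open Cfsg Cfsg.Agent.Lib.Helper9 Cfsg.Agent.Lib.Helper10

theorem count_P2 (aL : List ℤ) (α OFF : ℤ) (α2 : ℕ)
    (hα2 : (α2 : ℤ) = α + 16 * OFF)
    (hOFF : ∀ c < 24, -OFF ≤ aL.getD c 0 ∧ aL.getD c 0 ≤ OFF) :
    P2.countP (fun p => decide (dotN aL p.vec = α))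
      = ((sums gB).map (fun m => cnt2 (tab2 aL OFF) α2 (0 ^^^ m))).sum := by
  unfold P2
  rw [List.countP_flatMap]
  refine congrArg List.sum (List.map_congr_left ?_)
  intro μ _
  rw [Nat.zero_xor]
  have h := cnt2_eq aL α OFF α2 hα2 hOFF μ
  simp only [Function.comp]
  rw [h]

theorem count_P3 (aL : List ℤ) (α OFF : ℤ) (α3 : ℕ)
    (hα3 : (α3 : ℤ) = α + 20 * OFF)
    (hOFF : ∀ c < 24, -OFF ≤ aL.getD c 0 ∧ aL.getD c 0 ≤ OFF) :
    P3.countP (fun p => decide (dotN aL p.vec = α))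
      = ((sums gB).map (fun m => cnt3 (tab3 aL OFF) α3 (0 ^^^ m))).sum := by
  unfold P3
  rw [List.countP_flatMap]
  refine congrArg List.sum (List.map_congr_left ?_)
  intro μ _
  rw [Nat.zero_xor]
  have h := cnt3_eq aL α OFF α3 hα3 hOFF μ
  simp only [Function.comp]
  rw [List.countP_map, ← h]
  rfl

/-- The number of parameters with a given inner product, in kernel-friendly form. -/
theorem count_fast (aL : List ℤ) (α OFF : ℤ) (T3 T2 : List (ℕ × ℕ × ℕ)) (α3 α2 : ℕ)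
    (hT3 : T3 = tab3 aL OFF) (hT2 : T2 = tab2 aL OFF)
    (hα3 : (α3 : ℤ) = α + 20 * OFF) (hα2 : (α2 : ℤ) = α + 16 * OFF)
    (hOFF : ∀ c < 24, -OFF ≤ aL.getD c 0 ∧ aL.getD c 0 ≤ OFF) :
    allMinP.countP (fun p => decide (dotN aL p.vec = α))
      = cnt1 aL α + (sumS (cnt2 T2 α2) gB 0 + sumS (cnt3 T3 α3) gB 0) := by
  subst hT3 hT2
  unfold allMinP
  rw [List.countP_append, List.countP_append, cnt1_eq, sumS_eq, sumS_eq,
    count_P2 aL α OFF α2 hα2 hOFF, count_P3 aL α OFF α3 hα3 hOFF]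

/-- The number of minimal vectors with a given inner product with a list vector. -/
theorem ncard_dot (aL : List ℤ) (α OFF : ℤ) (T3 T2 : List (ℕ × ℕ × ℕ)) (α3 α2 : ℕ)
    (hT3 : T3 = tab3 aL OFF) (hT2 : T2 = tab2 aL OFF)
    (hα3 : (α3 : ℤ) = α + 20 * OFF) (hα2 : (α2 : ℤ) = α + 16 * OFF)
    (hOFF : ∀ c < 24, -OFF ≤ aL.getD c 0 ∧ aL.getD c 0 ≤ OFF) :
    {x : leechLattice | sqNorm (x : GolayPt → ℤ) = 32 ∧ dotInt (ofL aL) x = α}.ncard
      = cnt1 aL α + (sumS (cnt2 T2 α2) gB 0 + sumS (cnt3 T3 α3) gB 0) := by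
  classical
  rw [ncard_min_sub (fun x => dotInt (ofL aL) x = α),
    ← count_fast aL α OFF T3 T2 α3 α2 hT3 hT2 hα3 hα2 hOFF]
  apply countP_congr_eq
  intro p _
  rw [dotInt_ofL_ofN]

end Cfsg.Agent.Lib.Helper37
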