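import Mathlib
import Cfsg.Agent.Lib.Helper37.CoWord
import Cfsg.Agent.Lib.Helper37.LeechFast2

set_option autoImplicit false

/-! # Orbits of explicit subgroups of `Co0` on lattice vectors, by kernel computation

A stack machine applies generators (words) to list vectors starting from a root; the keys of the
vectors reached are checked to be pairwise different (given their positions in increasing order). Together with
the number of elements of a set containing the orbit this shows that the set is one orbit. -/

namespace Cfsg.Agent.Lib.Helper37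

open Cfsg Cfsg.Agent.Lib.Helper9 Cfsg.Agent.Lib.Helper10

/-- One step: the key of the image of the vector of a key under a generator. -/
def stepK (gens : List (List Letter)) (j top : ℕ) : ℕ :=
  actWK (gens.getD j []) top

/-- The stack machine: `some j` applies the generator `j` to the top of the stack and pushes and
records the result; `none` pops. -/
def runP (gens : List (List Letter)) : List (Option ℕ) → List ℕ → List ℕ → List ℕ
  | [], _, out => out
  | some j :: prog, top :: st, out =>
      strictN (fun y => runP gens prog (y :: top :: st) (y :: out)) (actWK (gens.getD j []) top)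
  | none :: prog, _ :: st, out => runP gens prog st out
  | _ :: _, [], out => out

theorem runP_inv (gens : List (List Letter)) (Q : ℕ → Prop)
    (hstep : ∀ j key, Q key → Q (stepK gens j key)) :
    ∀ (prog : List (Option ℕ)) (st out : List ℕ), (∀ k ∈ st, Q k) → (∀ k ∈ out, Q k) →
      ∀ k ∈ runP gens prog st out, Q k := by
  intro prog
  induction prog with
  | nil => intro st out _ ho; exact ho
  | cons op prog ih =>
    intro st out hs ho
    match op, st, hs with
    | some j, top :: st, hs =>
      have e : runP gens (some j :: prog) (top :: st) out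
          = runP gens prog (stepK gens j top :: top :: st) (stepK gens j top :: out) := by
        show strictN _ _ = _
        rw [strictN_eq]
        rfl
      rw [e]
      have hq : Q (stepK gens j top) := hstep j top (hs top List.mem_cons_self)
      apply ih
      · intro k hk
        rcases List.mem_cons.mp hk with rfl | hk
        · exact hq
        · exact hs k hk
      · intro k hk
        rcases List.mem_cons.mp hk with rfl | hk
        · exact hq
        · exact ho k hk
    | none, top :: st, hs =>
      exact ih st out (fun k hk => hs k (List.mem_cons_of_mem _ hk)) ho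
    | some j, [], _ => exact ho
    | none, [], _ => exact ho

/-! ### Pairwise different keys, by random access into a packed store -/

theorem digit_fold (W : ℕ) (hW : 0 < W) : ∀ (l : List ℕ) (s : ℕ), (∀ x ∈ l, x < W) →
    s < l.length → (l.foldr (fun x acc => x + W * acc) 0) / W ^ s % W = l.getD s 0 := by
  intro l
  induction l with
  | nil => intro s _ hs; simp at hs
  | cons x l ih =>
    intro s hx hs
    have hx0 : x < W := hx x List.mem_cons_self
    have e : (x :: l).foldr (fun x acc => x + W * acc) 0
        = x + W * l.foldr (fun x acc => x + W * acc) 0 := rfl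
    have h2 : (x + W * l.foldr (fun x acc => x + W * acc) 0) / W
        = l.foldr (fun x acc => x + W * acc) 0 := by
      rw [Nat.add_mul_div_left _ _ hW, Nat.div_eq_of_lt hx0, Nat.zero_add]
    cases s with
    | zero =>
      rw [e, pow_zero, Nat.div_one, List.getD_cons_zero, Nat.add_mul_mod_self_left,
        Nat.mod_eq_of_lt hx0]
    | succ s =>
      rw [e, pow_succ' W s, ← Nat.div_div_eq_div_mul, List.getD_cons_succ, h2]
      exact ih s (fun y hy => hx y (List.mem_cons_of_mem _ hy)) (by simpa using hs)

/-- The keys of a list packed into one number, 120 bits each. -/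
def packW (l : List ℕ) : ℕ := l.foldr (fun x acc => Nat.add x (Nat.shiftLeft acc 120)) 0

/-- The key at a position of the packed store. -/
def fldW (PR p : ℕ) : ℕ :=
  Nat.land (Nat.shiftRight PR (Nat.mul 120 p)) 1329227995784915872903807060280344575

set_option maxRecDepth 10000 in
theorem packW_cons (x : ℕ) (l : List ℕ) : packW (x :: l) = x + packW l <<< 120 := rfl

theorem packW_eq (l : List ℕ) : packW l = l.foldr (fun x acc => x + 2 ^ 120 * acc) 0 := by
  induction l with
  | nil => rw [List.foldr_nil]; rfl
  | cons x l ih => rw [List.foldr_cons, packW_cons, ih, Nat.shiftLeft_eq, Nat.mul_comm]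

theorem fldW_packW (l : List ℕ) (p : ℕ) (hl : ∀ x ∈ l, x < 2 ^ 120) (hp : p < l.length) :
    fldW (packW l) p = l.getD p 0 := by
  rw [← digit_fold (2 ^ 120) (by norm_num) l p hl hp, ← packW_eq]
  show (packW l >>> (120 * p)) &&& 1329227995784915872903807060280344575 = _
  rw [Nat.shiftRight_eq_div_pow, pow_mul]
  exact Nat.and_two_pow_sub_one_eq_mod _ 120

/-- The keys at the given positions are increasing. -/
def chkInc (PR n : ℕ) : List ℕ → ℕ → Bool
  | [], _ => true
  | p :: ps, prev =>
      strictN (fun k => Nat.blt p n && (Nat.blt prev k && chkInc PR n ps k)) (fldW PR p)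

theorem chkInc_spec (PR n : ℕ) : ∀ (ps : List ℕ) (prev : ℕ), chkInc PR n ps prev = true →
    (ps.map (fldW PR)).Pairwise (· < ·) ∧ (∀ k ∈ ps.map (fldW PR), prev < k) ∧
      ∀ p ∈ ps, p < n := by
  intro ps
  induction ps with
  | nil => intro prev _; exact ⟨List.Pairwise.nil, by simp, by simp⟩
  | cons p ps ih =>
    intro prev h
    have h' : (Nat.blt p n && (Nat.blt prev (fldW PR p) && chkInc PR n ps (fldW PR p))) = true := by
      have : chkInc PR n (p :: ps) prev
          = strictN (fun k => Nat.blt p n && (Nat.blt prev k && chkInc PR n ps k)) (fldW PR p) :=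
        rfl
      rw [this, strictN_eq] at h
      exact h
    simp only [Bool.and_eq_true] at h'
    obtain ⟨h1, h2, h3⟩ := h'
    have hp : p < n := by simpa [Nat.blt] using h1
    have hk : prev < fldW PR p := by simpa [Nat.blt] using h2
    obtain ⟨i1, i2, i3⟩ := ih _ h3
    refine ⟨?_, ?_, ?_⟩
    · rw [List.map_cons, List.pairwise_cons]
      exact ⟨i2, i1⟩
    · intro k hk'
      rw [List.map_cons] at hk'
      rcases List.mem_cons.mp hk' with rfl | hk'
      · exact hk
      · exact lt_trans hk (i2 k hk')
    · intro q hq
      rcases List.mem_cons.mp hq with rfl | hq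
      · exact hp
      · exact i3 q hq

theorem nodup_of_chk (out pos : List ℕ) (n : ℕ) (hlen : out.length = n) (hpl : pos.length = n)
    (hlt : ∀ x ∈ out, x < 2 ^ 120) (h : chkInc (packW out) n pos 0 = true) : out.Nodup := by
  obtain ⟨h1, -, h3⟩ := chkInc_spec _ _ _ _ h
  have hK : (pos.map (fldW (packW out))).Nodup := h1.imp (fun h => Nat.ne_of_lt h)
  have hsub : (pos.map (fldW (packW out))).toFinset ⊆ out.toFinset := by
    intro k hk
    rw [List.mem_toFinset, List.mem_map] at hk
    obtain ⟨p, hp, rfl⟩ := hk
    have hpn : p < out.length := by rw [hlen]; exact h3 p hp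
    rw [List.mem_toFinset, fldW_packW out p hlt hpn, List.getD_eq_getElem _ _ hpn]
    exact List.getElem_mem hpn
  have hc := Finset.card_le_card hsub
  rw [List.toFinset_card_of_nodup hK, List.length_map, hpl] at hc
  have hc2 := List.toFinset_card_le out
  have : out.toFinset.card = out.length := by omega
  exact Multiset.toFinset_card_eq_card_iff_nodup.mp this

theorem packL_lt : ∀ l : List ℕ, (∀ x ∈ l, x < 32) → packL l < 32 ^ l.length := by
  intro l
  induction l with
  | nil => intro _; exact Nat.one_pos
  | cons x l ih =>
    intro hx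
    have hx0 : x < 32 := hx x List.mem_cons_self
    have := ih (fun y hy => hx y (List.mem_cons_of_mem _ hy))
    have e : packL (x :: l) = x + 32 * packL l := rfl
    rw [e, List.length_cons, pow_succ]
    omega

/-- The machine reaches `n` pairwise different keys: one kernel computation. -/
def chkRun (gens : List (List Letter)) (prog : List (Option ℕ)) (r : ℕ) (pos : List ℕ) (n : ℕ) :
    Bool :=
  forceK (runP gens prog [r] [r]) (fun out =>
    Nat.beq out.length n && (Nat.beq pos.length n &&
      strictN (fun PR => chkInc PR n pos 0) (packW out)))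

theorem chkRun_spec {gens : List (List Letter)} {prog : List (Option ℕ)} {r : ℕ} {pos : List ℕ}
    {n : ℕ} (h : chkRun gens prog r pos n = true) :
    (runP gens prog [r] [r]).length = n ∧ pos.length = n ∧
      chkInc (packW (runP gens prog [r] [r])) n pos 0 = true := by
  unfold chkRun at h
  rw [forceK_eq, strictN_eq] at h
  simp only [Bool.and_eq_true] at h
  exact ⟨Nat.eq_of_beq_eq_true h.1, Nat.eq_of_beq_eq_true h.2.1, h.2.2⟩

/-! ### Sets covered by an orbit -/

theorem cover_of_keys {α : Type} (T O : Set α) (n : ℕ) (hn : T.ncard = n) (hpos : 0 < n)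
    (keys : List ℕ) (hk : keys.Nodup) (hlen : keys.length = n) (R : ℕ → α → Prop)
    (hR : ∀ k ∈ keys, ∃ x, x ∈ T ∧ x ∈ O ∧ R k x)
    (hinj : ∀ k k' x, R k x → R k' x → k = k') : T ⊆ O := by
  classical
  have hfin : T.Finite := Set.finite_of_ncard_pos (by rw [hn]; exact hpos)
  choose f hf using fun k : {k // k ∈ keys} => hR k.1 k.2
  have hnd : (keys.attach.map f).Nodup := by
    apply List.Nodup.map_on _ (List.nodup_attach.mpr hk)
    intro a _ b _ hab
    exact Subtype.ext (hinj a.1 b.1 (f a) (hf a).2.2 (hab ▸ (hf b).2.2))
  have hsub : ((keys.attach.map f).toFinset : Set α) ⊆ T ∩ O := by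
    intro x hx
    rw [Finset.mem_coe, List.mem_toFinset, List.mem_map] at hx
    obtain ⟨a, -, rfl⟩ := hx
    exact ⟨(hf a).1, (hf a).2.1⟩
  have hcard : n ≤ (T ∩ O).ncard := by
    have h1 := Set.ncard_le_ncard hsub (hfin.subset Set.inter_subset_left)
    rw [Set.ncard_coe_finset, List.toFinset_card_of_nodup hnd, List.length_map,
      List.length_attach, hlen] at h1
    exact h1
  have heq : T ∩ O = T :=
    Set.eq_of_subset_of_ncard_le Set.inter_subset_left (by rw [hn]; exact hcard) hfin
  intro x hx
  rw [← heq] at hx
  exact hx.2

/-- The element fixes every lattice vector represented by one of the lists. -/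
def FixB (bases : List (List ℕ)) (g : Co0) : Prop :=
  ∀ (b : leechLattice) (bl : List ℕ), bl ∈ bases → Rep b bl →
    sqNorm (b : GolayPt → ℤ) ≤ 225 → g • b = b

/-- The generators are valid words fixing the base lists. -/
def gensOK (bases : List (List ℕ)) (gens : List (List Letter)) : Bool :=
  bases.all (fun b => decide (b.length = 24)) &&
    gens.all (fun w => okW w && bases.all (fun b => decide (actW w b = b)))

theorem gensOK_getD {bases : List (List ℕ)} {gens : List (List Letter)}
    (h : gensOK bases gens = true) (j : ℕ) :
    okW (gens.getD j []) = true ∧ ∀ b ∈ bases, actW (gens.getD j []) b = b := by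
  simp only [gensOK, Bool.and_eq_true, List.all_eq_true, decide_eq_true_eq] at h
  by_cases hj : j < gens.length
  · rw [List.getD_eq_getElem _ _ hj]
    exact h.2 _ (List.getElem_mem hj)
  · rw [List.getD_eq_default _ _ (by omega)]
    exact ⟨rfl, fun b _ => rfl⟩

/-- A set of lattice vectors with `n` elements that contains the orbit of `root` under the
elements fixing the base vectors is that orbit, if the machine reaches `n` different vectors. -/
theorem orbit_cover (bases : List (List ℕ)) (rootL : List ℕ) (gens : List (List Letter))
    (prog : List (Option ℕ)) (pos : List ℕ) (n : ℕ) (T : Set leechLattice)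
    (root : leechLattice)
    (hroot : Rep root rootL) (hrl : rootL.length = 24)
    (hrn : sqNorm (root : GolayPt → ℤ) ≤ 225)
    (hgens : gensOK bases gens = true)
    (hT : T.ncard = n) (hpos : 0 < n)
    (hTinv : ∀ g : Co0, FixB bases g → g • root ∈ T)
    (rk : ℕ) (hrk : rk = packL rootL)
    (hchk : chkRun gens prog rk pos n = true) :
    ∀ x ∈ T, ∃ g : Co0, FixB bases g ∧ g • root = x := by
  subst hrk
  have hbl : ∀ bl ∈ bases, bl.length = 24 := by
    have := hgens
    simp only [gensOK, Bool.and_eq_true, List.all_eq_true, decide_eq_true_eq] at this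
    exact this.1
  -- the invariant of the machine
  let Q : ℕ → Prop := fun key => ∃ g : Co0, FixB bases g ∧ ∃ l : List ℕ, l.length = 24 ∧
    (∀ x ∈ l, x < 32) ∧ key = packL l ∧ Rep (g • root) l
  have hQ0 : Q (packL rootL) :=
    ⟨1, fun b bl _ _ _ => one_smul _ b, rootL, hrl, rep_lt hroot hrl hrn, rfl,
      by rw [one_smul]; exact hroot⟩
  have hstep : ∀ j key, Q key → Q (stepK gens j key) := by
    rintro j key ⟨g, hg, l, hl, hlt, rfl, hr⟩
    obtain ⟨hok, hfix⟩ := gensOK_getD hgens j
    obtain ⟨gw, hgw⟩ := exists_word (gens.getD j []) hok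
    have hng : sqNorm ((g • root : leechLattice) : GolayPt → ℤ) ≤ 225 := by
      rw [co0_norm]; exact hrn
    obtain ⟨hr', hkey⟩ := hgw (g • root) l hl hng hr
    have hl' := length_actW (gens.getD j []) hok l hl
    have hng' : sqNorm ((gw • g • root : leechLattice) : GolayPt → ℤ) ≤ 225 := by
      rw [co0_norm]; exact hng
    refine ⟨gw * g, ?_, actW (gens.getD j []) l, hl', rep_lt hr' hl' hng', ?_, ?_⟩
    · intro b bl hbm hb hbn
      rw [mul_smul, hg b bl hbm hb hbn]
      have := (hgw b bl (hbl bl hbm) hbn hb).1
      rw [hfix bl hbm] at this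
      exact this.eq hb
    · exact hkey
    · rw [mul_smul]; exact hr'
  have hall := runP_inv gens Q hstep prog [packL rootL] [packL rootL]
    (fun k hk => by rw [List.mem_singleton.mp hk]; exact hQ0)
    (fun k hk => by rw [List.mem_singleton.mp hk]; exact hQ0)
  obtain ⟨hlen, hpl, hinc⟩ := chkRun_spec hchk
  have hnd := nodup_of_chk _ pos n hlen hpl (by
    intro k hk
    obtain ⟨g, hg, l, hl, hlt, hkl, hr⟩ := hall k hk
    have := packL_lt l hlt
    rw [hl] at this
    rw [hkl]
    calc packL l < 32 ^ 24 := this
      _ = 2 ^ 120 := by norm_num) hinc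
  have hcov := cover_of_keys T {x | ∃ g : Co0, FixB bases g ∧ g • root = x} n hT hpos
    (runP gens prog [packL rootL] [packL rootL]) hnd hlen
    (fun k x => ∃ l : List ℕ, l.length = 24 ∧ k = packL l ∧ Rep x l)
    (by
      intro k hk
      obtain ⟨g, hg, l, hl, -, hkl, hr⟩ := hall k hk
      exact ⟨g • root, hTinv g hg, ⟨g, hg, rfl⟩, l, hl, hkl, hr⟩)
    (by
      rintro k k' x ⟨l, hl, rfl, hr⟩ ⟨l', hl', rfl, hr'⟩
      rw [rep_inj hr hr' hl hl'])
  exact fun x hx => hcov hx

end Cfsg.Agent.Lib.Helper37
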