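import Mathlib
import Cfsg.Agent.Lib.Helper37.CoOrbit

set_option autoImplicit false

/-! # Explicit lattice vectors given by lists, and glue lemmas for orbit statements -/

namespace Cfsg.Agent.Lib.Helper37

open Cfsg Cfsg.Agent.Lib.Helper9 Cfsg.Agent.Lib.Helper10

/-- Checker for membership of a list vector in the lattice (parity `par`, code word `μ`). -/
def latB (l : List ℕ) (par μ : ℕ) : Bool :=
  decide (par < 2) && (inCode μ &&
    ((List.range 24).all (fun c => decide (((l.getD c 16 : ℤ) - 16) % 4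
        = (par : ℤ) + 2 * (if μ.testBit c then 1 else 0))) &&
      decide ((((List.range 24).map (fun c => (l.getD c 16 : ℤ) - 16)).sum) % 8
        = 4 * (par : ℤ))))

theorem decL_mem {l : List ℕ} {par μ : ℕ} (h : latB l par μ = true) : decL l ∈ leechLattice := by
  simp only [latB, Bool.and_eq_true, decide_eq_true_eq, List.all_eq_true, List.mem_range] at h
  obtain ⟨hpar, hμ, hall, hsum⟩ := h
  rw [mem_leechLattice_iff, mem_leechSet_struct]
  refine ⟨par, hpar, μ, mem_sums_of_inCode hμ, fun i => ?_, ?_⟩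
  · have := hall (idx i) (idx_lt i)
    unfold bitZ decL
    exact this
  · have e : ∑ i, decL l i = ∑ c ∈ Finset.range 24, ((l.getD c 16 : ℤ) - 16) :=
      sum_idx (fun c => (l.getD c 16 : ℤ) - 16)
    rw [e, sum_range_list]
    exact hsum

/-- The lattice vector of a checked list. -/
def mkV (l : List ℕ) (par μ : ℕ) (h : latB l par μ = true) : leechLattice := ⟨decL l, decL_mem h⟩

theorem rep_mkV (l : List ℕ) (par μ : ℕ) (h : latB l par μ = true) : Rep (mkV l par μ h) l := rfl

theorem sqNorm_decL (l : List ℕ) :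
    sqNorm (decL l) = ((List.range 24).map (fun c => ((l.getD c 16 : ℤ) - 16) ^ 2)).sum := by
  rw [← sum_range_list]
  exact sum_idx (fun c => ((l.getD c 16 : ℤ) - 16) ^ 2)

theorem dotInt_decL (a b : List ℕ) :
    dotInt (decL a) (decL b) = ((List.range 24).map
      (fun c => ((a.getD c 16 : ℤ) - 16) * ((b.getD c 16 : ℤ) - 16))).sum := by
  rw [← sum_range_list]
  exact sum_idx (fun c => ((a.getD c 16 : ℤ) - 16) * ((b.getD c 16 : ℤ) - 16))

theorem decL_eq_ofL (l : List ℕ) : decL l = ofL (l.map (fun x : ℕ => (x : ℤ) - 16)) := by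
  funext q
  unfold decL ofL
  have h := List.getD_map l 16 (n := idx q) (fun x : ℕ => (x : ℤ) - 16)
  have h0 : ((16 : ℕ) : ℤ) - 16 = 0 := by norm_num
  rw [h0] at h
  exact h.symm

theorem smul_dot (g : Co0) (a b : leechLattice) :
    dotInt ((g • a : leechLattice) : GolayPt → ℤ) ((g • b : leechLattice) : GolayPt → ℤ)
      = dotInt (a : GolayPt → ℤ) (b : GolayPt → ℤ) := co0_dot g.2 a b

theorem FixB.mul {bases : List (List ℕ)} {g h : Co0} (hg : FixB bases g) (hh : FixB bases h) :
    FixB bases (g * h) := by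
  intro b bl hbm hb hbn
  rw [mul_smul, hh b bl hbm hb hbn, hg b bl hbm hb hbn]

theorem FixB.inv {bases : List (List ℕ)} {g : Co0} (hg : FixB bases g) : FixB bases g⁻¹ := by
  intro b bl hbm hb hbn
  rw [inv_smul_eq_iff, hg b bl hbm hb hbn]

/-- From one orbit to transitivity. -/
theorem trans_of_cover {bases : List (List ℕ)} {T : Set leechLattice} {root : leechLattice}
    (hcov : ∀ x ∈ T, ∃ g : Co0, FixB bases g ∧ g • root = x) :
    ∀ x ∈ T, ∀ x' ∈ T, ∃ g : Co0, FixB bases g ∧ g • x = x' := by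
  intro x hx x' hx'
  obtain ⟨g, hg, rfl⟩ := hcov x hx
  obtain ⟨g', hg', rfl⟩ := hcov x' hx'
  exact ⟨g' * g⁻¹, hg'.mul hg.inv, by rw [mul_smul, inv_smul_smul]⟩

theorem coord_bound5 {x : GolayPt → ℤ} (h : sqNorm x = 32) (q : GolayPt) :
    -5 ≤ x q ∧ x q ≤ 5 := by
  have h1 : x q ^ 2 ≤ sqNorm x :=
    Finset.single_le_sum (f := fun i => x i ^ 2) (fun i _ => sq_nonneg (x i)) (Finset.mem_univ q)
  rw [h] at h1
  constructor <;> nlinarith

theorem ofL_zipWith (aL bL : List ℤ) (M : ℤ) (ha : aL.length = 24) (hb : bL.length = 24)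
    (q : GolayPt) :
    ofL (List.zipWith (fun a b => a + M * b) aL bL) q = ofL aL q + M * ofL bL q := by
  unfold ofL
  have h1 : idx q < aL.length := by rw [ha]; exact idx_lt q
  have h2 : idx q < bL.length := by rw [hb]; exact idx_lt q
  have h3 : idx q < (List.zipWith (fun a b => a + M * b) aL bL).length := by
    rw [List.length_zipWith, ha, hb]; exact idx_lt q
  rw [List.getD_eq_getElem _ _ h1, List.getD_eq_getElem _ _ h2, List.getD_eq_getElem _ _ h3,
    List.getElem_zipWith]

theorem dot_comb (aL bL : List ℤ) (M : ℤ) (ha : aL.length = 24) (hb : bL.length = 24)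
    (x : GolayPt → ℤ) :
    dotInt (ofL (List.zipWith (fun a b => a + M * b) aL bL)) x
      = dotInt (ofL aL) x + M * dotInt (ofL bL) x := by
  unfold dotInt
  rw [Finset.mul_sum, ← Finset.sum_add_distrib]
  apply Finset.sum_congr rfl
  intro q _
  rw [ofL_zipWith aL bL M ha hb q]
  ring

/-- Two inner product conditions as one, for vectors of squared length 32. -/
theorem two_cond (aL bL : List ℤ) (M α β : ℤ) (ha : aL.length = 24) (hb : bL.length = 24)
    (hM : 5 * ((List.range 24).map (fun c => |aL.getD c 0|)).sum + |α| < M)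
    (x : GolayPt → ℤ) (hx : sqNorm x = 32) :
    (dotInt (ofL aL) x = α ∧ dotInt (ofL bL) x = β) ↔
      dotInt (ofL (List.zipWith (fun a b => a + M * b) aL bL)) x = α + M * β := by
  rw [dot_comb aL bL M ha hb x]
  constructor
  · rintro ⟨h1, h2⟩
    rw [h1, h2]
  · intro h
    have hbound : |dotInt (ofL aL) x| ≤ 5 * ((List.range 24).map (fun c => |aL.getD c 0|)).sum := by
      rw [← sum_range_list, ← sum_idx (fun c => |aL.getD c 0|), Finset.mul_sum]
      unfold dotInt
      refine (Finset.abs_sum_le_sum_abs _ _).trans (Finset.sum_le_sum (fun q _ => ?_))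
      rw [abs_mul]
      have hq := coord_bound5 hx q
      have hq' : |x q| ≤ 5 := abs_le.mpr hq
      have h0 : 0 ≤ |ofL aL q| := abs_nonneg _
      show |ofL aL q| * |x q| ≤ 5 * |aL.getD (idx q) 0|
      have e : ofL aL q = aL.getD (idx q) 0 := rfl
      rw [e] at h0 ⊢
      nlinarith
    have hd : dotInt (ofL bL) x = β := by
      by_contra hne
      have h3 : dotInt (ofL aL) x - α = M * (β - dotInt (ofL bL) x) := by linarith
      have h4 : |dotInt (ofL aL) x - α| < M := by
        have := abs_sub (dotInt (ofL aL) x) α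
        linarith
      have h5 : (1 : ℤ) ≤ |β - dotInt (ofL bL) x| := by
        have : β - dotInt (ofL bL) x ≠ 0 := fun h0 => hne (by linarith)
        exact Int.one_le_abs this
      rw [h3, abs_mul] at h4
      have hMpos : 0 < M := by
        have := abs_nonneg α
        have h6 : 0 ≤ ((List.range 24).map (fun c => |aL.getD c 0|)).sum := by
          apply List.sum_nonneg
          intro y hy
          rw [List.mem_map] at hy
          obtain ⟨c, -, rfl⟩ := hy
          exact abs_nonneg _
        linarith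
      rw [abs_of_pos hMpos] at h4
      nlinarith
    exact ⟨by rw [hd] at h; linarith, hd⟩

/-- The number of minimal vectors with two given inner products. -/
theorem ncard_dot2 (aL bL cL : List ℤ) (M α β γ OFF : ℤ) (T3 T2 : List (ℕ × ℕ × ℕ)) (α3 α2 : ℕ)
    (ha : aL.length = 24) (hb : bL.length = 24)
    (hM : 5 * ((List.range 24).map (fun c => |aL.getD c 0|)).sum + |α| < M)
    (hc : cL = List.zipWith (fun a b => a + M * b) aL bL) (hγ : γ = α + M * β)
    (hT3 : T3 = tab3 cL OFF) (hT2 : T2 = tab2 cL OFF)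
    (hα3 : (α3 : ℤ) = γ + 20 * OFF) (hα2 : (α2 : ℤ) = γ + 16 * OFF)
    (hOFF : ∀ c < 24, -OFF ≤ cL.getD c 0 ∧ cL.getD c 0 ≤ OFF) :
    {x : leechLattice | sqNorm (x : GolayPt → ℤ) = 32 ∧ dotInt (ofL aL) x = α ∧
        dotInt (ofL bL) x = β}.ncard
      = cnt1 cL γ + (sumS (cnt2 T2 α2) gB 0 + sumS (cnt3 T3 α3) gB 0) := by
  rw [← ncard_dot cL γ OFF T3 T2 α3 α2 hT3 hT2 hα3 hα2 hOFF]
  congr 1
  ext x
  simp only [Set.mem_setOf_eq]
  constructor
  · rintro ⟨h1, h2⟩
    refine ⟨h1, ?_⟩
    rw [hc, hγ]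
    exact (two_cond aL bL M α β ha hb hM _ h1).mp h2
  · rintro ⟨h1, h2⟩
    rw [hc, hγ] at h2
    exact ⟨h1, (two_cond aL bL M α β ha hb hM _ h1).mpr h2⟩

end Cfsg.Agent.Lib.Helper37
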