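import Mathlib
import Cfsg.Agent.Lib.Helper37.CoVec

set_option autoImplicit false

/-! # Sets of minimal vectors cut out by inner products, and their transport -/

namespace Cfsg.Agent.Lib.Helper37

open Cfsg Cfsg.Agent.Lib.Helper9 Cfsg.Agent.Lib.Helper10

/-- Minimal vectors with prescribed inner products with the listed vectors. -/
def TT (bs : List (leechLattice × ℤ)) : Set leechLattice :=
  {y | sqNorm (y : GolayPt → ℤ) = 32 ∧
    ∀ p ∈ bs, dotInt ((p.1 : leechLattice) : GolayPt → ℤ) (y : GolayPt → ℤ) = p.2}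

/-- The element fixes the listed vectors. -/
def FixL (bs : List (leechLattice × ℤ)) (g : Co0) : Prop := ∀ p ∈ bs, g • p.1 = p.1

/-- Move the listed vectors. -/
def mvL (h : Co0) (bs : List (leechLattice × ℤ)) : List (leechLattice × ℤ) :=
  bs.map (fun p => (h • p.1, p.2))

/-- Transitivity of the stabiliser of the listed vectors on the set. -/
def TransL (bs : List (leechLattice × ℤ)) : Prop :=
  ∀ y ∈ TT bs, ∀ y' ∈ TT bs, ∃ g : Co0, FixL bs g ∧ g • y = y'

theorem mem_TT1 (a : leechLattice) (α : ℤ) (y : leechLattice) :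
    y ∈ TT [(a, α)] ↔ sqNorm (y : GolayPt → ℤ) = 32 ∧
      dotInt (a : GolayPt → ℤ) (y : GolayPt → ℤ) = α := by
  simp [TT]

theorem mem_TT2 (a b : leechLattice) (α β : ℤ) (y : leechLattice) :
    y ∈ TT [(a, α), (b, β)] ↔ sqNorm (y : GolayPt → ℤ) = 32 ∧
      dotInt (a : GolayPt → ℤ) (y : GolayPt → ℤ) = α ∧
      dotInt (b : GolayPt → ℤ) (y : GolayPt → ℤ) = β := by
  simp [TT]

theorem mem_TT3 (a b c : leechLattice) (α β γ : ℤ) (y : leechLattice) :
    y ∈ TT [(a, α), (b, β), (c, γ)] ↔ sqNorm (y : GolayPt → ℤ) = 32 ∧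
      dotInt (a : GolayPt → ℤ) (y : GolayPt → ℤ) = α ∧
      dotInt (b : GolayPt → ℤ) (y : GolayPt → ℤ) = β ∧
      dotInt (c : GolayPt → ℤ) (y : GolayPt → ℤ) = γ := by
  simp [TT]

theorem fixL2 (a b : leechLattice) (α β : ℤ) (g : Co0) :
    FixL [(a, α), (b, β)] g ↔ g • a = a ∧ g • b = b := by
  simp [FixL]

theorem fixL3 (a b c : leechLattice) (α β γ : ℤ) (g : Co0) :
    FixL [(a, α), (b, β), (c, γ)] g ↔ g • a = a ∧ g • b = b ∧ g • c = c := by
  simp [FixL]

theorem fixL_mem_TT {bs : List (leechLattice × ℤ)} {g : Co0} (hg : FixL bs g) {y : leechLattice}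
    (hy : y ∈ TT bs) : g • y ∈ TT bs := by
  refine ⟨by rw [co0_norm]; exact hy.1, fun p hp => ?_⟩
  have h := smul_dot g p.1 y
  rw [hg p hp] at h
  rw [h]
  exact hy.2 p hp

theorem mem_TT_mvL (h : Co0) (bs : List (leechLattice × ℤ)) (y : leechLattice) :
    h • y ∈ TT (mvL h bs) ↔ y ∈ TT bs := by
  unfold TT mvL
  simp only [Set.mem_setOf_eq, List.mem_map, forall_exists_index, and_imp]
  constructor
  · rintro ⟨h1, h2⟩
    refine ⟨by rw [co0_norm] at h1; exact h1, fun p hp => ?_⟩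
    have := h2 (h • p.1, p.2) p hp rfl
    rw [smul_dot] at this
    exact this
  · rintro ⟨h1, h2⟩
    refine ⟨by rw [co0_norm]; exact h1, ?_⟩
    rintro q p hp rfl
    show dotInt ((h • p.1 : leechLattice) : GolayPt → ℤ) ((h • y : leechLattice) : GolayPt → ℤ) = p.2
    rw [smul_dot]
    exact h2 p hp

theorem TT_mvL (h : Co0) (bs : List (leechLattice × ℤ)) :
    TT (mvL h bs) = (fun y => h • y) '' TT bs := by
  ext y
  constructor
  · intro hy
    refine ⟨h⁻¹ • y, ?_, by simp⟩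
    rw [← mem_TT_mvL h]
    simpa using hy
  · rintro ⟨z, hz, rfl⟩
    exact (mem_TT_mvL h bs z).mpr hz

theorem ncard_TT_mvL (h : Co0) (bs : List (leechLattice × ℤ)) :
    (TT (mvL h bs)).ncard = (TT bs).ncard := by
  rw [TT_mvL]
  exact Set.ncard_image_of_injective _ (MulAction.injective h)

theorem fixL_mvL {h g : Co0} {bs : List (leechLattice × ℤ)} (hg : FixL bs g) :
    FixL (mvL h bs) (h * g * h⁻¹) := by
  intro q hq
  unfold mvL at hq
  rw [List.mem_map] at hq
  obtain ⟨p, hp, rfl⟩ := hq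
  show (h * g * h⁻¹) • h • p.1 = h • p.1
  rw [mul_smul, inv_smul_smul, mul_smul, hg p hp]

theorem TransL.mvL {bs : List (leechLattice × ℤ)} (ht : TransL bs) (h : Co0) :
    TransL (mvL h bs) := by
  intro y hy y' hy'
  have e : ∀ z : leechLattice, z ∈ TT (Helper37.mvL h bs) → h⁻¹ • z ∈ TT bs := by
    intro z hz
    rw [← mem_TT_mvL h]
    simpa using hz
  obtain ⟨g, hg, hgy⟩ := ht _ (e y hy) _ (e y' hy')
  refine ⟨h * g * h⁻¹, fixL_mvL hg, ?_⟩
  rw [mul_smul, mul_smul, hgy, smul_inv_smul]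

/-- Under transitivity, an orbit of the stabiliser is the whole set. -/
theorem orbit_eq_TT {bs : List (leechLattice × ℤ)} (H : Subgroup Co0)
    (hH : ∀ g : Co0, g ∈ H ↔ FixL bs g) (ht : TransL bs) {y : leechLattice} (hy : y ∈ TT bs) :
    MulAction.orbit H y = TT bs := by
  ext z
  rw [MulAction.mem_orbit_iff]
  constructor
  · rintro ⟨k, rfl⟩
    exact fixL_mem_TT ((hH k.1).mp k.2) hy
  · intro hz
    obtain ⟨g, hg, hgy⟩ := ht y hy z hz
    exact ⟨⟨g, (hH g).mpr hg⟩, hgy⟩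

/-- From a covering by one orbit (in the list-based form) to transitivity. -/
theorem transL_of_cover {bases : List (List ℕ)} {bs : List (leechLattice × ℤ)}
    {root : leechLattice} (hfix : ∀ g : Co0, FixB bases g → FixL bs g)
    (hcov : ∀ x ∈ TT bs, ∃ g : Co0, FixB bases g ∧ g • root = x) : TransL bs := by
  intro y hy y' hy'
  obtain ⟨g, hg, hgy⟩ := trans_of_cover hcov y hy y' hy'
  exact ⟨g, hfix g hg, hgy⟩

theorem sqNorm_mkV (l : List ℕ) (par μ : ℕ) (h : latB l par μ = true) :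
    sqNorm ((mkV l par μ h : leechLattice) : GolayPt → ℤ)
      = ((List.range 24).map (fun c => ((l.getD c 16 : ℤ) - 16) ^ 2)).sum := sqNorm_decL l

theorem dot_mkV (l : List ℕ) (par μ : ℕ) (h : latB l par μ = true) (l' : List ℕ) (par' μ' : ℕ)
    (h' : latB l' par' μ' = true) :
    dotInt ((mkV l par μ h : leechLattice) : GolayPt → ℤ)
        ((mkV l' par' μ' h' : leechLattice) : GolayPt → ℤ)
      = ((List.range 24).map
          (fun c => ((l.getD c 16 : ℤ) - 16) * ((l'.getD c 16 : ℤ) - 16))).sum :=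
  dotInt_decL l l'

theorem coe_mkV (l : List ℕ) (par μ : ℕ) (h : latB l par μ = true) (aL : List ℤ)
    (ha : l.map (fun x : ℕ => (x : ℤ) - 16) = aL) :
    ((mkV l par μ h : leechLattice) : GolayPt → ℤ) = ofL aL := by
  rw [← ha]
  exact decL_eq_ofL l

/-- The number of minimal vectors with three given inner products. -/
theorem ncard_dot3 (aL bL cL dL eL : List ℤ) (M M' α β γ δ ε OFF : ℤ)
    (T3 T2 : List (ℕ × ℕ × ℕ)) (α3 α2 : ℕ)
    (ha : aL.length = 24) (hb : bL.length = 24) (hc : cL.length = 24)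
    (hM' : 5 * ((List.range 24).map (fun c => |bL.getD c 0|)).sum + |β| < M')
    (hd : dL = List.zipWith (fun b c => b + M' * c) bL cL) (hδ : δ = β + M' * γ)
    (hM : 5 * ((List.range 24).map (fun c => |aL.getD c 0|)).sum + |α| < M)
    (he : eL = List.zipWith (fun a d => a + M * d) aL dL) (hε : ε = α + M * δ)
    (hT3 : T3 = tab3 eL OFF) (hT2 : T2 = tab2 eL OFF)
    (hα3 : (α3 : ℤ) = ε + 20 * OFF) (hα2 : (α2 : ℤ) = ε + 16 * OFF)
    (hOFF : ∀ c < 24, -OFF ≤ eL.getD c 0 ∧ eL.getD c 0 ≤ OFF) :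
    {x : leechLattice | sqNorm (x : GolayPt → ℤ) = 32 ∧ dotInt (ofL aL) x = α ∧
        dotInt (ofL bL) x = β ∧ dotInt (ofL cL) x = γ}.ncard
      = cnt1 eL ε + (sumS (cnt2 T2 α2) gB 0 + sumS (cnt3 T3 α3) gB 0) := by
  have hdl : dL.length = 24 := by rw [hd, List.length_zipWith, hb, hc]; rfl
  rw [← ncard_dot2 aL dL eL M α δ ε OFF T3 T2 α3 α2 ha hdl hM he hε hT3 hT2 hα3 hα2 hOFF]
  congr 1
  ext x
  simp only [Set.mem_setOf_eq]
  constructor
  · rintro ⟨h1, h2, h3⟩
    refine ⟨h1, h2, ?_⟩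
    rw [hd, hδ]
    exact (two_cond bL cL M' β γ hb hc hM' _ h1).mp h3
  · rintro ⟨h1, h2, h3⟩
    rw [hd, hδ] at h3
    exact ⟨h1, h2, (two_cond bL cL M' β γ hb hc hM' _ h1).mpr h3⟩

end Cfsg.Agent.Lib.Helper37
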