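import Mathlib
import Cfsg.Agent.Lib.Helper37.D1641b
import Cfsg.Agent.Lib.Helper37.D1641c
import Cfsg.Agent.Lib.Helper37.OrbGlue
import Cfsg.Agent.Lib.Helper10.Pair48

set_option autoImplicit false

/-! # The orbits of the stabiliser of a vector of norm 48 and a minimal vector at inner product
`-16` on the 11178 such minimal vectors -/

namespace Cfsg.Agent.Lib.Helper37.D1641

open Cfsg Cfsg.Agent.Lib.Helper9 Cfsg.Agent.Lib.Helper10 Cfsg.Agent.Lib.Helper37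

/-- `(5, 1, …, 1)`. -/
def u0 : leechLattice := mkV u0E 1 0 (by decide +kernel)

/-- `(-4, 4, 0, …, 0)`. -/
def x0 : leechLattice := mkV x0E 0 0 (by decide +kernel)

theorem u0_norm : sqNorm (u0 : GolayPt → ℤ) = 48 :=
  (sqNorm_mkV u0E 1 0 _).trans (by decide +kernel)

theorem x0_norm : sqNorm (x0 : GolayPt → ℤ) = 32 :=
  (sqNorm_mkV x0E 0 0 _).trans (by decide +kernel)

theorem u0x0 : dotInt (u0 : GolayPt → ℤ) (x0 : GolayPt → ℤ) = -16 :=
  (dot_mkV u0E 1 0 _ x0E 0 0 _).trans (by decide +kernel)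

theorem u0_coe : (u0 : GolayPt → ℤ) = ofL u0L := coe_mkV u0E 1 0 _ u0L (by decide +kernel)

theorem x0_coe : (x0 : GolayPt → ℤ) = ofL x0L := coe_mkV x0E 0 0 _ x0L (by decide +kernel)

theorem fixB_fixL (c : ℤ) (g : Co0) (hg : FixB [u0E, x0E] g) : FixL [(u0, -16), (x0, c)] g := by
  rw [fixL2]
  exact ⟨hg u0 u0E (by simp) (rep_mkV _ _ _ _) (by rw [u0_norm]; norm_num),
    hg x0 x0E (by simp) (rep_mkV _ _ _ _) (by rw [x0_norm]; norm_num)⟩

theorem ncard_std (c γ : ℤ) (α3 α2 n : ℕ) (hγ : γ = -16 + 256 * c)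
    (h3 : (α3 : ℤ) = γ + 20 * 1025) (h2 : (α2 : ℤ) = γ + 16 * 1025)
    (hcnt : cnt1 cL γ + (sumS (cnt2 T2 α2) gB 0 + sumS (cnt3 T3 α3) gB 0) = n) :
    (TT [(u0, -16), (x0, c)]).ncard = n := by
  have key := ncard_dot2 u0L x0L cL 256 (-16) c γ 1025 T3 T2 α3 α2 (by decide) (by decide)
    (by decide +kernel) (by decide +kernel) hγ (by decide +kernel) (by decide +kernel) h3 h2
    (by decide +kernel)
  have k2 := key.trans hcnt
  have k3 : TT [(u0, -16), (x0, c)] = {x : leechLattice | sqNorm (x : GolayPt → ℤ) = 32 ∧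
      dotInt (ofL u0L) x = -16 ∧ dotInt (ofL x0L) x = c} := by
    ext y
    rw [mem_TT2, u0_coe, x0_coe]
    rfl
  rw [k3]
  exact k2

theorem trans_std (c : ℤ) (n : ℕ) (rootL : List ℕ) (par μ : ℕ)
    (hlat : latB rootL par μ = true) (prog : List (Option ℕ)) (pos : List ℕ) (rk : ℕ)
    (hn : (TT [(u0, -16), (x0, c)]).ncard = n) (hpos : 0 < n)
    (h1 : ((List.range 24).map (fun c => ((rootL.getD c 16 : ℤ) - 16) ^ 2)).sum = 32)
    (h2 : ((List.range 24).map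
      (fun c => ((u0E.getD c 16 : ℤ) - 16) * ((rootL.getD c 16 : ℤ) - 16))).sum = -16)
    (h3 : ((List.range 24).map
      (fun c => ((x0E.getD c 16 : ℤ) - 16) * ((rootL.getD c 16 : ℤ) - 16))).sum = c)
    (hrk : rk = packL rootL) (hrun : chkRun gens prog rk pos n = true)
    (hlen : rootL.length = 24) : TransL [(u0, -16), (x0, c)] := by
  have hroot : mkV rootL par μ hlat ∈ TT [(u0, -16), (x0, c)] := by
    rw [mem_TT2]
    exact ⟨(sqNorm_mkV _ _ _ _).trans h1, (dot_mkV u0E 1 0 _ rootL par μ hlat).trans h2,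
      (dot_mkV x0E 0 0 _ rootL par μ hlat).trans h3⟩
  apply transL_of_cover (bases := [u0E, x0E]) (root := mkV rootL par μ hlat) (fixB_fixL c)
  exact orbit_cover [u0E, x0E] rootL gens prog pos n _ _ (rep_mkV _ _ _ _) hlen
    (by rw [hroot.1]; norm_num) gens_ok hn hpos
    (fun g hg => fixL_mem_TT (fixB_fixL c g hg) hroot) rk hrk hrun

theorem ncardA : (TT [(u0, -16), (x0, -8)]).ncard = 352 :=
  ncard_std (-8) (-2064) 18436 14336 352 (by norm_num) (by norm_num) (by norm_num) cntA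

theorem transA : TransL [(u0, -16), (x0, -8)] :=
  trans_std (-8) 352 rootA 0 7864649 (by decide +kernel) progA posA 683373266517750298021570786466677262 ncardA (by norm_num)
    (by decide +kernel) (by decide +kernel) (by decide +kernel) (by decide +kernel) runA (by decide)

theorem ncardB : (TT [(u0, -16), (x0, 16)]).ncard = 1100 :=
  ncard_std (16) (4080) 24580 20480 1100 (by norm_num) (by norm_num) (by norm_num) cntB

theorem transB : TransL [(u0, -16), (x0, 16)] :=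
  trans_std (16) 1100 rootB 0 0 (by decide +kernel) progB posB 519899659641680805127698729222554256 ncardB (by norm_num)
    (by decide +kernel) (by decide +kernel) (by decide +kernel) (by decide +kernel) runB (by decide)

theorem ncardC : (TT [(u0, -16), (x0, 0)]).ncard = 4125 :=
  ncard_std (0) (-16) 20484 16384 4125 (by norm_num) (by norm_num) (by norm_num) cntC

theorem transC : TransL [(u0, -16), (x0, 0)] :=
  trans_std (0) 4125 rootC 0 15747077 (by decide +kernel) progC posC 600296596009353209118238799129233934 ncardC (by norm_num)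
    (by decide +kernel) (by decide +kernel) (by decide +kernel) (by decide +kernel) runC (by decide)

theorem ncardD : (TT [(u0, -16), (x0, 8)]).ncard = 5600 :=
  ncard_std (8) (2032) 22532 18432 5600 (by norm_num) (by norm_num) (by norm_num) cntD

theorem transD : TransL [(u0, -16), (x0, 8)] :=
  trans_std (8) 5600 rootD 0 16262146 (by decide +kernel) progD posD 600296516781192982180360551345439312 ncardD (by norm_num)
    (by decide +kernel) (by decide +kernel) (by decide +kernel) (by decide +kernel) runD (by decide)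

/-- Count and transitivity for an arbitrary pair. -/
theorem hs_class (u x : leechLattice) (hu : sqNorm (u : GolayPt → ℤ) = 48)
    (hx : sqNorm (x : GolayPt → ℤ) = 32)
    (hd : dotInt (u : GolayPt → ℤ) (x : GolayPt → ℤ) = -16) (c : ℤ) (n : ℕ)
    (hn : (TT [(u0, -16), (x0, c)]).ncard = n) (ht : TransL [(u0, -16), (x0, c)]) :
    (TT [(u, -16), (x, c)]).ncard = n ∧ TransL [(u, -16), (x, c)] := by
  obtain ⟨h, hhu, hhx⟩ := pair48_orbit u0 x0 u x u0_norm x0_norm hu hx u0x0 hd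
  have e : [(u, (-16 : ℤ)), (x, c)] = mvL h [(u0, -16), (x0, c)] := by
    simp [mvL, hhu, hhx]
  rw [e]
  exact ⟨(ncard_TT_mvL h _).trans hn, ht.mvL h⟩

/-- The stabiliser of `u` and `x` has exactly four orbits besides `{x}` on the 11178 vectors. -/
theorem main (u x : ↥Cfsg.leechLattice) (hu : Cfsg.sqNorm (u : Cfsg.GolayPt → ℤ) = 48)
    (hx : x ∈ {x : ↥Cfsg.leechLattice | Cfsg.sqNorm (x : Cfsg.GolayPt → ℤ) = 32 ∧ Cfsg.dotInt (u : Cfsg.GolayPt → ℤ) (x : Cfsg.GolayPt → ℤ) = -16}) :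
    ∃ y₁ ∈ {x : ↥Cfsg.leechLattice | Cfsg.sqNorm (x : Cfsg.GolayPt → ℤ) = 32 ∧ Cfsg.dotInt (u : Cfsg.GolayPt → ℤ) (x : Cfsg.GolayPt → ℤ) = -16}, ∃ y₂ ∈ {x : ↥Cfsg.leechLattice | Cfsg.sqNorm (x : Cfsg.GolayPt → ℤ) = 32 ∧ Cfsg.dotInt (u : Cfsg.GolayPt → ℤ) (x : Cfsg.GolayPt → ℤ) = -16}, ∃ y₃ ∈ {x : ↥Cfsg.leechLattice | Cfsg.sqNorm (x : Cfsg.GolayPt → ℤ) = 32 ∧ Cfsg.dotInt (u : Cfsg.GolayPt → ℤ) (x : Cfsg.GolayPt → ℤ) = -16}, ∃ y₄ ∈ {x : ↥Cfsg.leechLattice | Cfsg.sqNorm (x : Cfsg.GolayPt → ℤ) = 32 ∧ Cfsg.dotInt (u : Cfsg.GolayPt → ℤ) (x : Cfsg.GolayPt → ℤ) = -16},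
      (MulAction.orbit ↥(MulAction.stabilizer ↥Cfsg.Co0 u ⊓ MulAction.stabilizer ↥Cfsg.Co0 x) y₁).ncard = 352 ∧ (MulAction.orbit ↥(MulAction.stabilizer ↥Cfsg.Co0 u ⊓ MulAction.stabilizer ↥Cfsg.Co0 x) y₂).ncard = 1100 ∧
      (MulAction.orbit ↥(MulAction.stabilizer ↥Cfsg.Co0 u ⊓ MulAction.stabilizer ↥Cfsg.Co0 x) y₃).ncard = 4125 ∧ (MulAction.orbit ↥(MulAction.stabilizer ↥Cfsg.Co0 u ⊓ MulAction.stabilizer ↥Cfsg.Co0 x) y₄).ncard = 5600 ∧
      {x : ↥Cfsg.leechLattice | Cfsg.sqNorm (x : Cfsg.GolayPt → ℤ) = 32 ∧ Cfsg.dotInt (u : Cfsg.GolayPt → ℤ) (x : Cfsg.GolayPt → ℤ) = -16} = {x} ∪ MulAction.orbit ↥(MulAction.stabilizer ↥Cfsg.Co0 u ⊓ MulAction.stabilizer ↥Cfsg.Co0 x) y₁ ∪ MulAction.orbit ↥(MulAction.stabilizer ↥Cfsg.Co0 u ⊓ MulAction.stabilizer ↥Cfsg.Co0 x) y₂ ∪ MulAction.orbit ↥(MulAction.stabilizer ↥Cfsg.Co0 u ⊓ MulAction.stabilizer ↥Cfsg.Co0 x) y₃ ∪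
        MulAction.orbit ↥(MulAction.stabilizer ↥Cfsg.Co0 u ⊓ MulAction.stabilizer ↥Cfsg.Co0 x) y₄ := by
  obtain ⟨hx1, hx2⟩ := hx
  have hH : ∀ (c : ℤ) (g : Co0), g ∈ (MulAction.stabilizer ↥Cfsg.Co0 u ⊓
      MulAction.stabilizer ↥Cfsg.Co0 x) ↔ FixL [(u, -16), (x, c)] g := by
    intro c g
    rw [fixL2, Subgroup.mem_inf, MulAction.mem_stabilizer_iff, MulAction.mem_stabilizer_iff]
  obtain ⟨nA, tA⟩ := hs_class u x hu hx1 hx2 (-8) 352 ncardA transA
  obtain ⟨nB, tB⟩ := hs_class u x hu hx1 hx2 16 1100 ncardB transB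
  obtain ⟨nC, tC⟩ := hs_class u x hu hx1 hx2 0 4125 ncardC transC
  obtain ⟨nD, tD⟩ := hs_class u x hu hx1 hx2 8 5600 ncardD transD
  obtain ⟨y1, hy1⟩ : (TT [(u, -16), (x, -8)]).Nonempty :=
    Set.nonempty_of_ncard_ne_zero (by rw [nA]; norm_num)
  obtain ⟨y2, hy2⟩ : (TT [(u, -16), (x, 16)]).Nonempty :=
    Set.nonempty_of_ncard_ne_zero (by rw [nB]; norm_num)
  obtain ⟨y3, hy3⟩ : (TT [(u, -16), (x, 0)]).Nonempty :=
    Set.nonempty_of_ncard_ne_zero (by rw [nC]; norm_num)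
  obtain ⟨y4, hy4⟩ : (TT [(u, -16), (x, 8)]).Nonempty :=
    Set.nonempty_of_ncard_ne_zero (by rw [nD]; norm_num)
  have o1 := orbit_eq_TT _ (hH (-8)) tA hy1
  have o2 := orbit_eq_TT _ (hH 16) tB hy2
  have o3 := orbit_eq_TT _ (hH 0) tC hy3
  have o4 := orbit_eq_TT _ (hH 8) tD hy4
  have sub : ∀ (c : ℤ) (y : leechLattice), y ∈ TT [(u, -16), (x, c)] → y ∈ {x : ↥Cfsg.leechLattice | Cfsg.sqNorm (x : Cfsg.GolayPt → ℤ) = 32 ∧ Cfsg.dotInt (u : Cfsg.GolayPt → ℤ) (x : Cfsg.GolayPt → ℤ) = -16} := by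
    intro c y hy
    rw [mem_TT2] at hy
    exact ⟨hy.1, hy.2.1⟩
  have hS := ncard_48_m16 u hu
  have Sfin : ({x : ↥Cfsg.leechLattice | Cfsg.sqNorm (x : Cfsg.GolayPt → ℤ) = 32 ∧ Cfsg.dotInt (u : Cfsg.GolayPt → ℤ) (x : Cfsg.GolayPt → ℤ) = -16}).Finite := Set.finite_of_ncard_pos (by rw [hS]; norm_num)
  have hfin : ∀ c : ℤ, (TT [(u, -16), (x, c)]).Finite := fun c => Sfin.subset (sub c)
  have f1 : ∀ y ∈ ({x} : Set leechLattice),
      dotInt (x : GolayPt → ℤ) (y : GolayPt → ℤ) = 32 := by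
    intro y hy
    rw [Set.mem_singleton_iff] at hy
    rw [hy, dotInt_self]
    exact hx1
  have fT : ∀ (c : ℤ), ∀ y ∈ TT [(u, -16), (x, c)],
      dotInt (x : GolayPt → ℤ) (y : GolayPt → ℤ) = c := by
    intro c y hy
    rw [mem_TT2] at hy
    exact hy.2.2
  have d1 : Disjoint ({x} : Set leechLattice) (TT [(u, -16), (x, -8)]) :=
    Set.disjoint_left.mpr (fun y hy hy' =>
      absurd ((f1 y hy).symm.trans (fT _ y hy')) (by norm_num))
  have d2 : Disjoint (({x} : Set leechLattice) ∪ TT [(u, -16), (x, -8)])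
      (TT [(u, -16), (x, 16)]) :=
    Set.disjoint_left.mpr (fun y hy hy' => by
      rcases hy with hy | hy
      · exact absurd ((f1 y hy).symm.trans (fT _ y hy')) (by norm_num)
      · exact absurd ((fT _ y hy).symm.trans (fT _ y hy')) (by norm_num))
  have d3 : Disjoint (({x} : Set leechLattice) ∪ TT [(u, -16), (x, -8)] ∪
      TT [(u, -16), (x, 16)]) (TT [(u, -16), (x, 0)]) :=
    Set.disjoint_left.mpr (fun y hy hy' => by
      rcases hy with (hy | hy) | hy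
      · exact absurd ((f1 y hy).symm.trans (fT _ y hy')) (by norm_num)
      · exact absurd ((fT _ y hy).symm.trans (fT _ y hy')) (by norm_num)
      · exact absurd ((fT _ y hy).symm.trans (fT _ y hy')) (by norm_num))
  have d4 : Disjoint (({x} : Set leechLattice) ∪ TT [(u, -16), (x, -8)] ∪
      TT [(u, -16), (x, 16)] ∪ TT [(u, -16), (x, 0)]) (TT [(u, -16), (x, 8)]) :=
    Set.disjoint_left.mpr (fun y hy hy' => by
      rcases hy with ((hy | hy) | hy) | hy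
      · exact absurd ((f1 y hy).symm.trans (fT _ y hy')) (by norm_num)
      · exact absurd ((fT _ y hy).symm.trans (fT _ y hy')) (by norm_num)
      · exact absurd ((fT _ y hy).symm.trans (fT _ y hy')) (by norm_num)
      · exact absurd ((fT _ y hy).symm.trans (fT _ y hy')) (by norm_num))
  have g1 := (Set.finite_singleton x).union (hfin (-8))
  have g2 := g1.union (hfin 16)
  have g3 := g2.union (hfin 0)
  have c1 := Set.ncard_union_eq d1 (Set.finite_singleton x) (hfin (-8))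
  have c2 := Set.ncard_union_eq d2 g1 (hfin 16)
  have c3 := Set.ncard_union_eq d3 g2 (hfin 0)
  have c4 := Set.ncard_union_eq d4 g3 (hfin 8)
  refine ⟨y1, sub _ _ hy1, y2, sub _ _ hy2, y3, sub _ _ hy3, y4, sub _ _ hy4, ?_⟩
  rw [o1, o2, o3, o4]
  refine ⟨nA, nB, nC, nD, ?_⟩
  symm
  apply Set.eq_of_subset_of_ncard_le
  · intro y hy
    rcases hy with (((hy | hy) | hy) | hy) | hy
    · rw [Set.mem_singleton_iff] at hy
      rw [hy]
      exact ⟨hx1, hx2⟩
    · exact sub _ _ hy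
    · exact sub _ _ hy
    · exact sub _ _ hy
    · exact sub _ _ hy
  · rw [hS, c4, c3, c2, c1, Set.ncard_singleton, nA, nB, nC, nD]
  · exact Sfin

end Cfsg.Agent.Lib.Helper37.D1641
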