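import Mathlib
import Cfsg.Agent.S1640
import Cfsg.Agent.S1641
import Cfsg.Agent.S0405
import Cfsg.Agent.Lib.Helper37.SimpleCrit

set_option autoImplicit false

/-! # The stabiliser of a vector of squared length 48 is simple of order 495766656000

The stabiliser acts on the 11178 minimal vectors at inner product `-16`, with simple point
stabiliser (the stabiliser of two vectors of squared length 48) and suborbits
`1, 352, 1100, 4125, 5600`. -/

namespace Cfsg.Agent.Lib.Helper37.Co3

open Cfsg Cfsg.Agent.Lib.Helper10 Cfsg.Agent.Lib.Helper37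

/-- The 11178 minimal vectors at inner product `-16` with `u`. -/
def S11 (u : leechLattice) : Set leechLattice :=
  {x : ↥Cfsg.leechLattice | Cfsg.sqNorm (x : Cfsg.GolayPt → ℤ) = 32 ∧ Cfsg.dotInt (u : Cfsg.GolayPt → ℤ) (x : Cfsg.GolayPt → ℤ) = -16}

theorem smul_add' (g : Co0) (v w : leechLattice) : g • (v + w) = g • v + g • w := g.2.1 v w

theorem smul_neg' (g : Co0) (v : leechLattice) : g • (-v) = -(g • v) := co0_map_neg g.2 v

theorem smul_norm' (g : Co0) (v : leechLattice) :
    sqNorm ((g • v : leechLattice) : GolayPt → ℤ) = sqNorm (v : GolayPt → ℤ) := g.2.2 v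

theorem smul_dot' (g : Co0) (a b : leechLattice) :
    dotInt ((g • a : leechLattice) : GolayPt → ℤ) ((g • b : leechLattice) : GolayPt → ℤ)
      = dotInt (a : GolayPt → ℤ) (b : GolayPt → ℤ) := co0_dot g.2 a b

/-- A vector is determined by its inner products with `(5,1,…,1)` and the vectors
`-4e_∞ + 4e_j`. -/
theorem coord_det11 {p q : GolayPt → ℤ} (h0 : dotInt repD p = dotInt repD q)
    (h : ∀ j : ZMod 23, dotInt (Pi.single none (-4) + Pi.single (some j) 4) p =
      dotInt (Pi.single none (-4) + Pi.single (some j) 4) q) : p = q := by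
  have hj : ∀ j : ZMod 23, p (some j) = q (some j) + (p none - q none) := by
    intro j
    have := h j
    rw [dotInt_comm, dotInt_add_right, dotInt_single, dotInt_single,
      dotInt_comm _ q, dotInt_add_right, dotInt_single, dotInt_single] at this
    linarith
  have hs : ∑ j : ZMod 23, p (some j) = ∑ j : ZMod 23, q (some j) + 23 * (p none - q none) := by
    rw [Finset.sum_congr rfl (fun j _ => hj j), Finset.sum_add_distrib, Finset.sum_const,
      card_zmod23]
    simp
  have e1 := dot_cvec 5 p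
  have e2 := dot_cvec 5 q
  have h0' : dotInt (cvec 5) p = dotInt (cvec 5) q := h0
  rw [e1, e2, Fintype.sum_option, Fintype.sum_option, hs] at h0'
  have hn : p none = q none := by linarith
  funext i
  cases i with
  | none => exact hn
  | some j => linarith [hj j]

/-- An automorphism fixing `(5,1,…,1)` and the vectors `-4e_∞ + 4e_j` is trivial. -/
theorem fix_all11 {h : Equiv.Perm leechLattice} (hh : h ∈ Co0)
    (hfix : ∀ b : leechLattice, ((b : GolayPt → ℤ) = repD ∨
      ∃ j : ZMod 23, (b : GolayPt → ℤ) = Pi.single none (-4) + Pi.single (some j) 4) →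
      h b = b) : h = 1 := by
  have key : ∀ (P : GolayPt → ℤ) (hP : P ∈ leechLattice), (P = repD ∨
      ∃ j : ZMod 23, P = Pi.single none (-4) + Pi.single (some j) 4) →
      ∀ z : leechLattice, dotInt P ((h z : leechLattice) : GolayPt → ℤ) =
        dotInt P (z : GolayPt → ℤ) := by
    intro P hP hc z
    have e := co0_dot hh ⟨P, hP⟩ z
    rw [hfix ⟨P, hP⟩ hc] at e
    exact e
  apply Equiv.ext
  intro z
  apply Subtype.ext
  show ((h z : leechLattice) : GolayPt → ℤ) = (z : GolayPt → ℤ)
  refine coord_det11 (key _ repD_mem (Or.inl rfl) z) ?_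
  intro j
  exact key _ (pair_mem (none_ne_some j) (Or.inr rfl) (Or.inl rfl)) (Or.inr ⟨j, rfl⟩) z

/-- Faithfulness on the 11178 vectors. -/
theorem co3_faithful {u : leechLattice} (hu : sqNorm (u : GolayPt → ℤ) = 48)
    {k : Equiv.Perm leechLattice} (hk : k ∈ Co0) (ku : k u = u)
    (kS : ∀ y ∈ S11 u, k y = y) : k = 1 := by
  obtain ⟨g0, hg0⟩ := trans_norm48 u repDL hu repD_norm
  have hg0' : g0.1 u = repDL := hg0
  have hgu : ((g0.1 u : leechLattice) : GolayPt → ℤ) = repD := by rw [hg0']; rfl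
  have hh : g0.1 * k * g0.1⁻¹ ∈ Co0 := Co0.mul_mem (Co0.mul_mem g0.2 hk) (Co0.inv_mem g0.2)
  have app : ∀ b, k b = b → (g0.1 * k * g0.1⁻¹) (g0.1 b) = g0.1 b := by
    intro b hb
    show g0.1 (k (g0.1.symm (g0.1 b))) = g0.1 b
    rw [Equiv.symm_apply_apply, hb]
  have h1' : g0.1 * k * g0.1⁻¹ = 1 := by
    apply fix_all11 hh
    intro b hb
    have e : b = g0.1 (g0.1.symm b) := (Equiv.apply_symm_apply g0.1 b).symm
    rw [e]
    apply app
    rcases hb with hb | ⟨j, hb⟩
    · have e' : g0.1.symm b = u := by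
        rw [Equiv.symm_apply_eq]
        exact Subtype.ext (hb.trans hgu.symm)
      rw [e']
      exact ku
    · apply kS
      refine ⟨?_, ?_⟩
      · have e1 := g0.2.2 (g0.1.symm b)
        rw [Equiv.apply_symm_apply, hb] at e1
        rw [← e1, sqNorm_pair (none_ne_some j)]
        norm_num
      · have e1 := co0_dot g0.2 u (g0.1.symm b)
        rw [Equiv.apply_symm_apply, hgu, hb, dotInt_add_right, dotInt_single, dotInt_single]
          at e1
        rw [← e1]
        show (5 : ℤ) * -4 + 1 * 4 = -16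
        norm_num
  have e : k = g0.1⁻¹ * (g0.1 * k * g0.1⁻¹) * g0.1 := by group
  rw [e, h1']
  group

/-- The stabiliser of a vector of the set in the stabiliser of `u` is simple of order
44352000. -/
theorem co3_stab {u x : leechLattice} (hu : sqNorm (u : GolayPt → ℤ) = 48) (hx : x ∈ S11 u) :
    IsSimpleGroup (MulAction.stabilizer ↥(MulAction.stabilizer ↥Co0 u) x) ∧
      Nat.card (MulAction.stabilizer ↥(MulAction.stabilizer ↥Co0 u) x) = 44352000 := by
  have hw : sqNorm ((-(u + x) : leechLattice) : GolayPt → ℤ) = 48 := by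
    show sqNorm (-((u : GolayPt → ℤ) + (x : GolayPt → ℤ))) = 48
    rw [sqNorm_neg, sqNorm_add, hu, hx.1, hx.2]
    norm_num
  have huw : dotInt (u : GolayPt → ℤ) ((-(u + x) : leechLattice) : GolayPt → ℤ) = -32 := by
    show dotInt (u : GolayPt → ℤ) (-((u : GolayPt → ℤ) + (x : GolayPt → ℤ))) = -32
    rw [dotInt_neg_right, dotInt_add_right, dotInt_self, hu, hx.2]
    norm_num
  have h05 := Cfsg.Agent.S0405.result u (-(u + x)) hu hw huw
  obtain ⟨hs, hc⟩ := h05
  have heq : MulAction.stabilizer ↥Co0 u ⊓ MulAction.stabilizer ↥Co0 (-(u + x)) =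
      MulAction.stabilizer ↥Co0 u ⊓ MulAction.stabilizer ↥Co0 x := by
    ext g
    simp only [Subgroup.mem_inf, MulAction.mem_stabilizer_iff]
    constructor
    · rintro ⟨h1, h2⟩
      refine ⟨h1, ?_⟩
      rw [smul_neg', smul_add', h1] at h2
      exact add_left_cancel (neg_injective h2)
    · rintro ⟨h1, h2⟩
      refine ⟨h1, ?_⟩
      rw [smul_neg', smul_add', h1, h2]
  have h2 : MulAction.stabilizer ↥(MulAction.stabilizer ↥Co0 u) x =
      (MulAction.stabilizer ↥Co0 x).subgroupOf (MulAction.stabilizer ↥Co0 u) := by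
    ext g
    rw [Subgroup.mem_subgroupOf, MulAction.mem_stabilizer_iff, MulAction.mem_stabilizer_iff]
    rfl
  have h3 : MulAction.stabilizer ↥(MulAction.stabilizer ↥Co0 u) x =
      (MulAction.stabilizer ↥Co0 u ⊓ MulAction.stabilizer ↥Co0 x).subgroupOf
        (MulAction.stabilizer ↥Co0 u) := by
    rw [h2, Subgroup.inf_subgroupOf_left]
  let e1 := MulEquiv.subgroupCongr h3
  let e2 := Subgroup.subgroupOfEquivOfLe
    (inf_le_left : MulAction.stabilizer ↥Co0 u ⊓ MulAction.stabilizer ↥Co0 x ≤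
      MulAction.stabilizer ↥Co0 u)
  let e3 := MulEquiv.subgroupCongr heq.symm
  let e := (e1.trans e2).trans e3
  have := hs
  exact ⟨e.isSimpleGroup, by rw [Nat.card_congr e.toEquiv]; exact hc⟩

/-- Sizes of the subsets of the 11178 vectors that contain `x` and are invariant under the
stabiliser of `u` and `x`. -/
theorem co3_inv {u x : leechLattice} (hu : sqNorm (u : GolayPt → ℤ) = 48) (hx : x ∈ S11 u)
    (S : Set leechLattice) (hxS : x ∈ S) (hS : S ⊆ S11 u)
    (hinv : ∀ g : ↥Co0, g • u = u → g • x = x → ∀ s ∈ S, g • s ∈ S) :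
    S.ncard ∈ (subSums [352, 1100, 4125, 5600]).map (· + 1) := by
  obtain ⟨y1, -, y2, -, y3, -, y4, -, n1, n2, n3, n4, hunion⟩ :=
    Cfsg.Agent.S1641.result u x hu hx
  have hSfin : (S11 u).Finite :=
    Set.finite_of_ncard_pos (by rw [S11, (Cfsg.Agent.S1640.result u hu).1]; norm_num)
  have hTf : (S \ {x}).Finite := (hSfin.subset hS).subset Set.sdiff_subset
  have hxO : ∀ (y : leechLattice) (n : ℕ),
      (MulAction.orbit ↥(MulAction.stabilizer ↥Cfsg.Co0 u ⊓ MulAction.stabilizer ↥Cfsg.Co0 x)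
        y).ncard = n → 1 < n →
      x ∉ MulAction.orbit ↥(MulAction.stabilizer ↥Cfsg.Co0 u ⊓ MulAction.stabilizer ↥Cfsg.Co0 x)
        y := by
    intro y n hn h1 hxy
    have e1 := MulAction.orbit_eq_iff.mpr hxy
    have e2 : MulAction.orbit
        ↥(MulAction.stabilizer ↥Cfsg.Co0 u ⊓ MulAction.stabilizer ↥Cfsg.Co0 x) x = {x} := by
      ext z
      constructor
      · rintro ⟨h, rfl⟩
        exact h.2.2
      · rintro rfl
        exact MulAction.mem_orbit_self _
    rw [← e1, e2, Set.ncard_singleton] at hn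
    omega
  have hdis : ∀ (y y' : leechLattice) (n n' : ℕ),
      (MulAction.orbit ↥(MulAction.stabilizer ↥Cfsg.Co0 u ⊓ MulAction.stabilizer ↥Cfsg.Co0 x)
        y).ncard = n →
      (MulAction.orbit ↥(MulAction.stabilizer ↥Cfsg.Co0 u ⊓ MulAction.stabilizer ↥Cfsg.Co0 x)
        y').ncard = n' → n ≠ n' →
      Disjoint
        (MulAction.orbit ↥(MulAction.stabilizer ↥Cfsg.Co0 u ⊓ MulAction.stabilizer ↥Cfsg.Co0 x)
          y)
        (MulAction.orbit ↥(MulAction.stabilizer ↥Cfsg.Co0 u ⊓ MulAction.stabilizer ↥Cfsg.Co0 x)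
          y') := by
    intro y y' n n' hn hn' hne
    rw [Set.disjoint_left]
    intro z hz hz'
    have e1 := MulAction.orbit_eq_iff.mpr hz
    have e2 := MulAction.orbit_eq_iff.mpr hz'
    rw [← e1, e2, hn'] at hn
    exact hne hn.symm
  have hall : ∀ (y : leechLattice) (n : ℕ),
      (MulAction.orbit ↥(MulAction.stabilizer ↥Cfsg.Co0 u ⊓ MulAction.stabilizer ↥Cfsg.Co0 x)
        y).ncard = n → 1 < n →
      (∃ z ∈ S \ {x}, z ∈ MulAction.orbit
        ↥(MulAction.stabilizer ↥Cfsg.Co0 u ⊓ MulAction.stabilizer ↥Cfsg.Co0 x) y) →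
      MulAction.orbit ↥(MulAction.stabilizer ↥Cfsg.Co0 u ⊓ MulAction.stabilizer ↥Cfsg.Co0 x) y
        ⊆ S \ {x} := by
    rintro y n hn h1 ⟨z, hz, hzy⟩ t ht
    have e1 := MulAction.orbit_eq_iff.mpr hzy
    rw [← e1] at ht
    obtain ⟨h, rfl⟩ := ht
    refine ⟨hinv h.1 h.2.1 h.2.2 z hz.1, ?_⟩
    intro hx'
    apply hxO y n hn h1
    rw [← e1]
    exact ⟨h, hx'⟩
  have key := ncard_mem_subSums
    [(MulAction.orbit ↥(MulAction.stabilizer ↥Cfsg.Co0 u ⊓ MulAction.stabilizer ↥Cfsg.Co0 x) y1,
        352),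
      (MulAction.orbit ↥(MulAction.stabilizer ↥Cfsg.Co0 u ⊓ MulAction.stabilizer ↥Cfsg.Co0 x) y2,
        1100),
      (MulAction.orbit ↥(MulAction.stabilizer ↥Cfsg.Co0 u ⊓ MulAction.stabilizer ↥Cfsg.Co0 x) y3,
        4125),
      (MulAction.orbit ↥(MulAction.stabilizer ↥Cfsg.Co0 u ⊓ MulAction.stabilizer ↥Cfsg.Co0 x) y4,
        5600)] (S \ {x}) hTf ?_ ?_ ?_ ?_
  · have h1 := Set.ncard_sdiff_singleton_add_one hxS (hSfin.subset hS)
    rw [← h1]
    exact List.mem_map.mpr ⟨_, key, rfl⟩
  · intro p hp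
    simp only [List.mem_cons, List.not_mem_nil, or_false] at hp
    rcases hp with rfl | rfl | rfl | rfl
    exacts [n1, n2, n3, n4]
  · refine List.Pairwise.cons ?_ (List.Pairwise.cons ?_ (List.Pairwise.cons ?_
      (List.Pairwise.cons ?_ List.Pairwise.nil)))
    · intro q hq
      simp only [List.mem_cons, List.not_mem_nil, or_false] at hq
      rcases hq with rfl | rfl | rfl
      exacts [hdis _ _ _ _ n1 n2 (by norm_num), hdis _ _ _ _ n1 n3 (by norm_num),
        hdis _ _ _ _ n1 n4 (by norm_num)]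
    · intro q hq
      simp only [List.mem_cons, List.not_mem_nil, or_false] at hq
      rcases hq with rfl | rfl
      exacts [hdis _ _ _ _ n2 n3 (by norm_num), hdis _ _ _ _ n2 n4 (by norm_num)]
    · intro q hq
      simp only [List.mem_cons, List.not_mem_nil, or_false] at hq
      subst hq
      exact hdis _ _ _ _ n3 n4 (by norm_num)
    · intro q hq
      simp at hq
  · intro z hz
    have hz' : z ∈ S11 u := hS hz.1
    rw [S11, hunion] at hz'
    rcases hz' with (((h | h) | h) | h) | h
    · exact absurd h hz.2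
    · exact ⟨_, List.mem_cons_self, h⟩
    · exact ⟨_, List.mem_cons_of_mem _ List.mem_cons_self, h⟩
    · exact ⟨_, List.mem_cons_of_mem _ (List.mem_cons_of_mem _ List.mem_cons_self), h⟩
    · exact ⟨_, List.mem_cons_of_mem _ (List.mem_cons_of_mem _
        (List.mem_cons_of_mem _ List.mem_cons_self)), h⟩
  · intro p hp hex
    simp only [List.mem_cons, List.not_mem_nil, or_false] at hp
    rcases hp with rfl | rfl | rfl | rfl
    exacts [hall y1 352 n1 (by norm_num) hex, hall y2 1100 n2 (by norm_num) hex,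
      hall y3 4125 n3 (by norm_num) hex, hall y4 5600 n4 (by norm_num) hex]

/-- The stabiliser of a vector of squared length 48 is simple of order 495766656000. -/
theorem co3_main (u : leechLattice) (hu : sqNorm (u : GolayPt → ℤ) = 48) :
    IsSimpleGroup ↥(MulAction.stabilizer ↥Co0 u) ∧
      Nat.card ↥(MulAction.stabilizer ↥Co0 u) = 495766656000 := by
  obtain ⟨hcard, htrans⟩ := Cfsg.Agent.S1640.result u hu
  have hcard' : (S11 u).ncard = 11178 := hcard
  obtain ⟨x, hx⟩ : (S11 u).Nonempty :=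
    Set.nonempty_of_ncard_ne_zero (by rw [hcard']; norm_num)
  have hfin : Finite ↥Co0 := Nat.finite_of_card_ne_zero (by rw [card_co0]; norm_num)
  have horb : MulAction.orbit ↥(MulAction.stabilizer ↥Co0 u) x = S11 u := by
    ext y
    constructor
    · rintro ⟨g, rfl⟩
      have gu : g.1 • u = u := g.2
      refine ⟨?_, ?_⟩
      · show sqNorm ((g.1 • x : leechLattice) : GolayPt → ℤ) = 32
        rw [smul_norm']
        exact hx.1
      · have e := smul_dot' g.1 u x
        rw [gu] at e
        show dotInt (u : GolayPt → ℤ) ((g.1 • x : leechLattice) : GolayPt → ℤ) = -16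
        rw [e]
        exact hx.2
    · intro hy
      obtain ⟨g, gu, gx⟩ := htrans x hx y hy
      exact ⟨⟨g, gu⟩, gx⟩
  obtain ⟨hKs, hKc⟩ := co3_stab hu hx
  have hG : Nat.card ↥(MulAction.stabilizer ↥Co0 u) = 495766656000 := by
    have h1 := Subgroup.index_mul_card (MulAction.stabilizer ↥(MulAction.stabilizer ↥Co0 u) x)
    rw [MulAction.index_stabilizer, horb, hcard', hKc] at h1
    rw [← h1]
  refine ⟨simple_of_suborbits x ?_ hKs ((subSums [352, 1100, 4125, 5600]).map (· + 1)) 11178 ?_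
    (by rw [horb]; exact hcard') (by norm_num) (by decide) (by rw [hG]; decide) ?_, hG⟩
  · intro n hn
    apply Subtype.ext
    apply Subtype.ext
    show (n.1.1 : Equiv.Perm leechLattice) = 1
    apply co3_faithful hu n.1.2 n.2
    intro y hy
    obtain ⟨g, gu, gx⟩ := htrans x hx y hy
    have e := hn ⟨g, gu⟩
    rw [← gx]
    exact e
  · intro S hxS hSo hK
    rw [horb] at hSo
    exact co3_inv hu hx S hxS hSo (fun g gu gx s hs => hK ⟨g, gu⟩ gx s hs)
  · intro N hN hNc
    obtain ⟨P, hPn, hPN, hPc⟩ := normal_odd_half N 5589 (by decide) (by rw [hNc])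
    exact ⟨P, hPn, hPN, by rw [hPc]; decide⟩

end Cfsg.Agent.Lib.Helper37.Co3
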