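import Mathlib
import Cfsg.Agent.Lib.Helper44.ESDefs

/-!
# ES project (helper44, S5877), piece ES-PERM (helper37)

If `x h = lam • (h x)` for invertible matrices and `lam ^ j ≠ 1` for `0 < j < m`, then
`m * dim E_c(h) ≤ n`.
-/

set_option autoImplicit false

namespace Cfsg.Agent.Lib.Helper44.ES

open Module Module.End

private theorem esperm_step {n : ℕ} {F : Type*} [Field F] (X Hm : Matrix (Fin n) (Fin n) F)
    (hXinj : ∀ v w : Fin n → F, X.mulVec v = X.mulVec w → v = w) (lam : F) (hlam : lam ≠ 0)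
    (hx : X * Hm = lam • (Hm * X)) (μ : F) :
    finrank F (eigenspace (Matrix.toLin' Hm) μ) ≤
      finrank F (eigenspace (Matrix.toLin' Hm) (μ * lam⁻¹)) := by
  have hHX : Hm * X = lam⁻¹ • (X * Hm) := by
    rw [hx, smul_smul, inv_mul_cancel₀ hlam, one_smul]
  have hmap : ∀ v : eigenspace (Matrix.toLin' Hm) μ,
      ((Matrix.toLin' X).comp (eigenspace (Matrix.toLin' Hm) μ).subtype) v ∈
        eigenspace (Matrix.toLin' Hm) (μ * lam⁻¹) := by
    intro v
    have hv : Matrix.toLin' Hm v.1 = μ • v.1 := mem_eigenspace_iff.mp v.2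
    rw [Matrix.toLin'_apply] at hv
    rw [mem_eigenspace_iff, LinearMap.comp_apply, Submodule.subtype_apply, Matrix.toLin'_apply,
      Matrix.toLin'_apply, Matrix.mulVec_mulVec, hHX, Matrix.smul_mulVec,
      ← Matrix.mulVec_mulVec, hv, Matrix.mulVec_smul, smul_smul, mul_comm]
  have hg : Function.Injective (LinearMap.codRestrict (eigenspace (Matrix.toLin' Hm) (μ * lam⁻¹))
      ((Matrix.toLin' X).comp (eigenspace (Matrix.toLin' Hm) μ).subtype) hmap) := by
    intro v w hvw
    have h1 := congrArg Subtype.val hvw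
    simp only [LinearMap.codRestrict_apply, LinearMap.comp_apply, Submodule.subtype_apply,
      Matrix.toLin'_apply] at h1
    exact Subtype.ext (hXinj _ _ h1)
  exact LinearMap.finrank_le_finrank_of_injective hg

theorem es_perm {n : ℕ} {F : Type*} [Field F] (x h : Matrix.GeneralLinearGroup (Fin n) F) (lam : F) (m : ℕ)
    (hord : ∀ j, 0 < j → j < m → lam ^ j ≠ 1)
    (hx : (x : Matrix (Fin n) (Fin n) F) * (h : Matrix (Fin n) (Fin n) F)
      = lam • ((h : Matrix (Fin n) (Fin n) F) * (x : Matrix (Fin n) (Fin n) F))) (c : F) :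
    m * Module.finrank F (Module.End.eigenspace (Matrix.toLin' (h : Matrix (Fin n) (Fin n) F)) c) ≤ n := by
  classical
  obtain ⟨X, hX⟩ : ∃ X : Matrix (Fin n) (Fin n) F, X = (x : Matrix (Fin n) (Fin n) F) :=
    ⟨_, rfl⟩
  obtain ⟨Hm, hHm⟩ : ∃ Hm : Matrix (Fin n) (Fin n) F, Hm = (h : Matrix (Fin n) (Fin n) F) :=
    ⟨_, rfl⟩
  rw [← hX, ← hHm] at hx
  rw [← hHm]
  have hXinj : ∀ v w : Fin n → F, X.mulVec v = X.mulVec w → v = w := by
    intro v w hvw
    have h1 : (x⁻¹ : Matrix.GeneralLinearGroup (Fin n) F).1.mulVec (X.mulVec v) =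
        (x⁻¹ : Matrix.GeneralLinearGroup (Fin n) F).1.mulVec (X.mulVec w) := by rw [hvw]
    rw [Matrix.mulVec_mulVec, Matrix.mulVec_mulVec, hX, ← Units.val_mul, inv_mul_cancel,
      Units.val_one, Matrix.one_mulVec, Matrix.one_mulVec] at h1
    exact h1
  have hHinj : ∀ v : Fin n → F, Hm.mulVec v = 0 → v = 0 := by
    intro v hv
    have h1 : (h⁻¹ : Matrix.GeneralLinearGroup (Fin n) F).1.mulVec (Hm.mulVec v) = 0 := by
      rw [hv, Matrix.mulVec_zero]
    rw [Matrix.mulVec_mulVec, hHm, ← Units.val_mul, inv_mul_cancel, Units.val_one,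
      Matrix.one_mulVec] at h1
    exact h1
  by_cases hd : finrank F (eigenspace (Matrix.toLin' Hm) c) = 0
  · rw [hd, mul_zero]
    exact Nat.zero_le n
  · have hne : eigenspace (Matrix.toLin' Hm) c ≠ ⊥ := by
      intro hbot
      apply hd
      rw [hbot]
      exact finrank_bot F (Fin n → F)
    obtain ⟨v, hv, hv0⟩ := Submodule.exists_mem_ne_zero_of_ne_bot hne
    have hv' : Hm.mulVec v = c • v := by
      have h1 := mem_eigenspace_iff.mp hv
      rwa [Matrix.toLin'_apply] at h1
    have hc0 : c ≠ 0 := by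
      intro h0
      rw [h0, zero_smul] at hv'
      exact hv0 (hHinj v hv')
    have hlam : lam ≠ 0 := by
      intro h0
      rw [h0, zero_smul] at hx
      have h1 : (X * Hm).mulVec v = 0 := by rw [hx, Matrix.zero_mulVec]
      rw [← Matrix.mulVec_mulVec, hv', Matrix.mulVec_smul] at h1
      have h2 : X.mulVec v = 0 := by
        rcases smul_eq_zero.mp h1 with h | h
        · exact absurd h hc0
        · exact h
      have h3 : v = 0 := hXinj v 0 (by rw [h2, Matrix.mulVec_zero])
      exact hv0 h3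
    have hstep : ∀ j : ℕ, finrank F (eigenspace (Matrix.toLin' Hm) c) ≤
        finrank F (eigenspace (Matrix.toLin' Hm) (c * (lam⁻¹) ^ j)) := by
      intro j
      induction j with
      | zero => rw [pow_zero, mul_one]
      | succ j ih =>
        refine ih.trans ?_
        have h1 := esperm_step X Hm hXinj lam hlam hx (c * (lam⁻¹) ^ j)
        rwa [mul_assoc, ← pow_succ] at h1
    have key : ∀ i j : ℕ, i < j → j < m → c * (lam⁻¹) ^ i ≠ c * (lam⁻¹) ^ j := by
      intro i j hij hjm heq
      obtain ⟨k, rfl⟩ := Nat.exists_eq_add_of_lt hij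
      have h1 : (lam⁻¹) ^ i = (lam⁻¹) ^ (i + k + 1) := mul_left_cancel₀ hc0 heq
      have h4 : (lam⁻¹) ^ i * (lam⁻¹) ^ (k + 1) = (lam⁻¹) ^ i * 1 := by
        rw [mul_one, ← pow_add, ← add_assoc]
        exact h1.symm
      have h5 : (lam⁻¹) ^ (k + 1) = 1 :=
        mul_left_cancel₀ (pow_ne_zero i (inv_ne_zero hlam)) h4
      have h6 : lam ^ (k + 1) = 1 := by
        rw [inv_pow, inv_eq_one] at h5
        exact h5
      exact hord (k + 1) (by omega) (by omega) h6
    have hμ : Function.Injective (fun j : Fin m => c * (lam⁻¹) ^ (j : ℕ)) := by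
      intro a b hab
      by_contra hne'
      rcases lt_or_gt_of_ne (fun h' => hne' (Fin.ext h')) with hlt | hlt
      · exact key a b hlt b.2 hab
      · exact key b a hlt a.2 hab.symm
    have hind : iSupIndep (fun j : Fin m =>
        eigenspace (Matrix.toLin' Hm) (c * (lam⁻¹) ^ (j : ℕ))) :=
      (eigenspaces_iSupIndep (Matrix.toLin' Hm)).comp hμ
    have hinj := hind.dfinsupp_lsum_injective
    have h1 := LinearMap.finrank_le_finrank_of_injective hinj
    have h2 := Module.finrank_directSum F (fun j : Fin m =>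
        ↥(eigenspace (Matrix.toLin' Hm) (c * (lam⁻¹) ^ (j : ℕ))))
    have h3 : (∑ j : Fin m, finrank F (eigenspace (Matrix.toLin' Hm) (c * (lam⁻¹) ^ (j : ℕ))))
        ≤ n := by
      rw [← h2]
      refine le_trans ?_ (le_of_eq (Module.finrank_fin_fun F))
      exact h1
    calc m * finrank F (eigenspace (Matrix.toLin' Hm) c)
        = ∑ _j : Fin m, finrank F (eigenspace (Matrix.toLin' Hm) c) := by simp
      _ ≤ ∑ j : Fin m, finrank F (eigenspace (Matrix.toLin' Hm) (c * (lam⁻¹) ^ (j : ℕ))) :=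
          Finset.sum_le_sum (fun j _ => hstep j)
      _ ≤ n := h3

end Cfsg.Agent.Lib.Helper44.ES
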