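import Mathlib
import Cfsg.Agent.Lib.Helper98.F75Defs
import Cfsg.Agent.Lib.Helper85.TD2INVCP

/-!
# S5975 project (helper98), piece F75-CP4 (helper37)

A non-scalar involution of `Sp_4(F)`, characteristic not two, has characteristic polynomial
`(X - 1)² (X + 1)²`.
-/

set_option autoImplicit false

namespace Cfsg.Agent.Lib.Helper98.F75

open Matrix Polynomial

theorem charpoly_invol_four {F : Type*} [Field F] (h2 : (2 : F) ≠ 0)
    (M : Matrix (Fin 2 ⊕ Fin 2) (Fin 2 ⊕ Fin 2) F) (hM : M ∈ Matrix.symplecticGroup (Fin 2) F)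
    (hsq : M * M = 1) (hns : ∀ z : F, M ≠ z • (1 : Matrix (Fin 2 ⊕ Fin 2) (Fin 2 ⊕ Fin 2) F)) :
    M.charpoly = (X - 1) ^ 2 * (X + 1) ^ 2 := by
  obtain ⟨t, ht, hcp⟩ := Cfsg.Agent.Lib.Helper98.TD2.charpoly_of_sq_one h2 M hM hsq
  have hCH := Matrix.aeval_self_charpoly M
  have h8 : (8 : F) ≠ 0 := by
    have h : (8 : F) = 2 * 2 * 2 := by norm_num
    rw [h]
    exact mul_ne_zero (mul_ne_zero h2 h2) h2
  have hM2 : M ^ 2 = 1 := by rw [pow_two, hsq]
  interval_cases t
  · exfalso
    have hp : ((X - 1) ^ (2 * (2 - 0)) * (X + 1) ^ (2 * 0) : F[X]) =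
        (X ^ 2 - 1) * (X ^ 2 - C 4 * X + C 7) + C 8 * (1 - X) := by
      simp only [map_ofNat]
      norm_num
      ring
    rw [hcp, hp] at hCH
    simp only [map_add, map_mul, map_sub, map_pow, aeval_X, map_one, hM2, sub_self, zero_mul,
      zero_add, aeval_C, Algebra.algebraMap_eq_smul_one, smul_mul_assoc, one_mul] at hCH
    rcases smul_eq_zero.mp hCH with h | h
    · exact h8 h
    · apply hns 1
      rw [one_smul]
      exact (sub_eq_zero.mp h).symm
  · rw [hcp]
  · exfalso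
    have hp : ((X - 1) ^ (2 * (2 - 2)) * (X + 1) ^ (2 * 2) : F[X]) =
        (X ^ 2 - 1) * (X ^ 2 + C 4 * X + C 7) + C 8 * (1 + X) := by
      simp only [map_ofNat]
      norm_num
      ring
    rw [hcp, hp] at hCH
    simp only [map_add, map_mul, map_sub, map_pow, aeval_X, map_one, hM2, sub_self, zero_mul,
      zero_add, aeval_C, Algebra.algebraMap_eq_smul_one, smul_mul_assoc, one_mul] at hCH
    rcases smul_eq_zero.mp hCH with h | h
    · exact h8 h
    · apply hns (-1)
      rw [neg_smul, one_smul]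
      exact eq_neg_of_add_eq_zero_right h

end Cfsg.Agent.Lib.Helper98.F75
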