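import Mathlib
import Cfsg.Agent.Lib.Helper98.F75Defs

/-!
# S5975 project (helper98), piece F75-FIXF (helper37)

For a field extension of prime degree, the fixed points of a non-identity automorphism are
exactly the base field.
-/

set_option autoImplicit false

namespace Cfsg.Agent.Lib.Helper98.F75

open Matrix Polynomial

theorem fixed_of_aut_ne_one {F : Type*} [Field F] [Fintype F] {L : Type*} [Field L] [Fintype L]
    [Algebra F L] (hk : (Module.finrank F L).Prime) (τ : L ≃ₐ[F] L) (c₀ : L) (hc₀ : τ c₀ ≠ c₀)
    (c : L) (hc : τ c = c) : ∃ a : F, c = algebraMap F L a := by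
  have hfd : FiniteDimensional F L := Module.finite_of_finrank_pos hk.pos
  obtain ⟨K, hK⟩ : ∃ K : IntermediateField F L,
      K = IntermediateField.fixedField (Subgroup.zpowers τ) := ⟨_, rfl⟩
  have hcK : c ∈ K := by
    rw [hK, IntermediateField.mem_fixedField_iff]
    intro f hf
    have hle : Subgroup.zpowers τ ≤ MulAction.stabilizer (L ≃ₐ[F] L) c := by
      rw [Subgroup.zpowers_le, MulAction.mem_stabilizer_iff]
      exact hc
    have h1 := hle hf
    rw [MulAction.mem_stabilizer_iff] at h1
    exact h1
  have hc₀K : c₀ ∉ K := by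
    intro h
    rw [hK, IntermediateField.mem_fixedField_iff] at h
    exact hc₀ (h τ (Subgroup.mem_zpowers τ))
  have hdvd : Module.finrank F K ∣ Module.finrank F L :=
    ⟨Module.finrank K L, (Module.finrank_mul_finrank F K L).symm⟩
  rcases (Nat.dvd_prime hk).1 hdvd with h1 | h1
  · have hbot : K = ⊥ := IntermediateField.finrank_eq_one_iff.mp h1
    rw [hbot, IntermediateField.mem_bot] at hcK
    obtain ⟨a, ha⟩ := hcK
    exact ⟨a, ha.symm⟩
  · exfalso
    have htop : K = ⊤ :=
      IntermediateField.eq_of_le_of_finrank_le le_top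
        (by rw [IntermediateField.finrank_top', h1])
    exact hc₀K (by rw [htop]; exact IntermediateField.mem_top)

end Cfsg.Agent.Lib.Helper98.F75
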