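import Cfsg.Agent.Lib.Helper98.H90Defs

/-!
# Project H74, batch 2 (S5990), piece AR90OF (helper37): `ar90_odd_fwd`

Pure arithmetic: for `i` odd and `2 i ≤ m`, the model `ModelH (-1) (-1) i d m` implies
`Cond90 i d m` (test the model on `A = 2 * ((2 d) / (2 i))`).
-/

set_option autoImplicit false

namespace Cfsg.Agent.Lib.Helper98.H74

open Cfsg.Agent.Lib.Helper47 Cfsg.Agent.Lib.Helper98.T73 Module Polynomial

/-- AR90OF -/
theorem ar90_odd_fwd (i d m : ℕ) (hi : 1 ≤ i) (hodd : ¬ Even i) (hd : 4 ≤ d) (hm : 2 ≤ m)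
    (hme : Even m) (hmd : m + 2 ≤ 2 * d) (him : 2 * i ≤ m) (hM : ModelH (-1) (-1) i d m) :
    Cond90 i d m := by
  unfold Cond90
  rw [if_neg hodd]
  by_cases hs : (2 * d) % (2 * i) = 0
  · exact Or.inl hs
  · right
    have hodd' : Odd i := Nat.not_even_iff_odd.mp hodd
    obtain ⟨a, ha⟩ : ∃ a, a = (2 * d) / (2 * i) := ⟨_, rfl⟩
    obtain ⟨s, hs'⟩ : ∃ s, s = (2 * d) % (2 * i) := ⟨_, rfl⟩
    have hdiv : 2 * i * a + s = 2 * d := by
      rw [ha, hs']
      exact Nat.div_add_mod (2 * d) (2 * i)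
    have hslt : s < 2 * i := by
      rw [hs']
      exact Nat.mod_lt _ (by omega)
    rw [← hs'] at hs ⊢
    have ha1 : 1 ≤ a := by
      by_contra h
      have h0 : a = 0 := by omega
      rw [h0] at hdiv
      omega
    have hmul : i * (2 * a) = 2 * i * a := by ring
    have hV : Valid (-1) i d (2 * a) := by
      refine ⟨by omega, by omega, fun _ => even_two_mul a, ?_⟩
      intro h
      exfalso
      omega
    obtain ⟨j, w, hjA, hjev, hm', hw, hw0, -⟩ := hM (2 * a) hV
    obtain ⟨j', hj'⟩ := hjev hodd'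
    have hwpos : 0 < w := by
      by_contra h
      have hw00 : w = 0 := by omega
      have h1 := hw0 hw00
      unfold sgn at h1
      rw [if_neg hodd] at h1
      norm_num at h1
    have hws : w ≤ s := by omega
    have hmod : m % (2 * i) = w := by
      have h1 : m = w + (2 * i) * j' := by
        rw [hm', hj']
        ring
      rw [h1, Nat.add_mul_mod_self_left]
      exact Nat.mod_eq_of_lt (by omega)
    exact ⟨him, by omega, by omega⟩

end Cfsg.Agent.Lib.Helper98.H74
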