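import Mathlib
import Cfsg.Prelude.Def_KGroupFacts
import Cfsg.Agent.Lib.Helper70.SchurLocal
import Cfsg.Agent.Lib.Helper77.J3MCORE2
import Cfsg.Agent.Lib.Helper35.J3MIDX2
import Cfsg.Agent.Lib.Helper57.J3MASM2a

set_option autoImplicit false

open scoped commutatorElement

universe u v

/-!
# S2040, piece J2M-Q2 (for helper70)

`two_aux_q`: helper57's `two_aux` (J3M-ASM2a) with the hypotheses `hconj`, `hcore` removed and the
hypothesis `hq` (all lifts of the `e i` are involutions) added; `two_core` (helper77) is plugged in.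
-/

namespace Cfsg.Agent.Lib.Helper37.J2MQ2

theorem two_aux_q {Γ : Type u} {G : Type v} [Group Γ] [Group G] [Finite Γ] (σ : Γ →* G)
    (hσ : Cfsg.IsStemExtension σ) (z : Γ) (hz1 : z ≠ 1) (hzz : z * z = 1)
    (hker : ∀ k : Γ, k ∈ σ.ker ↔ (k = 1 ∨ k = z))
    (m : ℕ) (hG : Nat.card G = 2 ^ 7 * m) (hm : ¬ 2 ∣ m)
    (e : Fin 16 → G) (c x : G) (γ ρ τ : Fin 16 → Fin 16) (ν : Fin 16 → Fin 16 → Fin 16)
    (p q : Fin 16)
    (he1 : ∀ i, e i = 1 → i = 0)
    (hmul : ∀ i j, e i * e j = e (i ^^^ j))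
    (hc3 : c * c * c = 1)
    (hc : ∀ i, c * e i * c⁻¹ = e (γ i))
    (hfpf : ∀ i, i ^^^ γ i ^^^ γ (γ i) = 0)
    (hx2 : ∀ i, (x * x) * e i * (x * x)⁻¹ = e (ρ i))
    (hν : ∀ j i, (x * e j * x⁻¹) * e i * (x * e j * x⁻¹)⁻¹ = e (ν j i))
    (hxx : x * x = e p * (x * e q * x⁻¹))
    (hτ : ∀ j, c * (x * e j * x⁻¹) * c⁻¹ * (x * e j * x⁻¹)⁻¹ = e (τ j))
    (hZ : ∀ i, (∃ j, ν j i ≠ i) ∨ (∃ k l, i = k ^^^ ν l k))
    (hZc : (Finset.univ.filter (fun i : Fin 16 => ∀ j, ν j i = i)).card ≤ 4)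
    (hq : ∀ i : Fin 16, ∀ b : Γ, σ b = e i → b * b = 1) : False := by
  classical
  obtain ⟨hsurj, hcen, hcomm⟩ := hσ
  have : Finite G := Finite.of_surjective σ hsurj
  obtain ⟨he0, hesq, heinj, hecomm⟩ := Cfsg.Agent.Lib.Helper57.J3MASM2.e_facts e he1 hmul
  have hzk : z ∈ σ.ker := (hker z).mpr (Or.inr rfl)
  have hσz : σ z = 1 := hzk
  have hzc : z ∈ Subgroup.center Γ := hcen hzk
  have hzcomm : ∀ g : Γ, g * z = z * g := fun g => Subgroup.mem_center_iff.mp hzc g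
  have hk2 : ∀ w : Γ, σ w = 1 → w = 1 ∨ w = z := fun w hw => (hker w).mp hw
  have hkc : ∀ w : Γ, σ w = 1 → ∀ g : Γ, g * w = w * g := fun w hw g =>
    Subgroup.mem_center_iff.mp (hcen hw) g
  have hlift : ∀ a b : Γ, σ a = σ b → a = b ∨ a = z * b := by
    intro a b hab
    have h : σ (a * b⁻¹) = 1 := by rw [map_mul, map_inv, hab, mul_inv_cancel]
    rcases hk2 _ h with h | h
    · left; exact mul_inv_eq_one.mp h
    · right; exact mul_inv_eq_iff_eq_mul.mp h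
  obtain ⟨E₁, hE₁⟩ : ∃ E₁ : Subgroup G, ∀ g, g ∈ E₁ ↔ ∃ i, e i = g :=
    ⟨{ carrier := Set.range e
       mul_mem' := by
         rintro _ _ ⟨i, rfl⟩ ⟨j, rfl⟩
         exact ⟨i ^^^ j, (hmul i j).symm⟩
       one_mem' := ⟨0, he0⟩
       inv_mem' := by
         rintro _ ⟨i, rfl⟩
         exact ⟨i, (inv_eq_of_mul_eq_one_right (hesq i)).symm⟩ }, fun g => Iff.rfl⟩
  obtain ⟨E₂, hE₂⟩ : ∃ E₂ : Subgroup G, ∀ g, g ∈ E₂ ↔ ∃ j, x * e j * x⁻¹ = g := by
    refine ⟨E₁.map (MulAut.conj x).toMonoidHom, fun g => ?_⟩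
    rw [Subgroup.mem_map]
    constructor
    · rintro ⟨y, hy, rfl⟩
      obtain ⟨j, rfl⟩ := (hE₁ y).mp hy
      exact ⟨j, rfl⟩
    · rintro ⟨j, rfl⟩
      exact ⟨e j, (hE₁ _).mpr ⟨j, rfl⟩, rfl⟩
  have hE₁mem : ∀ i, e i ∈ E₁ := fun i => (hE₁ _).mpr ⟨i, rfl⟩
  have hE₂mem : ∀ j, x * e j * x⁻¹ ∈ E₂ := fun j => (hE₂ _).mpr ⟨j, rfl⟩
  obtain ⟨c', hc'⟩ := hsurj c
  obtain ⟨x', hx'⟩ := hsurj x
  have hF₁ : ∀ g : Γ, g ∈ E₁.comap σ ↔ ∃ i, e i = σ g := fun g => by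
    rw [Subgroup.mem_comap, hE₁]
  have hF₂ : ∀ g : Γ, g ∈ E₂.comap σ ↔ ∃ j, x * e j * x⁻¹ = σ g := fun g => by
    rw [Subgroup.mem_comap, hE₂]
  have hkerF₁ : σ.ker ≤ E₁.comap σ := fun w hw => by
    rw [Subgroup.mem_comap, MonoidHom.mem_ker.mp hw]; exact E₁.one_mem
  have hE₂sq : ∀ j, (x * e j * x⁻¹) * (x * e j * x⁻¹) = 1 := by
    intro j
    have : (x * e j * x⁻¹) * (x * e j * x⁻¹) = x * (e j * e j) * x⁻¹ := by group
    rw [this, hesq, mul_one, mul_inv_cancel]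
  have hE₂comm : ∀ j l,
      (x * e j * x⁻¹) * (x * e l * x⁻¹) = (x * e l * x⁻¹) * (x * e j * x⁻¹) := by
    intro j l
    have h1 : (x * e j * x⁻¹) * (x * e l * x⁻¹) = x * (e j * e l) * x⁻¹ := by group
    have h2 : (x * e l * x⁻¹) * (x * e j * x⁻¹) = x * (e l * e j) * x⁻¹ := by group
    rw [h1, h2, hecomm]
  have hcore' := Cfsg.Agent.Lib.Helper77.J3MCORE2.two_core z hzc hz1 (E₁.comap σ) (E₂.comap σ) c' x'
    (by rw [Subgroup.mem_comap, hσz]; exact E₁.one_mem)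
    (by rw [Subgroup.mem_comap, hσz]; exact E₂.one_mem)
    (by
      intro g hg
      obtain ⟨i, hi⟩ := (hF₁ g).mp hg
      exact hq i g hi.symm)
    (by
      intro g hg
      obtain ⟨j, hj⟩ := (hF₂ g).mp hg
      obtain ⟨g₀, hg₀⟩ := hsurj (e j)
      have h0 : g₀ * g₀ = 1 := hq j g₀ hg₀
      have h1 : σ g = σ (x' * g₀ * x'⁻¹) := by rw [map_mul, map_mul, map_inv, hx', hg₀, hj]
      have hconjsq : (x' * g₀ * x'⁻¹) * (x' * g₀ * x'⁻¹) = 1 := by
        have : (x' * g₀ * x'⁻¹) * (x' * g₀ * x'⁻¹) = x' * (g₀ * g₀) * x'⁻¹ := by group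
        rw [this, h0, mul_one, mul_inv_cancel]
      rcases hlift _ _ h1 with h | h
      · rw [h, hconjsq]
      · rw [h]
        have : z * (x' * g₀ * x'⁻¹) * (z * (x' * g₀ * x'⁻¹))
            = (z * z) * ((x' * g₀ * x'⁻¹) * (x' * g₀ * x'⁻¹)) := by
          rw [mul_assoc, ← mul_assoc (x' * g₀ * x'⁻¹) z, hzcomm]; simp only [mul_assoc]
        rw [this, hzz, one_mul, hconjsq])
    (by
      intro g hg
      obtain ⟨i, hi⟩ := (hF₁ g).mp hg
      rw [hF₂]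
      exact ⟨i, by rw [map_mul, map_mul, map_inv, hx', hi]⟩)
    (by
      intro g hg
      obtain ⟨j, hj⟩ := (hF₂ g).mp hg
      rw [hF₁]
      refine ⟨ρ j, ?_⟩
      rw [map_mul, map_mul, map_inv, hx', ← hj, ← hx2]
      group)
    (by
      intro g hg f hf
      obtain ⟨i, hi⟩ := (hF₁ g).mp hg
      obtain ⟨j, hj⟩ := (hF₂ f).mp hf
      rw [hF₁]
      exact ⟨ν j i, by rw [map_mul, map_mul, map_inv, ← hi, ← hj, hν]⟩)
    (by
      obtain ⟨g, hg⟩ := hsurj (e p)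
      obtain ⟨f, hf⟩ := hsurj (x * e q * x⁻¹)
      have hgF : g ∈ E₁.comap σ := (hF₁ g).mpr ⟨p, hg.symm⟩
      have hfF : f ∈ E₂.comap σ := (hF₂ f).mpr ⟨q, hf.symm⟩
      have h : σ (x' * x') = σ (g * f) := by rw [map_mul, map_mul, hx', hg, hf, hxx]
      have hgf : g * f ∈ E₁.comap σ ⊔ E₂.comap σ :=
        Subgroup.mul_mem _ (Subgroup.mem_sup_left hgF) (Subgroup.mem_sup_right hfF)
      rcases hlift _ _ h with h | h
      · rw [h]; exact hgf
      · rw [h]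
        exact Subgroup.mul_mem _ (Subgroup.mem_sup_left (hkerF₁ hzk)) hgf)
    (by
      intro w hw1 hw2
      obtain ⟨i, hi⟩ := (hF₁ w).mp hw1
      obtain ⟨j', hj'⟩ := (hF₂ w).mp hw2
      have hfix : ∀ j, ν j i = i := by
        intro j
        apply heinj
        rw [← hν, hi, ← hj', hE₂comm, mul_inv_cancel_right]
      rcases hZ i with ⟨j, hj⟩ | ⟨k, l, hkl⟩
      · exact absurd (hfix j) hj
      · obtain ⟨g, hg⟩ := hsurj (e k)
        obtain ⟨f, hf⟩ := hsurj (x * e l * x⁻¹)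
        refine ⟨g, (hF₁ g).mpr ⟨k, hg.symm⟩, f, (hF₂ f).mpr ⟨l, hf.symm⟩, ?_⟩
        apply hlift
        rw [← hi, hkl, ← hmul, ← hν, map_mul, map_mul, map_mul, map_inv, map_inv, hg, hf,
          inv_eq_of_mul_eq_one_right (hesq k)]
        simp only [mul_assoc])
    (by
      intro g hg
      obtain ⟨i, hi⟩ := (hF₁ g).mp hg
      rw [hF₁]
      exact ⟨γ i, by rw [map_mul, map_mul, map_inv, hc', ← hi, hc]⟩)
    (by
      intro g _
      have : σ (c' * c' * c') = 1 := by rw [map_mul, map_mul, hc', hc3]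
      exact (hkc _ this g).symm)
    (by
      intro g hg
      obtain ⟨i, hi⟩ := (hF₁ g).mp hg
      apply hk2
      simp only [map_mul, map_inv, hc', ← hi, hc, hmul, hfpf, he0])
    (by
      intro f hf
      obtain ⟨j, hj⟩ := (hF₂ f).mp hf
      rw [hF₁]
      exact ⟨τ j, by rw [map_mul, map_mul, map_mul, map_inv, map_inv, hc', ← hj, hτ]⟩)
  have hidx := Cfsg.Agent.Lib.Helper35.J3MIDX2.sylow_index E₁ E₂ x m hG hm
    (by
      have : Nat.card E₁ = Nat.card (Fin 16) := by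
        refine (Nat.card_congr (Equiv.ofBijective
          (fun i : Fin 16 => (⟨e i, hE₁mem i⟩ : E₁)) ⟨?_, ?_⟩)).symm
        · intro i j hij
          exact heinj (congrArg Subtype.val hij)
        · rintro ⟨g, hg⟩
          obtain ⟨i, rfl⟩ := (hE₁ g).mp hg
          exact ⟨i, rfl⟩
      rw [this, Nat.card_fin])
    (by
      intro g hg
      obtain ⟨i, rfl⟩ := (hE₁ g).mp hg
      exact hE₂mem i)
    (by
      intro g hg
      obtain ⟨j, rfl⟩ := (hE₂ g).mp hg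
      rw [hE₁]
      refine ⟨ρ j, ?_⟩
      rw [← hx2]; group)
    (by
      intro g hg f hf
      obtain ⟨i, rfl⟩ := (hE₁ g).mp hg
      obtain ⟨j, rfl⟩ := (hE₂ f).mp hf
      rw [hν]; exact hE₁mem _)
    (by
      rw [hxx]
      exact Subgroup.mul_mem _ (Subgroup.mem_sup_left (hE₁mem p))
        (Subgroup.mem_sup_right (hE₂mem q)))
    (by
      have hsub : ((E₁ ⊓ E₂ : Subgroup G) : Set G) ⊆
          ↑(Finset.image e (Finset.univ.filter (fun i : Fin 16 => ∀ j, ν j i = i))) := by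
        intro g hg
        obtain ⟨hg1, hg2⟩ := Subgroup.mem_inf.mp hg
        obtain ⟨i, rfl⟩ := (hE₁ g).mp hg1
        obtain ⟨j', hj'⟩ := (hE₂ _).mp hg2
        rw [Finset.mem_coe, Finset.mem_image]
        refine ⟨i, ?_, rfl⟩
        rw [Finset.mem_filter]
        refine ⟨Finset.mem_univ _, fun j => ?_⟩
        apply heinj
        rw [← hν, ← hj', hE₂comm, mul_inv_cancel_right]
      calc Nat.card ↥(E₁ ⊓ E₂) = Set.ncard ((E₁ ⊓ E₂ : Subgroup G) : Set G) := rfl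
        _ ≤ Set.ncard (↑(Finset.image e
              (Finset.univ.filter (fun i : Fin 16 => ∀ j, ν j i = i))) : Set G) :=
            Set.ncard_le_ncard hsub (Finset.finite_toSet _)
        _ = (Finset.image e (Finset.univ.filter (fun i : Fin 16 => ∀ j, ν j i = i))).card :=
            Set.ncard_coe_finset _
        _ ≤ (Finset.univ.filter (fun i : Fin 16 => ∀ j, ν j i = i)).card :=
            Finset.card_image_le
        _ ≤ 4 := hZc)
  have htr := Cfsg.Agent.Lib.Helper70.pow_index_mem_commutator_comap σ hsurj hcen hcomm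
    (E₁ ⊔ E₂ ⊔ Subgroup.zpowers x) hzk
  have hodd : z ^ (E₁ ⊔ E₂ ⊔ Subgroup.zpowers x).index = z := by
    have h2 : (E₁ ⊔ E₂ ⊔ Subgroup.zpowers x).index % 2 = 1 := by omega
    rw [← Nat.div_add_mod (E₁ ⊔ E₂ ⊔ Subgroup.zpowers x).index 2, h2, pow_add, pow_mul,
      pow_two, hzz, one_pow, one_mul, pow_one]
  rw [hodd] at htr
  have hcomap : (E₁ ⊔ E₂ ⊔ Subgroup.zpowers x).comap σ
      = E₁.comap σ ⊔ E₂.comap σ ⊔ Subgroup.zpowers x' := by
    rw [← Subgroup.comap_sup_eq σ _ _ hsurj, ← Subgroup.comap_sup_eq σ _ _ hsurj]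
    have hzp : (Subgroup.zpowers x).comap σ = Subgroup.zpowers x' ⊔ σ.ker := by
      rw [← hx', ← MonoidHom.map_zpowers, Subgroup.comap_map_eq]
    rw [hzp]
    apply le_antisymm
    · refine sup_le le_sup_left (sup_le le_sup_right ?_)
      exact hkerF₁.trans (le_sup_left.trans le_sup_left)
    · exact sup_le le_sup_left (le_sup_left.trans le_sup_right)
  rw [hcomap] at htr
  exact hcore' htr

end Cfsg.Agent.Lib.Helper37.J2MQ2
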