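import Cfsg.Agent.Lib.Helper37.J3Fin

/-!
The images of the first basis vector under `threeJ3 F ω`, and the lines through them.
-/

set_option autoImplicit false

namespace Cfsg.Agent.Lib.Helper37.J3

open Cfsg.Spor Subgroup Matrix

theorem key0_mono : ∀ j, ∀ i, i < j → j < 69768 → key0 (U1 i) < key0 (U1 j) := by
  have hcK : ∀ i < 69768, chkK U1 key0 69768 i = true := fun i hi => by
    have := chk1_all i hi
    simp only [chkL1, chk1, Bool.and_eq_true] at this
    exact this.2
  intro j
  induction j with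
  | zero => intro i hi; omega
  | succ j ih =>
    intro i hij hj
    have hstep : key0 (U1 j) < key0 (U1 (j + 1)) := by
      have := hcK j (by omega)
      simp only [chkK] at this
      have hb : Nat.blt (j + 1) 69768 = true := by simpa [Nat.blt] using hj
      rw [hb, cond_true] at this
      exact blt_true this
    rcases Nat.eq_or_lt_of_le (Nat.lt_succ_iff.mp hij) with rfl | hlt
    · exact hstep
    · exact lt_trans (ih i hlt (by omega)) hstep

section

variable {F : Type*} [Field F] {ω : F} (h2 : (2 : F) = 0) (hω : ω * ω = ω + 1)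

theorem mulVec_e0 (M : Matrix F9 F9 F) :
    M *ᵥ (Pi.single (0 : F9) (1 : F) : F9 → F) = fun w => M w 0 := by
  rw [Matrix.mulVec_single_one]; rfl

/-- chosen transversal elements -/
noncomputable def uG (i : ℕ) : GL F9 F :=
  if h : i < 69768 then Classical.choose (tree1 h2 hω i h) else 1

theorem uG_mem (i : ℕ) (hi : i < 69768) : uG h2 hω i ∈ H1 h2 hω := by
  unfold uG; rw [dif_pos hi]; exact (Classical.choose_spec (tree1 h2 hω i hi)).1

theorem uG_rep (i : ℕ) (hi : i < 69768) :
    ((uG h2 hω i : GL F9 F) : Matrix F9 F9 F) = dM ω (U1 i) := by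
  unfold uG; rw [dif_pos hi]; exact (Classical.choose_spec (tree1 h2 hω i hi)).2

include h2 hω in
theorem col0_inj (i j : ℕ) (hi : i < 69768) (hj : j < 69768)
    (h : ∀ w : F9, dM ω (U1 i) w 0 = dM ω (U1 j) w 0) : i = j := by
  have hk := key0_eq_of h2 hω one_ne_zero h
  rcases Nat.lt_trichotomy i j with hlt | heq | hgt
  · exact absurd hk (ne_of_lt (key0_mono j i hlt hj))
  · exact heq
  · exact absurd hk.symm (ne_of_lt (key0_mono i j hgt hi))

theorem decomp (g : GL F9 F) (hg : g ∈ H1 h2 hω) :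
    ∃ i < 69768, ∃ k ∈ H2 h2 hω, g = uG h2 hω i * k := by
  classical
  let φ : Fin 69768 × H2 h2 hω → H1 h2 hω := fun p =>
    ⟨uG h2 hω p.1.1 * p.2.1, (H1 h2 hω).mul_mem (uG_mem h2 hω _ p.1.2) (H2_le h2 hω p.2.2)⟩
  have hinj : Function.Injective φ := by
    rintro ⟨i, k⟩ ⟨j, k'⟩ h
    have h' : uG h2 hω i.1 * k.1 = uG h2 hω j.1 * k'.1 := congrArg Subtype.val h
    have hij : i = j := by
      apply Fin.ext
      apply col0_inj h2 hω _ _ i.2 j.2
      intro w
      have e1 := mul_col0 (uG h2 hω i.1) k.1 (fix0_H2 h2 hω k.1 k.2) w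
      have e2 := mul_col0 (uG h2 hω j.1) k'.1 (fix0_H2 h2 hω k'.1 k'.2) w
      rw [← uG_rep h2 hω i.1 i.2, ← uG_rep h2 hω j.1 j.2, ← e1, ← e2, h']
    subst hij
    have : k.1 = k'.1 := mul_left_cancel h'
    exact Prod.ext rfl (Subtype.ext this)
  have hcard : Nat.card (H1 h2 hω) ≤ Nat.card (Fin 69768 × H2 h2 hω) := by
    rw [Nat.card_prod, Nat.card_fin, card_H2, card_H1]
  have hfin : Finite (H1 h2 hω) := Nat.finite_of_card_ne_zero (by rw [card_H1]; norm_num)
  have hbij := hinj.bijective_of_nat_card_le hcard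
  obtain ⟨⟨i, k⟩, hik⟩ := hbij.2 ⟨g, hg⟩
  exact ⟨i.1, i.2, k.1, k.2, (congrArg Subtype.val hik).symm⟩

/-- the orbit of the first basis vector -/
def orb0 (F : Type*) [Field F] (ω : F) : Set (F9 → F) :=
  {v | ∃ g ∈ threeJ3 F ω, v = (g : Matrix F9 F9 F) *ᵥ (Pi.single (0 : F9) (1 : F) : F9 → F)}

include h2 hω in
theorem orb0_eq : orb0 F ω =
    (fun i => fun w => dM ω (U1 i) w 0) '' (↑(Finset.range 69768) : Set ℕ) := by
  ext v
  constructor
  · rintro ⟨g, hg, rfl⟩
    rw [threeJ3_eq h2 hω] at hg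
    obtain ⟨i, hi, k, hk, rfl⟩ := decomp h2 hω g hg
    refine ⟨i, by simpa using hi, ?_⟩
    funext w
    rw [mulVec_e0]
    show dM ω (U1 i) w 0 = ((uG h2 hω i * k : GL F9 F) : Matrix F9 F9 F) w 0
    rw [mul_col0 _ k (fix0_H2 h2 hω k hk), uG_rep h2 hω i hi]
  · rintro ⟨i, hi, rfl⟩
    have hi' : i < 69768 := by simpa using hi
    refine ⟨uG h2 hω i, ?_, ?_⟩
    · rw [threeJ3_eq h2 hω]; exact uG_mem h2 hω i hi'
    · rw [mulVec_e0, uG_rep h2 hω i hi']

include h2 hω in
theorem orb0_ncard : (orb0 F ω).ncard = 69768 := by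
  rw [orb0_eq h2 hω, Set.InjOn.ncard_image, Set.ncard_coe_finset, Finset.card_range]
  intro i hi j hj h
  exact col0_inj h2 hω i j (by simpa using hi) (by simpa using hj) (fun w => congrFun h w)

include h2 hω in
theorem orb0_smul (v : F9 → F) (hv : v ∈ orb0 F ω) : ω • v ∈ orb0 F ω := by
  obtain ⟨g, hg, rfl⟩ := hv
  refine ⟨zetaG h2 hω * g, (threeJ3 F ω).mul_mem (zetaG_mem h2 hω) hg, ?_⟩
  show _ = (((zetaG h2 hω : GL F9 F) : Matrix F9 F9 F) * (g : Matrix F9 F9 F)) *ᵥ _
  rw [zetaG_val, Matrix.smul_mul, one_mul, Matrix.smul_mulVec]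

theorem orb0_ne_zero (v : F9 → F) (hv : v ∈ orb0 F ω) : v ≠ 0 := by
  obtain ⟨g, hg, rfl⟩ := hv
  intro h
  have e : ((g⁻¹ : GL F9 F) : Matrix F9 F9 F) *ᵥ ((g : Matrix F9 F9 F) *ᵥ
      (Pi.single (0 : F9) (1 : F) : F9 → F)) = Pi.single (0 : F9) (1 : F) := by
    rw [Matrix.mulVec_mulVec, ← Units.val_mul, inv_mul_cancel, Units.val_one, Matrix.one_mulVec]
  rw [h, Matrix.mulVec_zero] at e
  have e0 := congrFun e 0
  rw [Pi.single_eq_same, Pi.zero_apply] at e0
  exact one_ne_zero e0.symm

include h2 hω in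
theorem lines_ncard [Fintype F] (hF4 : ∀ c : F, c = 0 ∨ c = 1 ∨ c = ω ∨ c = ω + 1) :
    {L : Submodule F (F9 → F) | ∃ g ∈ threeJ3 F ω,
      L = F ∙ ((g : Matrix F9 F9 F) *ᵥ (Pi.single (0 : F9) (1 : F) : F9 → F))}.ncard = 23256 := by
  classical
  have h0 := om_ne_zero hω
  have h1 := om_ne_one h2 hω
  have hfin : (orb0 F ω).Finite := Set.toFinite _
  let s : Finset (F9 → F) := hfin.toFinset
  let f : (F9 → F) → Submodule F (F9 → F) := fun v => F ∙ v
  have hmem : ∀ v, v ∈ s ↔ v ∈ orb0 F ω := fun v => hfin.mem_toFinset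
  have hL : {L : Submodule F (F9 → F) | ∃ g ∈ threeJ3 F ω,
      L = F ∙ ((g : Matrix F9 F9 F) *ᵥ (Pi.single (0 : F9) (1 : F) : F9 → F))} =
      ↑(s.image f) := by
    ext L
    rw [Finset.coe_image, Set.mem_image]
    constructor
    · rintro ⟨g, hg, rfl⟩
      exact ⟨_, (hmem _).mpr ⟨g, hg, rfl⟩, rfl⟩
    · rintro ⟨v, hv, rfl⟩
      obtain ⟨g, hg, rfl⟩ := (hmem v).mp hv
      exact ⟨g, hg, rfl⟩
  rw [hL, Set.ncard_coe_finset]
  have hs : s.card = 69768 := by
    rw [← Set.ncard_eq_toFinset_card (orb0 F ω) hfin]; exact orb0_ncard h2 hω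
  have h3 : ({1, ω, ω + 1} : Finset F).card = 3 := by
    rw [Finset.card_insert_of_notMem, Finset.card_insert_of_notMem, Finset.card_singleton]
    · rw [Finset.mem_singleton]
      intro h
      exact one_ne_zero (by linear_combination -h : (1 : F) = 0)
    · rw [Finset.mem_insert, Finset.mem_singleton]
      rintro (h | h)
      · exact h1 h.symm
      · exact h0 (by linear_combination -h)
  have hfib : ∀ L ∈ s.image f, (s.filter (fun v => f v = L)).card = 3 := by
    intro L hLm
    obtain ⟨v0, hv0, rfl⟩ := Finset.mem_image.mp hLm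
    have hv0O : v0 ∈ orb0 F ω := (hmem v0).mp hv0
    have hv0ne := orb0_ne_zero v0 hv0O
    have e : s.filter (fun v => f v = f v0) =
        ({1, ω, ω + 1} : Finset F).image (fun c => c • v0) := by
      ext v
      rw [Finset.mem_filter, Finset.mem_image]
      constructor
      · rintro ⟨hv, hfv⟩
        have hvO : v ∈ orb0 F ω := (hmem v).mp hv
        have hm : v ∈ F ∙ v0 := by
          have : v ∈ f v := Submodule.mem_span_singleton_self v
          rw [hfv] at this
          exact this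
        obtain ⟨c, rfl⟩ := Submodule.mem_span_singleton.mp hm
        rcases hF4 c with hc | hc | hc | hc
        · exfalso
          rw [hc] at hvO
          exact orb0_ne_zero _ hvO (zero_smul _ _)
        · exact ⟨1, by simp, by rw [hc]⟩
        · exact ⟨ω, by simp, by rw [hc]⟩
        · exact ⟨ω + 1, by simp, by rw [hc]⟩
      · rintro ⟨c, hc, rfl⟩
        rw [Finset.mem_insert, Finset.mem_insert, Finset.mem_singleton] at hc
        have hc0 : c ≠ 0 := by
          rcases hc with rfl | rfl | rfl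
          · exact one_ne_zero
          · exact h0
          · intro h
            exact h1 (by linear_combination h - h2)
        have hcO : c • v0 ∈ orb0 F ω := by
          rcases hc with rfl | rfl | rfl
          · rw [one_smul]; exact hv0O
          · exact orb0_smul h2 hω v0 hv0O
          · have := orb0_smul h2 hω _ (orb0_smul h2 hω v0 hv0O)
            rw [smul_smul, hω] at this
            exact this
        exact ⟨(hmem _).mpr hcO, Submodule.span_singleton_smul_eq (IsUnit.mk0 c hc0) v0⟩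
    rw [e, Finset.card_image_of_injective _ (smul_left_injective F hv0ne), h3]
  have hsum := Finset.card_eq_sum_card_image f s
  rw [Finset.sum_congr rfl hfib, Finset.sum_const, smul_eq_mul, hs] at hsum
  omega

end

end Cfsg.Agent.Lib.Helper37.J3
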