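import Cfsg.Agent.Lib.Helper37.J3Fin
import Cfsg.Prelude.Def_Classical

/-!
`threeJ3 F ω` inside `SU 9 F 2`: the generators `a`, `b` are unitary, determinants are one.
-/

set_option autoImplicit false

namespace Cfsg.Agent.Lib.Helper37.J3

open Cfsg.Spor Subgroup Matrix

/-- the Frobenius on codes -/
def cj (c : ℕ) : ℕ := if c = 2 then 3 else if c = 3 then 2 else c

/-- conjugate transpose of the code of `a` -/
def AH : M9 := mkM (fun w z => cj (coef (Acode.row (pos z)) (pos w)))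

/-- conjugate transpose of the code of `b` -/
def BH : M9 := mkM (fun w z => cj (coef (Bcode.row (pos z)) (pos w)))

theorem AH_spec : ∀ w z : F9,
    coef (AH.row (pos w)) (pos z) = cj (coef (Acode.row (pos z)) (pos w)) := by decide +kernel

theorem BH_spec : ∀ w z : F9,
    coef (BH.row (pos w)) (pos z) = cj (coef (Bcode.row (pos z)) (pos w)) := by decide +kernel

theorem AH_mul : mm AH Acode = ID := M9.eq_of_beq (by decide +kernel)

theorem BH_mul : mm BH Bcode = ID := M9.eq_of_beq (by decide +kernel)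

section

variable {F : Type*} [Field F] {ω : F}

theorem cF_cj (h2 : (2 : F) = 0) (hω : ω * ω = ω + 1) (c : ℕ) (hc : c < 4) :
    cF ω (cj c) = cF ω c ^ 2 := by
  interval_cases c
  · show cF ω 0 = cF ω 0 ^ 2
    rw [cF_zero]; ring
  · show cF ω 1 = cF ω 1 ^ 2
    rw [cF_one]; ring
  · show cF ω 3 = cF ω 2 ^ 2
    rw [cF_three, cF_two, pow_two, hω, add_comm]
  · show cF ω 2 = cF ω 3 ^ 2
    rw [cF_three, cF_two]
    linear_combination (-(1 : F)) * hω - (1 + ω) * h2

/-- the subgroup of `GL F9 F` preserving the Hermitian form `Σ u_z v_z²` -/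
def UF9 (F : Type*) [Field F] : Subgroup (GL F9 F) :=
  Cfsg.preserving (Units.coeHom (Matrix F9 F9 F)) (fun u v => ∑ z, u z * v z ^ 2)

theorem mem_UF9 (g : GL F9 F) : g ∈ UF9 F ↔ ∀ u v : F9 → F,
    ∑ z, ((g : Matrix F9 F9 F) *ᵥ u) z * ((g : Matrix F9 F9 F) *ᵥ v) z ^ 2 =
      ∑ z, u z * v z ^ 2 := Iff.rfl

theorem herm_of_mul_eq_one [CharP F 2] (A : Matrix F9 F9 F)
    (h : Aᵀ * A.map (frobenius F 2) = 1) (u v : F9 → F) :
    ∑ z, (A *ᵥ u) z * ((A *ᵥ v) z) ^ 2 = ∑ z, u z * v z ^ 2 := by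
  have e1 : ∀ z, ((A *ᵥ v) z) ^ 2 = (A.map (frobenius F 2) *ᵥ (frobenius F 2 ∘ v)) z := by
    intro z
    rw [← RingHom.map_mulVec, frobenius_def]
  simp only [e1]
  show (A *ᵥ u) ⬝ᵥ (A.map (frobenius F 2) *ᵥ (frobenius F 2 ∘ v)) = u ⬝ᵥ (frobenius F 2 ∘ v)
  rw [Matrix.dotProduct_mulVec, ← Matrix.vecMul_transpose, Matrix.vecMul_vecMul, h,
    Matrix.vecMul_one]

theorem mem_UF9_of_code (h2 : (2 : F) = 0) (hω : ω * ω = ω + 1) {g : GL F9 F} {M MH : M9}
    (hg : Rep ω g M)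
    (hspec : ∀ w z : F9, coef (MH.row (pos w)) (pos z) = cj (coef (M.row (pos z)) (pos w)))
    (hmul : mm MH M = ID) : g ∈ UF9 F := by
  have : CharP F 2 := CharTwo.of_one_ne_zero_of_two_eq_zero one_ne_zero h2
  rw [mem_UF9]
  have hN : dM ω MH = ((dM ω M).map (frobenius F 2))ᵀ := by
    funext w z
    show cF ω (coef (MH.row (pos w)) (pos z)) =
      frobenius F 2 (cF ω (coef (M.row (pos z)) (pos w)))
    rw [hspec, cF_cj h2 hω _ (coef_lt _ _), frobenius_def]
  have h1 : ((dM ω M).map (frobenius F 2))ᵀ * dM ω M = 1 := by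
    rw [← hN, ← dM_mm h2 hω, hmul, dM_ID]
  have h2' : (dM ω M)ᵀ * (dM ω M).map (frobenius F 2) = 1 := by
    have := congrArg Matrix.transpose h1
    rw [Matrix.transpose_mul, Matrix.transpose_transpose, Matrix.transpose_one] at this
    exact this
  have hg' : (g : Matrix F9 F9 F) = dM ω M := hg
  rw [hg']
  exact herm_of_mul_eq_one _ h2'

theorem threeJ3_le_UF9 (h2 : (2 : F) = 0) (hω : ω * ω = ω + 1) : threeJ3 F ω ≤ UF9 F := by
  rw [threeJ3_eq h2 hω]
  unfold H1
  rw [closure_le]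
  intro x hx
  rcases hx with rfl | hx
  · exact mem_UF9_of_code h2 hω (aG_rep h2 hω) AH_spec AH_mul
  · rw [Set.mem_singleton_iff] at hx
    subst hx
    exact mem_UF9_of_code h2 hω (bG_rep h2 hω) BH_spec BH_mul

theorem threeJ3_le_det [Fintype F] (hF : Fintype.card F = 4) (h2 : (2 : F) = 0)
    (hω : ω * ω = ω + 1) :
    threeJ3 F ω ≤ (Matrix.GeneralLinearGroup.det : GL F9 F →* Fˣ).ker := by
  classical
  have h3 : ∀ x : Fˣ, x ^ 3 = 1 := by
    intro x
    have hc : Fintype.card Fˣ = 3 := by rw [Fintype.card_units, hF]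
    rw [← hc]; exact pow_card_eq_one
  have ha : Matrix.GeneralLinearGroup.det (aG h2 hω) = 1 := by
    have e : Matrix.GeneralLinearGroup.det (aG h2 hω) ^ 2 = 1 := by
      rw [← map_pow, pow_two, aG_sq, map_one]
    have e3 := h3 (Matrix.GeneralLinearGroup.det (aG h2 hω))
    calc Matrix.GeneralLinearGroup.det (aG h2 hω)
        = Matrix.GeneralLinearGroup.det (aG h2 hω) ^ 3 *
          (Matrix.GeneralLinearGroup.det (aG h2 hω) ^ 2)⁻¹ := by group
      _ = 1 := by rw [e, e3, inv_one, mul_one]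
  have hab : Matrix.GeneralLinearGroup.det (aG h2 hω * bG h2 hω) = 1 := by
    have hRab : Rep ω (aG h2 hω * bG h2 hω) (mm Acode Bcode) :=
      Rep.mul h2 hω (aG_rep h2 hω) (bG_rep h2 hω)
    have e : Matrix.GeneralLinearGroup.det (aG h2 hω * bG h2 hω) ^ 17 = 1 := by
      rw [← map_pow, rep_pow_one h2 hω hRab 17 AB_pow, map_one]
    have e3 := h3 (Matrix.GeneralLinearGroup.det (aG h2 hω * bG h2 hω))
    calc Matrix.GeneralLinearGroup.det (aG h2 hω * bG h2 hω)
        = (Matrix.GeneralLinearGroup.det (aG h2 hω * bG h2 hω) ^ 3) ^ 6 *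
          (Matrix.GeneralLinearGroup.det (aG h2 hω * bG h2 hω) ^ 17)⁻¹ := by group
      _ = 1 := by rw [e, e3, inv_one, mul_one, one_pow]
  rw [threeJ3_eq h2 hω]
  unfold H1
  rw [closure_le]
  intro x hx
  rcases hx with rfl | hx
  · exact ha
  · rw [Set.mem_singleton_iff] at hx
    subst hx
    rw [SetLike.mem_coe, MonoidHom.mem_ker]
    rw [map_mul, ha, one_mul] at hab
    exact hab

theorem det_one_of_mem [Fintype F] (hF : Fintype.card F = 4) (h2 : (2 : F) = 0)
    (hω : ω * ω = ω + 1) (g : GL F9 F) (hg : g ∈ threeJ3 F ω) :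
    (g : Matrix F9 F9 F).det = 1 := by
  have h := threeJ3_le_det hF h2 hω hg
  rw [MonoidHom.mem_ker] at h
  rw [← Matrix.GeneralLinearGroup.val_det_apply, h, Units.val_one]

end

end Cfsg.Agent.Lib.Helper37.J3
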