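import Cfsg.Agent.Lib.Helper37.J3SU
import Cfsg.Prelude.Def_Sporadic

/-!
The copy of `threeJ3 F ω` inside `SU 9 F 2`, and the statement about it.
-/

set_option autoImplicit false

namespace Cfsg.Agent.Lib.Helper37.J3

open Cfsg.Spor Subgroup Matrix

/-- transport of "centre of order three, simple quotient of the order of J₃" along an isomorphism -/
theorem isJ3_transport {A B : Type*} [Group A] [Group B] (e : A ≃* B)
    (hc : Nat.card (center A) = 3) (hJ : Cfsg.IsJ3 (A ⧸ center A)) :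
    Nat.card (center B) = 3 ∧ Cfsg.IsJ3 (B ⧸ center B) := by
  have hmap : (center A).map (e : A →* B) = center B := by
    ext x
    rw [Subgroup.mem_map]
    constructor
    · rintro ⟨a, ha, rfl⟩
      rw [Subgroup.mem_center_iff] at ha ⊢
      intro g
      obtain ⟨g', rfl⟩ := e.surjective g
      show e g' * e a = e a * e g'
      rw [← map_mul, ← map_mul, ha g']
    · intro hx
      refine ⟨e.symm x, ?_, e.apply_symm_apply x⟩
      rw [Subgroup.mem_center_iff] at hx ⊢
      intro g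
      apply e.injective
      rw [map_mul, map_mul, e.apply_symm_apply, hx]
  let q : A ⧸ center A ≃* B ⧸ center B := QuotientGroup.congr (center A) (center B) e hmap
  refine ⟨?_, ?_, ?_⟩
  · rw [← hc]; exact Nat.card_congr (Subgroup.centerCongr e).symm.toEquiv
  · have := hJ.1; exact q.symm.isSimpleGroup
  · rw [← hJ.2]; exact Nat.card_congr q.symm.toEquiv

/-- a numbering of the nine coordinates -/
noncomputable def e9 : F9 ≃ Fin 9 := Fintype.equivFinOfCardEq (by decide)

section

variable {F : Type} [Field F] {ω : F}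

theorem reindex_mem_SU (M : Matrix F9 F9 F) (hdet : (Matrix.reindex e9 e9 M).det = 1)
    (hM : ∀ u v : F9 → F, ∑ z, (M *ᵥ u) z * (M *ᵥ v) z ^ 2 = ∑ z, u z * v z ^ 2) :
    (⟨Matrix.reindex e9 e9 M, hdet⟩ : Matrix.SpecialLinearGroup (Fin 9) F) ∈ Cfsg.SU 9 F 2 := by
  intro u v
  show Cfsg.hermForm 9 F 2 (Matrix.reindex e9 e9 M *ᵥ u) (Matrix.reindex e9 e9 M *ᵥ v) =
    Cfsg.hermForm 9 F 2 u v
  unfold Cfsg.hermForm
  have e : ∀ x : Fin 9 → F, Matrix.reindex e9 e9 M *ᵥ x = (M *ᵥ (x ∘ e9)) ∘ e9.symm := by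
    intro x
    rw [Matrix.reindex_apply, Matrix.submatrix_mulVec_equiv]
    rfl
  rw [e u, e v, ← Equiv.sum_comp e9 (fun i => u i * v i ^ 2)]
  have h := hM (u ∘ e9) (v ∘ e9)
  rw [← Equiv.sum_comp e9.symm] at h
  exact h

/-- the embedding of `threeJ3 F ω` into `SU 9 F 2` -/
noncomputable def toSU [Fintype F] (hF : Fintype.card F = 4) (h2 : (2 : F) = 0)
    (hω : ω * ω = ω + 1) : threeJ3 F ω →* Cfsg.SU 9 F 2 where
  toFun g := ⟨⟨Matrix.reindex e9 e9 ((g : GL F9 F) : Matrix F9 F9 F), by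
      rw [Matrix.det_reindex_self]; exact det_one_of_mem hF h2 hω g g.2⟩,
    reindex_mem_SU _ _ ((mem_UF9 _).mp (threeJ3_le_UF9 h2 hω g.2))⟩
  map_one' := by
    apply Subtype.ext
    apply Subtype.ext
    show Matrix.reindex e9 e9 (1 : Matrix F9 F9 F) = 1
    rw [Matrix.reindex_apply, Matrix.submatrix_one_equiv]
  map_mul' x y := by
    apply Subtype.ext
    apply Subtype.ext
    show Matrix.reindex e9 e9 (((x : GL F9 F) : Matrix F9 F9 F) * ((y : GL F9 F) : Matrix F9 F9 F))
      = Matrix.reindex e9 e9 ((x : GL F9 F) : Matrix F9 F9 F) *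
        Matrix.reindex e9 e9 ((y : GL F9 F) : Matrix F9 F9 F)
    rw [Matrix.reindex_apply, Matrix.reindex_apply, Matrix.reindex_apply,
      Matrix.submatrix_mul_equiv]

theorem toSU_injective [Fintype F] (hF : Fintype.card F = 4) (h2 : (2 : F) = 0)
    (hω : ω * ω = ω + 1) : Function.Injective (toSU hF h2 hω) := by
  intro x y h
  have h1 : Matrix.reindex e9 e9 ((x : GL F9 F) : Matrix F9 F9 F) =
      Matrix.reindex e9 e9 ((y : GL F9 F) : Matrix F9 F9 F) :=
    congrArg (fun s : Cfsg.SU 9 F 2 =>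
      ((s : Matrix.SpecialLinearGroup (Fin 9) F) : Matrix (Fin 9) (Fin 9) F)) h
  exact Subtype.ext (Units.ext ((Matrix.reindex e9 e9).injective h1))

theorem su_main [Fintype F] (hF : Fintype.card F = 4) (ω : F) (hω : ω ^ 2 + ω + 1 = 0) :
    ∃ H : Subgroup (Cfsg.SU 9 F 2),
      Nat.card (Subgroup.center H) = 3 ∧ Cfsg.IsJ3 (H ⧸ Subgroup.center H) := by
  have h2 := two_eq_zero_of_card hF
  have hω' := om_sq_of h2 hω
  have hF4 := four_elems hF h2 hω'
  exact ⟨(toSU hF h2 hω').range,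
    isJ3_transport (MonoidHom.ofInjective (toSU_injective hF h2 hω'))
      (card_center h2 hω' hF4) ⟨J3_simple h2 hω' hF4, card_J3 h2 hω' hF4⟩⟩

theorem exists_omega [Fintype F] (hF : Fintype.card F = 4) : ∃ ω : F, ω ^ 2 + ω + 1 = 0 := by
  classical
  have hex : ∃ c : F, c ≠ 0 ∧ c ≠ 1 := by
    by_contra hne'
    have hne : ∀ c : F, c ≠ 0 → c = 1 := fun c h0 => by
      by_contra h1
      exact hne' ⟨c, h0, h1⟩
    have hsub : (Finset.univ : Finset F) ⊆ {0, 1} := by
      intro c _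
      rw [Finset.mem_insert, Finset.mem_singleton]
      by_cases h0 : c = 0
      · exact Or.inl h0
      · exact Or.inr (hne c h0)
    have := Finset.card_le_card hsub
    rw [Finset.card_univ, hF] at this
    have h2 : ({0, 1} : Finset F).card ≤ 2 := Finset.card_insert_le _ _
    omega
  obtain ⟨c, hc0, hc1⟩ := hex
  refine ⟨c, ?_⟩
  have h3 : c ^ 3 = 1 := by
    have := FiniteField.pow_card_sub_one_eq_one c hc0
    rw [hF] at this
    exact this
  have hfac : (c - 1) * (c ^ 2 + c + 1) = 0 := by linear_combination h3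
  rcases mul_eq_zero.mp hfac with h | h
  · exact absurd (sub_eq_zero.mp h) hc1
  · exact h

end

end Cfsg.Agent.Lib.Helper37.J3
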