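import Cfsg.Agent.Lib.Helper37.J3VAll
import Cfsg.Agent.Lib.Helper37.J3Line

/-!
Transitivity of `threeJ3 F ω` on the nonzero isotropic vectors (those of even weight).
-/

set_option autoImplicit false

namespace Cfsg.Agent.Lib.Helper37.J3

open Cfsg.Spor Subgroup Matrix

theorem AT_spec : ∀ w z : F9,
    coef (ATcode.row (pos w)) (pos z) = coef (Acode.row (pos z)) (pos w) := by decide +kernel

theorem BT_spec : ∀ w z : F9,
    coef (BTcode.row (pos w)) (pos z) = coef (Bcode.row (pos z)) (pos w) := by decide +kernel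

theorem land511 (x : ℕ) : Nat.land x 511 = x % 512 := Nat.and_two_pow_sub_one_eq_mod x 9

theorem shr9 (x : ℕ) : Nat.shiftRight x 9 = x / 512 := Nat.shiftRight_eq_div_pow x 9

theorem pos_lt (z : F9) : pos z < 9 :=
  pos_cases (fun k => k < 9) (by norm_num) (by norm_num) (by norm_num) (by norm_num)
    (by norm_num) (by norm_num) (by norm_num) (by norm_num) (by norm_num) z

theorem rk_val (p : ℕ × ℕ) : rk p = p.1 % 512 + 512 * (p.2 % 512) := by
  show Nat.add (Nat.land p.1 511) (Nat.mul 512 (Nat.land p.2 511)) = _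
  rw [land511, land511]; rfl

theorem rk_lt (p : ℕ × ℕ) : rk p < 262144 := by
  rw [rk_val]
  have h1 := Nat.mod_lt p.1 (by norm_num : 512 > 0)
  have h2 := Nat.mod_lt p.2 (by norm_num : 512 > 0)
  omega

theorem bit_land511 (x k : ℕ) (hk : k < 9) : bit (Nat.land x 511) k = bit x k := by
  rw [bit_eq, bit_eq]
  show ((x &&& 511).testBit k).toNat = _
  rw [Nat.testBit_and]
  have h511 : (511 : ℕ).testBit k = true := by
    have := Nat.testBit_two_pow_sub_one 9 k
    simpa [hk] using this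
  rw [h511, Bool.and_true]

theorem coef_vcode_rk (p : ℕ × ℕ) (k : ℕ) (hk : k < 9) : coef (vcode (rk p)) k = coef p k := by
  have e1 : (vcode (rk p)).1 = Nat.land p.1 511 := by
    show Nat.land (rk p) 511 = Nat.land p.1 511
    rw [land511, land511, rk_val]; omega
  have e2 : (vcode (rk p)).2 = Nat.land p.2 511 := by
    show Nat.shiftRight (rk p) 9 = Nat.land p.2 511
    rw [shr9, land511, rk_val]; omega
  rw [coef_def, coef_def, e1, e2, bit_land511 _ _ hk, bit_land511 _ _ hk]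

theorem nz_eq (v : ℕ × ℕ) (k : ℕ) : nz v k = if coef v k = 0 then 0 else 1 := by
  have b1 := bit_lt v.1 k
  have b2 := bit_lt v.2 k
  rw [coef_def]
  show Nat.lor (bit v.1 k) (bit v.2 k) = _
  generalize bit v.1 k = a at *
  generalize bit v.2 k = b at *
  interval_cases a <;> interval_cases b <;> rfl

section

variable {F : Type*} [Field F] {ω : F}

theorem vm_T (h2 : (2 : F) = 0) (hω : ω * ω = ω + 1) (M MT : M9)
    (hspec : ∀ w z : F9, coef (MT.row (pos w)) (pos z) = coef (M.row (pos z)) (pos w))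
    (v : ℕ × ℕ) : dV ω (vm v MT) = dM ω M *ᵥ dV ω v := by
  rw [dV_vm h2 hω]
  have e : dM ω MT = (dM ω M)ᵀ := by
    funext w z
    show cF ω (coef (MT.row (pos w)) (pos z)) = cF ω (coef (M.row (pos z)) (pos w))
    rw [hspec]
  rw [e, Matrix.vecMul_transpose]

theorem dV_rk (p : ℕ × ℕ) : dV ω (vcode (rk p)) = dV ω p := by
  funext z
  show cF ω (coef (vcode (rk p)) (pos z)) = cF ω (coef p (pos z))
  rw [coef_vcode_rk _ _ (pos_lt z)]

theorem orb_step (MT : M9) (s : GL F9 F) (hs : s ∈ threeJ3 F ω)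
    (hsem : ∀ v, dV ω (vm v MT) = (s : Matrix F9 F9 F) *ᵥ dV ω v) (r : F9 → F) (c : ℕ)
    (g : GL F9 F) (hg : g ∈ threeJ3 F ω)
    (h : (g : Matrix F9 F9 F) *ᵥ r = dV ω (vcode (rk (vm (vcode c) MT)))) :
    ∃ g' ∈ threeJ3 F ω, (g' : Matrix F9 F9 F) *ᵥ r = dV ω (vcode c) := by
  refine ⟨s⁻¹ * g, (threeJ3 F ω).mul_mem ((threeJ3 F ω).inv_mem hs) hg, ?_⟩
  rw [Units.val_mul, ← Matrix.mulVec_mulVec, h, dV_rk, hsem, Matrix.mulVec_mulVec,
    ← Units.val_mul, inv_mul_cancel, Units.val_one, Matrix.one_mulVec]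

theorem orbV (h2 : (2 : F) = 0) (hω : ω * ω = ω + 1) :
    ∀ n, ∀ c < 262144, DV c ≠ 0 → Nat.shiftRight (DV c) 1 = n →
      ∃ g ∈ threeJ3 F ω, (g : Matrix F9 F9 F) *ᵥ dV ω (vcode 3) = dV ω (vcode c) := by
  intro n
  induction n using Nat.strong_induction_on with
  | _ n ih =>
    intro c hc hD hn
    have hchk := chkV_all c hc
    unfold chkV at hchk
    have hb0 : Nat.beq (DV c) 0 = false := by
      cases h : Nat.beq (DV c) 0
      · rfl
      · exact absurd (Nat.eq_of_beq_eq_true h) hD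
    rw [hb0, cond_false] at hchk
    by_cases h1 : Nat.beq (Nat.shiftRight (DV c) 1) 1 = true
    · rw [h1, cond_true] at hchk
      have hc3 : c = 3 := Nat.eq_of_beq_eq_true hchk
      subst hc3
      exact ⟨1, one_mem _, by rw [Units.val_one, Matrix.one_mulVec]⟩
    · have h1' : Nat.beq (Nat.shiftRight (DV c) 1) 1 = false := Bool.eq_false_iff.2 h1
      rw [h1', cond_false] at hchk
      obtain ⟨MT, hMT, s, hs, hsem⟩ : ∃ MT : M9,
          (bif Nat.beq (Nat.land (DV c) 1) 0 then ATcode else BTcode) = MT ∧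
          ∃ s ∈ threeJ3 F ω, ∀ v, dV ω (vm v MT) = (s : Matrix F9 F9 F) *ᵥ dV ω v := by
        cases Nat.beq (Nat.land (DV c) 1) 0
        · exact ⟨BTcode, rfl, bG h2 hω, bG_mem h2 hω, fun v => vm_T h2 hω Bcode BTcode BT_spec v⟩
        · exact ⟨ATcode, rfl, aG h2 hω, aG_mem h2 hω, fun v => vm_T h2 hω Acode ATcode AT_spec v⟩
      rw [hMT, Bool.and_eq_true] at hchk
      obtain ⟨hne, hlt⟩ := hchk
      have hne' : DV (rk (vm (vcode c) MT)) ≠ 0 := by
        intro h0
        rw [h0] at hne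
        exact absurd hne (by decide)
      obtain ⟨g, hg, hgr⟩ := ih (Nat.shiftRight (DV (rk (vm (vcode c) MT))) 1)
        (by rw [← hn]; exact blt_true hlt) (rk (vm (vcode c) MT)) (rk_lt _) hne' rfl
      exact orb_step MT s hs hsem _ c g hg hgr

theorem cube_cF (h2 : (2 : F) = 0) (hω : ω * ω = ω + 1) (d : ℕ) (hd : d < 4) :
    (cF ω d) ^ 3 = if d = 0 then 0 else 1 := by
  interval_cases d
  · rw [cF_zero, if_pos rfl]; ring
  · rw [cF_one, if_neg (by norm_num)]; ring
  · rw [cF_two, if_neg (by norm_num)]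
    linear_combination (ω + 1) * hω + ω * h2
  · rw [cF_three, if_neg (by norm_num)]
    linear_combination (ω + 4) * hω + (4 * ω + 2) * h2

theorem sum_cube (h2 : (2 : F) = 0) (hω : ω * ω = ω + 1) (x : ℕ × ℕ) :
    ∑ z, (dV ω x z) ^ 3 = ((wt9 x : ℕ) : F) := by
  have e : ∀ z : F9, (dV ω x z) ^ 3 = ((nz x (pos z) : ℕ) : F) := by
    intro z
    show (cF ω (coef x (pos z))) ^ 3 = _
    rw [cube_cF h2 hω _ (coef_lt _ _), nz_eq]
    split_ifs <;> simp
  rw [sum_F9, e, e, e, e, e, e, e, e, e]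
  have p0 : pos ((0 : ZMod 3), (0 : ZMod 3)) = 0 := rfl
  have p1 : pos ((0 : ZMod 3), (1 : ZMod 3)) = 1 := rfl
  have p2 : pos ((0 : ZMod 3), (2 : ZMod 3)) = 2 := rfl
  have p3 : pos ((1 : ZMod 3), (0 : ZMod 3)) = 3 := rfl
  have p4 : pos ((1 : ZMod 3), (1 : ZMod 3)) = 4 := rfl
  have p5 : pos ((1 : ZMod 3), (2 : ZMod 3)) = 5 := rfl
  have p6 : pos ((2 : ZMod 3), (0 : ZMod 3)) = 6 := rfl
  have p7 : pos ((2 : ZMod 3), (1 : ZMod 3)) = 7 := rfl
  have p8 : pos ((2 : ZMod 3), (2 : ZMod 3)) = 8 := rfl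
  rw [p0, p1, p2, p3, p4, p5, p6, p7, p8]
  have hw : wt9 x = nz x 0 + nz x 1 + nz x 2 + nz x 3 + nz x 4 + nz x 5 + nz x 6 + nz x 7 +
      nz x 8 := by
    show nz x 0 + (nz x 1 + (nz x 2 + (nz x 3 + (nz x 4 + (nz x 5 + (nz x 6 + (nz x 7 +
      nz x 8))))))) = _
    ring
  rw [hw]
  push_cast
  ring

theorem iso_of (h2 : (2 : F) = 0) (hω : ω * ω = ω + 1) (x : ℕ × ℕ) (hne : dV ω x ≠ 0)
    (hsum : ∑ z, (dV ω x z) ^ 3 = 0) : iso x = true := by
  rw [sum_cube h2 hω] at hsum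
  have hpar : wt9 x % 2 = 0 := by
    by_contra h
    have h1 : wt9 x % 2 = 1 := by omega
    have hc := cast_mod2 h2 (wt9 x)
    rw [h1, hsum, Nat.cast_one] at hc
    exact one_ne_zero hc
  have hw : wt9 x ≠ 0 := by
    intro hw
    apply hne
    funext z
    show cF ω (coef x (pos z)) = 0
    have hk : ∀ k < 9, nz x k = 0 := by
      intro k hk
      have hw' : nz x 0 + (nz x 1 + (nz x 2 + (nz x 3 + (nz x 4 + (nz x 5 + (nz x 6 +
        (nz x 7 + nz x 8))))))) = 0 := hw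
      interval_cases k <;> omega
    have hz := hk _ (pos_lt z)
    rw [nz_eq] at hz
    have hc : coef x (pos z) = 0 := by
      by_contra h
      rw [if_neg h] at hz
      exact one_ne_zero hz
    rw [hc, cF_zero]
  unfold iso
  rw [Bool.and_eq_true]
  constructor
  · have e : Nat.land (wt9 x) 1 = wt9 x % 2 := Nat.and_one_is_mod _
    rw [e, hpar]; rfl
  · cases h : Nat.beq (wt9 x) 0
    · rfl
    · exact absurd (Nat.eq_of_beq_eq_true h) hw

theorem vdec_surj [Fintype F] (hF : Fintype.card F = 4) (h2 : (2 : F) = 0)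
    (hω : ω * ω = ω + 1) (v : F9 → F) : ∃ c < 262144, dV ω (vcode c) = v := by
  classical
  let Φ : Fin 262144 → (F9 → F) := fun c => dV ω (vcode c.1)
  have hinj : Function.Injective Φ := by
    intro c c' h
    apply Fin.ext
    have hz : ∀ z : F9, coef (vcode c.1) (pos z) = coef (vcode c'.1) (pos z) := fun z =>
      cF_lt4 h2 hω one_ne_zero _ (coef_lt _ _) _ (coef_lt _ _) (congrFun h z)
    have hk : ∀ k < 9, coef (vcode c.1) k = coef (vcode c'.1) k := by
      intro k hk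
      interval_cases k
      · exact hz (0, 0)
      · exact hz (0, 1)
      · exact hz (0, 2)
      · exact hz (1, 0)
      · exact hz (1, 1)
      · exact hz (1, 2)
      · exact hz (2, 0)
      · exact hz (2, 1)
      · exact hz (2, 2)
    have hb1 : ∀ k < 9, bit (vcode c.1).1 k = bit (vcode c'.1).1 k := by
      intro k hk'
      have := hk k hk'
      rw [coef_def, coef_def] at this
      have a1 := bit_lt (vcode c.1).1 k
      have a2 := bit_lt (vcode c.1).2 k
      have b1 := bit_lt (vcode c'.1).1 k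
      have b2 := bit_lt (vcode c'.1).2 k
      omega
    have hb2 : ∀ k < 9, bit (vcode c.1).2 k = bit (vcode c'.1).2 k := by
      intro k hk'
      have := hk k hk'
      rw [coef_def, coef_def] at this
      have a1 := bit_lt (vcode c.1).1 k
      have a2 := bit_lt (vcode c.1).2 k
      have b1 := bit_lt (vcode c'.1).1 k
      have b2 := bit_lt (vcode c'.1).2 k
      omega
    have e1 : Nat.land (Nat.land c.1 511) 511 = Nat.land (Nat.land c'.1 511) 511 := and511 hb1
    have e2 : Nat.land (Nat.shiftRight c.1 9) 511 = Nat.land (Nat.shiftRight c'.1 9) 511 :=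
      and511 hb2
    rw [land511, land511, land511, land511] at e1
    rw [land511, land511, shr9, shr9] at e2
    have hc := c.2
    have hc' := c'.2
    omega
  have hcard : Fintype.card (Fin 262144) = Fintype.card (F9 → F) := by
    have h9 : Fintype.card F9 = 9 := by decide
    rw [Fintype.card_fin, Fintype.card_fun, hF, h9]
    norm_num
  have hbij := (Fintype.bijective_iff_injective_and_card Φ).mpr ⟨hinj, hcard⟩
  obtain ⟨c, hc⟩ := hbij.2 v
  exact ⟨c.1, c.2, hc⟩

theorem iso_orbit [Fintype F] (hF : Fintype.card F = 4) (h2 : (2 : F) = 0)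
    (hω : ω * ω = ω + 1) (v : F9 → F) (hv : v ≠ 0) (hsum : ∑ z, v z ^ 3 = 0) :
    ∃ g ∈ threeJ3 F ω, (g : Matrix F9 F9 F) *ᵥ dV ω (vcode 3) = v := by
  obtain ⟨c, hc, rfl⟩ := vdec_surj hF h2 hω v
  have hiso := iso_of h2 hω (vcode c) hv hsum
  have hD : DV c ≠ 0 := by
    intro h0
    have hchk := chkV_all c hc
    unfold chkV at hchk
    have hb : Nat.beq (DV c) 0 = true := by rw [h0]; rfl
    rw [hb, cond_true, hiso] at hchk
    exact absurd hchk (by decide)
  exact orbV h2 hω _ c hc hD rfl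

theorem iso_trans [Fintype F] (hF : Fintype.card F = 4) (h2 : (2 : F) = 0)
    (hω : ω * ω = ω + 1) (v w : F9 → F) (hv : v ≠ 0) (hw : w ≠ 0)
    (hsv : ∑ z, v z ^ 3 = 0) (hsw : ∑ z, w z ^ 3 = 0) :
    ∃ g ∈ threeJ3 F ω, ∃ c : F, c ≠ 0 ∧ (g : Matrix F9 F9 F) *ᵥ v = c • w := by
  obtain ⟨g1, hg1, e1⟩ := iso_orbit hF h2 hω v hv hsv
  obtain ⟨g2, hg2, e2⟩ := iso_orbit hF h2 hω w hw hsw
  refine ⟨g2 * g1⁻¹, (threeJ3 F ω).mul_mem hg2 ((threeJ3 F ω).inv_mem hg1), 1, one_ne_zero, ?_⟩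
  rw [one_smul, ← e1, Matrix.mulVec_mulVec, ← Units.val_mul, inv_mul_cancel_right, e2]

end

end Cfsg.Agent.Lib.Helper37.J3
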