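import Cfsg.Agent.Lib.Helper37.J3VDef

set_option autoImplicit false
set_option maxRecDepth 100000

namespace Cfsg.Agent.Lib.Helper37.J3

theorem cv_0 : allFrom chkV 0 2048 = true := by decide +kernel
theorem cv_2048 : allFrom chkV 2048 2048 = true := by decide +kernel
theorem cv_4096 : allFrom chkV 4096 2048 = true := by decide +kernel
theorem cv_6144 : allFrom chkV 6144 2048 = true := by decide +kernel
theorem cv_8192 : allFrom chkV 8192 2048 = true := by decide +kernel
theorem cv_10240 : allFrom chkV 10240 2048 = true := by decide +kernel
theorem cv_12288 : allFrom chkV 12288 2048 = true := by decide +kernel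
theorem cv_14336 : allFrom chkV 14336 2048 = true := by decide +kernel
theorem cv_16384 : allFrom chkV 16384 2048 = true := by decide +kernel
theorem cv_18432 : allFrom chkV 18432 2048 = true := by decide +kernel
theorem cv_20480 : allFrom chkV 20480 2048 = true := by decide +kernel
theorem cv_22528 : allFrom chkV 22528 2048 = true := by decide +kernel
theorem cv_24576 : allFrom chkV 24576 2048 = true := by decide +kernel
theorem cv_26624 : allFrom chkV 26624 2048 = true := by decide +kernel
theorem cv_28672 : allFrom chkV 28672 2048 = true := by decide +kernel
theorem cv_30720 : allFrom chkV 30720 2048 = true := by decide +kernel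

end Cfsg.Agent.Lib.Helper37.J3
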