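import Cfsg.Agent.Lib.Helper37.J3VDef

set_option autoImplicit false
set_option maxRecDepth 100000

namespace Cfsg.Agent.Lib.Helper37.J3

theorem cv_32768 : allFrom chkV 32768 2048 = true := by decide +kernel
theorem cv_34816 : allFrom chkV 34816 2048 = true := by decide +kernel
theorem cv_36864 : allFrom chkV 36864 2048 = true := by decide +kernel
theorem cv_38912 : allFrom chkV 38912 2048 = true := by decide +kernel
theorem cv_40960 : allFrom chkV 40960 2048 = true := by decide +kernel
theorem cv_43008 : allFrom chkV 43008 2048 = true := by decide +kernel
theorem cv_45056 : allFrom chkV 45056 2048 = true := by decide +kernel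
theorem cv_47104 : allFrom chkV 47104 2048 = true := by decide +kernel
theorem cv_49152 : allFrom chkV 49152 2048 = true := by decide +kernel
theorem cv_51200 : allFrom chkV 51200 2048 = true := by decide +kernel
theorem cv_53248 : allFrom chkV 53248 2048 = true := by decide +kernel
theorem cv_55296 : allFrom chkV 55296 2048 = true := by decide +kernel
theorem cv_57344 : allFrom chkV 57344 2048 = true := by decide +kernel
theorem cv_59392 : allFrom chkV 59392 2048 = true := by decide +kernel
theorem cv_61440 : allFrom chkV 61440 2048 = true := by decide +kernel
theorem cv_63488 : allFrom chkV 63488 2048 = true := by decide +kernel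

end Cfsg.Agent.Lib.Helper37.J3
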