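import Cfsg.Agent.Lib.Helper37.J3VDef

set_option autoImplicit false
set_option maxRecDepth 100000

namespace Cfsg.Agent.Lib.Helper37.J3

theorem cv_65536 : allFrom chkV 65536 2048 = true := by decide +kernel
theorem cv_67584 : allFrom chkV 67584 2048 = true := by decide +kernel
theorem cv_69632 : allFrom chkV 69632 2048 = true := by decide +kernel
theorem cv_71680 : allFrom chkV 71680 2048 = true := by decide +kernel
theorem cv_73728 : allFrom chkV 73728 2048 = true := by decide +kernel
theorem cv_75776 : allFrom chkV 75776 2048 = true := by decide +kernel
theorem cv_77824 : allFrom chkV 77824 2048 = true := by decide +kernel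
theorem cv_79872 : allFrom chkV 79872 2048 = true := by decide +kernel
theorem cv_81920 : allFrom chkV 81920 2048 = true := by decide +kernel
theorem cv_83968 : allFrom chkV 83968 2048 = true := by decide +kernel
theorem cv_86016 : allFrom chkV 86016 2048 = true := by decide +kernel
theorem cv_88064 : allFrom chkV 88064 2048 = true := by decide +kernel
theorem cv_90112 : allFrom chkV 90112 2048 = true := by decide +kernel
theorem cv_92160 : allFrom chkV 92160 2048 = true := by decide +kernel
theorem cv_94208 : allFrom chkV 94208 2048 = true := by decide +kernel
theorem cv_96256 : allFrom chkV 96256 2048 = true := by decide +kernel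

end Cfsg.Agent.Lib.Helper37.J3
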