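import Cfsg.Agent.Lib.Helper37.J3VDef

set_option autoImplicit false
set_option maxRecDepth 100000

namespace Cfsg.Agent.Lib.Helper37.J3

theorem cv_98304 : allFrom chkV 98304 2048 = true := by decide +kernel
theorem cv_100352 : allFrom chkV 100352 2048 = true := by decide +kernel
theorem cv_102400 : allFrom chkV 102400 2048 = true := by decide +kernel
theorem cv_104448 : allFrom chkV 104448 2048 = true := by decide +kernel
theorem cv_106496 : allFrom chkV 106496 2048 = true := by decide +kernel
theorem cv_108544 : allFrom chkV 108544 2048 = true := by decide +kernel
theorem cv_110592 : allFrom chkV 110592 2048 = true := by decide +kernel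
theorem cv_112640 : allFrom chkV 112640 2048 = true := by decide +kernel
theorem cv_114688 : allFrom chkV 114688 2048 = true := by decide +kernel
theorem cv_116736 : allFrom chkV 116736 2048 = true := by decide +kernel
theorem cv_118784 : allFrom chkV 118784 2048 = true := by decide +kernel
theorem cv_120832 : allFrom chkV 120832 2048 = true := by decide +kernel
theorem cv_122880 : allFrom chkV 122880 2048 = true := by decide +kernel
theorem cv_124928 : allFrom chkV 124928 2048 = true := by decide +kernel
theorem cv_126976 : allFrom chkV 126976 2048 = true := by decide +kernel
theorem cv_129024 : allFrom chkV 129024 2048 = true := by decide +kernel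

end Cfsg.Agent.Lib.Helper37.J3
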