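import Cfsg.Agent.Lib.Helper37.J3VDef

set_option autoImplicit false
set_option maxRecDepth 100000

namespace Cfsg.Agent.Lib.Helper37.J3

theorem cv_131072 : allFrom chkV 131072 2048 = true := by decide +kernel
theorem cv_133120 : allFrom chkV 133120 2048 = true := by decide +kernel
theorem cv_135168 : allFrom chkV 135168 2048 = true := by decide +kernel
theorem cv_137216 : allFrom chkV 137216 2048 = true := by decide +kernel
theorem cv_139264 : allFrom chkV 139264 2048 = true := by decide +kernel
theorem cv_141312 : allFrom chkV 141312 2048 = true := by decide +kernel
theorem cv_143360 : allFrom chkV 143360 2048 = true := by decide +kernel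
theorem cv_145408 : allFrom chkV 145408 2048 = true := by decide +kernel
theorem cv_147456 : allFrom chkV 147456 2048 = true := by decide +kernel
theorem cv_149504 : allFrom chkV 149504 2048 = true := by decide +kernel
theorem cv_151552 : allFrom chkV 151552 2048 = true := by decide +kernel
theorem cv_153600 : allFrom chkV 153600 2048 = true := by decide +kernel
theorem cv_155648 : allFrom chkV 155648 2048 = true := by decide +kernel
theorem cv_157696 : allFrom chkV 157696 2048 = true := by decide +kernel
theorem cv_159744 : allFrom chkV 159744 2048 = true := by decide +kernel
theorem cv_161792 : allFrom chkV 161792 2048 = true := by decide +kernel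

end Cfsg.Agent.Lib.Helper37.J3
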