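import Cfsg.Agent.Lib.Helper37.J3VDef

set_option autoImplicit false
set_option maxRecDepth 100000

namespace Cfsg.Agent.Lib.Helper37.J3

theorem cv_163840 : allFrom chkV 163840 2048 = true := by decide +kernel
theorem cv_165888 : allFrom chkV 165888 2048 = true := by decide +kernel
theorem cv_167936 : allFrom chkV 167936 2048 = true := by decide +kernel
theorem cv_169984 : allFrom chkV 169984 2048 = true := by decide +kernel
theorem cv_172032 : allFrom chkV 172032 2048 = true := by decide +kernel
theorem cv_174080 : allFrom chkV 174080 2048 = true := by decide +kernel
theorem cv_176128 : allFrom chkV 176128 2048 = true := by decide +kernel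
theorem cv_178176 : allFrom chkV 178176 2048 = true := by decide +kernel
theorem cv_180224 : allFrom chkV 180224 2048 = true := by decide +kernel
theorem cv_182272 : allFrom chkV 182272 2048 = true := by decide +kernel
theorem cv_184320 : allFrom chkV 184320 2048 = true := by decide +kernel
theorem cv_186368 : allFrom chkV 186368 2048 = true := by decide +kernel
theorem cv_188416 : allFrom chkV 188416 2048 = true := by decide +kernel
theorem cv_190464 : allFrom chkV 190464 2048 = true := by decide +kernel
theorem cv_192512 : allFrom chkV 192512 2048 = true := by decide +kernel
theorem cv_194560 : allFrom chkV 194560 2048 = true := by decide +kernel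

end Cfsg.Agent.Lib.Helper37.J3
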