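import Cfsg.Agent.Lib.Helper37.J3VDef

set_option autoImplicit false
set_option maxRecDepth 100000

namespace Cfsg.Agent.Lib.Helper37.J3

theorem cv_196608 : allFrom chkV 196608 2048 = true := by decide +kernel
theorem cv_198656 : allFrom chkV 198656 2048 = true := by decide +kernel
theorem cv_200704 : allFrom chkV 200704 2048 = true := by decide +kernel
theorem cv_202752 : allFrom chkV 202752 2048 = true := by decide +kernel
theorem cv_204800 : allFrom chkV 204800 2048 = true := by decide +kernel
theorem cv_206848 : allFrom chkV 206848 2048 = true := by decide +kernel
theorem cv_208896 : allFrom chkV 208896 2048 = true := by decide +kernel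
theorem cv_210944 : allFrom chkV 210944 2048 = true := by decide +kernel
theorem cv_212992 : allFrom chkV 212992 2048 = true := by decide +kernel
theorem cv_215040 : allFrom chkV 215040 2048 = true := by decide +kernel
theorem cv_217088 : allFrom chkV 217088 2048 = true := by decide +kernel
theorem cv_219136 : allFrom chkV 219136 2048 = true := by decide +kernel
theorem cv_221184 : allFrom chkV 221184 2048 = true := by decide +kernel
theorem cv_223232 : allFrom chkV 223232 2048 = true := by decide +kernel
theorem cv_225280 : allFrom chkV 225280 2048 = true := by decide +kernel
theorem cv_227328 : allFrom chkV 227328 2048 = true := by decide +kernel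

end Cfsg.Agent.Lib.Helper37.J3
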