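import Cfsg.Agent.Lib.Helper37.J3VDef

set_option autoImplicit false
set_option maxRecDepth 100000

namespace Cfsg.Agent.Lib.Helper37.J3

theorem cv_229376 : allFrom chkV 229376 2048 = true := by decide +kernel
theorem cv_231424 : allFrom chkV 231424 2048 = true := by decide +kernel
theorem cv_233472 : allFrom chkV 233472 2048 = true := by decide +kernel
theorem cv_235520 : allFrom chkV 235520 2048 = true := by decide +kernel
theorem cv_237568 : allFrom chkV 237568 2048 = true := by decide +kernel
theorem cv_239616 : allFrom chkV 239616 2048 = true := by decide +kernel
theorem cv_241664 : allFrom chkV 241664 2048 = true := by decide +kernel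
theorem cv_243712 : allFrom chkV 243712 2048 = true := by decide +kernel
theorem cv_245760 : allFrom chkV 245760 2048 = true := by decide +kernel
theorem cv_247808 : allFrom chkV 247808 2048 = true := by decide +kernel
theorem cv_249856 : allFrom chkV 249856 2048 = true := by decide +kernel
theorem cv_251904 : allFrom chkV 251904 2048 = true := by decide +kernel
theorem cv_253952 : allFrom chkV 253952 2048 = true := by decide +kernel
theorem cv_256000 : allFrom chkV 256000 2048 = true := by decide +kernel
theorem cv_258048 : allFrom chkV 258048 2048 = true := by decide +kernel
theorem cv_260096 : allFrom chkV 260096 2048 = true := by decide +kernel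

end Cfsg.Agent.Lib.Helper37.J3
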