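import Cfsg.Agent.Lib.Helper37.J3VT0
import Cfsg.Agent.Lib.Helper37.J3VT1
import Cfsg.Agent.Lib.Helper37.J3ChkDef

set_option autoImplicit false

namespace Cfsg.Agent.Lib.Helper37.J3

/-- transposed code of `a` -/
def ATcode : M9 := ⟨(0, 32), (16, 0), (0, 8), (4, 4), (2, 0), (1, 1), (0, 256), (128, 0), (64, 64)⟩

/-- transposed code of `b` -/
def BTcode : M9 := ⟨(1, 1), (12, 2), (4, 66), (8, 66), (384, 288), (272, 304), (12, 64), (400, 272), (144, 48)⟩

/-- a packed vector from an 18-bit code -/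
def vcode (c : ℕ) : ℕ × ℕ := (Nat.land c 511, Nat.shiftRight c 9)

/-- orbit table: `0` outside the orbit, else `2 * (depth + 1) + generator` -/
noncomputable def DV (c : ℕ) : ℕ :=
  Nat.land (bif Nat.blt c 131072 then DT0.ent 8 c else DT1.ent 8 c) 255

/-- indicator of a nonzero coordinate -/
def nz (v : ℕ × ℕ) (k : ℕ) : ℕ := Nat.lor (bit v.1 k) (bit v.2 k)

/-- weight of a packed vector -/
def wt9 (v : ℕ × ℕ) : ℕ :=
  Nat.add (nz v 0) (Nat.add (nz v 1) (Nat.add (nz v 2) (Nat.add (nz v 3) (Nat.add (nz v 4)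
    (Nat.add (nz v 5) (Nat.add (nz v 6) (Nat.add (nz v 7) (nz v 8))))))))

/-- nonzero of even weight -/
def iso (v : ℕ × ℕ) : Bool :=
  Nat.beq (Nat.land (wt9 v) 1) 0 && !(Nat.beq (wt9 v) 0)

/-- the check at one code -/
noncomputable def chkV (c : ℕ) : Bool :=
  bif Nat.beq (DV c) 0 then !(iso (vcode c))
  else bif Nat.beq (Nat.shiftRight (DV c) 1) 1 then Nat.beq c 3
  else !(Nat.beq (DV (rk (vm (vcode c) (bif Nat.beq (Nat.land (DV c) 1) 0 then ATcode else BTcode)))) 0) &&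
    Nat.blt (Nat.shiftRight (DV (rk (vm (vcode c) (bif Nat.beq (Nat.land (DV c) 1) 0 then ATcode else BTcode)))) 1)
      (Nat.shiftRight (DV c) 1)

end Cfsg.Agent.Lib.Helper37.J3
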