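import Mathlib
import Cfsg.Agent.Lib.Helper37.D1634a
import Cfsg.Agent.Lib.Helper10.PairTrans8

set_option autoImplicit false

/-! # The 2025 minimal vectors `x` with `v·x = 0`, `w·x = 16` for minimal `v`, `w` with
`v·w = -8`: transitivity and the suborbits 330, 462, 1232 -/

namespace Cfsg.Agent.Lib.Helper37.D1634

open Cfsg Cfsg.Agent.Lib.Helper9 Cfsg.Agent.Lib.Helper10 Cfsg.Agent.Lib.Helper37

/-- `(4, 4, 0, …, 0)`. -/
def v0 : leechLattice := mkV v0E 0 0 (by decide +kernel)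

/-- `(1, -3, 1, …, 1)`. -/
def w0 : leechLattice := mkV w0E 1 0 (by decide +kernel)

/-- `(4, -4, 0, …, 0)`. -/
def x0 : leechLattice := mkV x0E 0 0 (by decide +kernel)

theorem v0_norm : sqNorm (v0 : GolayPt → ℤ) = 32 :=
  (sqNorm_mkV v0E 0 0 _).trans (by decide +kernel)

theorem w0_norm : sqNorm (w0 : GolayPt → ℤ) = 32 :=
  (sqNorm_mkV w0E 1 0 _).trans (by decide +kernel)

theorem x0_norm : sqNorm (x0 : GolayPt → ℤ) = 32 :=
  (sqNorm_mkV x0E 0 0 _).trans (by decide +kernel)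

theorem v0w0 : dotInt (v0 : GolayPt → ℤ) (w0 : GolayPt → ℤ) = -8 :=
  (dot_mkV v0E 0 0 _ w0E 1 0 _).trans (by decide +kernel)

theorem v0_coe : (v0 : GolayPt → ℤ) = ofL v0L := coe_mkV v0E 0 0 _ v0L (by decide +kernel)

theorem w0_coe : (w0 : GolayPt → ℤ) = ofL w0L := coe_mkV w0E 1 0 _ w0L (by decide +kernel)

theorem x0_coe : (x0 : GolayPt → ℤ) = ofL x0L := coe_mkV x0E 0 0 _ x0L (by decide +kernel)

theorem fixB2 (g : Co0) (hg : FixB [v0E, w0E] g) : FixL [(v0, 0), (w0, 16)] g := by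
  rw [fixL2]
  exact ⟨hg v0 v0E (by simp) (rep_mkV _ _ _ _) (by rw [v0_norm]; norm_num),
    hg w0 w0E (by simp) (rep_mkV _ _ _ _) (by rw [w0_norm]; norm_num)⟩

theorem fixB3 (c : ℤ) (g : Co0) (hg : FixB [v0E, w0E, x0E] g) :
    FixL [(v0, 0), (w0, 16), (x0, c)] g := by
  rw [fixL3]
  exact ⟨hg v0 v0E (by simp) (rep_mkV _ _ _ _) (by rw [v0_norm]; norm_num),
    hg w0 w0E (by simp) (rep_mkV _ _ _ _) (by rw [w0_norm]; norm_num),
    hg x0 x0E (by simp) (rep_mkV _ _ _ _) (by rw [x0_norm]; norm_num)⟩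

theorem ncardX : (TT [(v0, 0), (w0, 16)]).ncard = 2025 := by
  have key := ncard_dot2 v0L w0L c2L 64 0 16 1024 192 T3c T2c 4864 4096 (by decide)
    (by decide) (by decide +kernel) (by decide +kernel) (by norm_num) (by decide +kernel)
    (by decide +kernel) (by norm_num) (by norm_num) (by decide +kernel)
  have k2 := key.trans cntX
  have k3 : TT [(v0, 0), (w0, 16)] = {x : leechLattice | sqNorm (x : GolayPt → ℤ) = 32 ∧
      dotInt (ofL v0L) x = 0 ∧ dotInt (ofL w0L) x = 16} := by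
    ext y
    rw [mem_TT2, v0_coe, w0_coe]
    rfl
  rw [k3]
  exact k2

theorem x0_mem : x0 ∈ TT [(v0, 0), (w0, 16)] := by
  rw [mem_TT2]
  exact ⟨x0_norm, (dot_mkV v0E 0 0 _ x0E 0 0 _).trans (by decide +kernel),
    (dot_mkV w0E 1 0 _ x0E 0 0 _).trans (by decide +kernel)⟩

theorem transX : TransL [(v0, 0), (w0, 16)] := by
  apply transL_of_cover (bases := [v0E, w0E]) (root := x0) fixB2
  exact orbit_cover [v0E, w0E] x0E gensM progX posX 2025 _ _ (rep_mkV _ _ _ _) (by decide)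
    (by rw [x0_norm]; norm_num) gensM_ok ncardX (by norm_num)
    (fun g hg => fixL_mem_TT (fixB2 g hg) x0_mem) 852206658587909773353650494292640268 (by decide +kernel) runX

theorem ncard_std3 (c δ ε : ℤ) (α3 α2 n : ℕ) (hδ : δ = 16 + 256 * c) (hε : ε = 0 + 64 * δ)
    (h3 : (α3 : ℤ) = ε + 20 * 65724) (h2 : (α2 : ℤ) = ε + 16 * 65724)
    (hcnt : cnt1 eL ε + (sumS (cnt2 T2e α2) gB 0 + sumS (cnt3 T3e α3) gB 0) = n) :
    (TT [(v0, 0), (w0, 16), (x0, c)]).ncard = n := by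
  have key := ncard_dot3 v0L w0L x0L dL eL 64 256 0 16 c δ ε 65724 T3e T2e α3 α2 (by decide)
    (by decide) (by decide) (by decide +kernel) (by decide +kernel) hδ (by decide +kernel)
    (by decide +kernel) hε (by decide +kernel) (by decide +kernel) h3 h2 (by decide +kernel)
  have k2 := key.trans hcnt
  have k3 : TT [(v0, 0), (w0, 16), (x0, c)] = {x : leechLattice |
      sqNorm (x : GolayPt → ℤ) = 32 ∧ dotInt (ofL v0L) x = 0 ∧ dotInt (ofL w0L) x = 16 ∧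
      dotInt (ofL x0L) x = c} := by
    ext y
    rw [mem_TT3, v0_coe, w0_coe, x0_coe]
    rfl
  rw [k3]
  exact k2

theorem trans_std3 (c : ℤ) (n : ℕ) (rootL : List ℕ) (par μ : ℕ)
    (hlat : latB rootL par μ = true) (prog : List (Option ℕ)) (pos : List ℕ) (rk : ℕ)
    (hn : (TT [(v0, 0), (w0, 16), (x0, c)]).ncard = n) (hpos : 0 < n)
    (h1 : ((List.range 24).map (fun c => ((rootL.getD c 16 : ℤ) - 16) ^ 2)).sum = 32)
    (h2 : ((List.range 24).map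
      (fun c => ((v0E.getD c 16 : ℤ) - 16) * ((rootL.getD c 16 : ℤ) - 16))).sum = 0)
    (h3 : ((List.range 24).map
      (fun c => ((w0E.getD c 16 : ℤ) - 16) * ((rootL.getD c 16 : ℤ) - 16))).sum = 16)
    (h4 : ((List.range 24).map
      (fun c => ((x0E.getD c 16 : ℤ) - 16) * ((rootL.getD c 16 : ℤ) - 16))).sum = c)
    (hrk : rk = packL rootL) (hrun : chkRun gens22 prog rk pos n = true)
    (hlen : rootL.length = 24) : TransL [(v0, 0), (w0, 16), (x0, c)] := by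
  have hroot : mkV rootL par μ hlat ∈ TT [(v0, 0), (w0, 16), (x0, c)] := by
    rw [mem_TT3]
    exact ⟨(sqNorm_mkV _ _ _ _).trans h1, (dot_mkV v0E 0 0 _ rootL par μ hlat).trans h2,
      (dot_mkV w0E 1 0 _ rootL par μ hlat).trans h3,
      (dot_mkV x0E 0 0 _ rootL par μ hlat).trans h4⟩
  apply transL_of_cover (bases := [v0E, w0E, x0E]) (root := mkV rootL par μ hlat) (fixB3 c)
  exact orbit_cover [v0E, w0E, x0E] rootL gens22 prog pos n _ _ (rep_mkV _ _ _ _) hlen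
    (by rw [hroot.1]; norm_num) gens22_ok hn hpos
    (fun g hg => fixL_mem_TT (fixB3 c g hg) hroot) rk hrk hrun

theorem ncardA : (TT [(v0, 0), (w0, 16), (x0, 0)]).ncard = 330 :=
  ncard_std3 (0) (16) (1024) 1315504 1052608 330 (by norm_num) (by norm_num) (by norm_num) (by norm_num) cntA

theorem transA : TransL [(v0, 0), (w0, 16), (x0, 0)] :=
  trans_std3 (0) 330 rootA 0 10558 (by decide +kernel) progA posA 686053159114795363099710699726260816 ncardA (by norm_num)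
    (by decide +kernel) (by decide +kernel) (by decide +kernel) (by decide +kernel)
    (by decide +kernel) runA (by decide)

theorem ncardB : (TT [(v0, 0), (w0, 16), (x0, 16)]).ncard = 462 :=
  ncard_std3 (16) (4112) (263168) 1577648 1314752 462 (by norm_num) (by norm_num) (by norm_num) (by norm_num) cntB

theorem transB : TransL [(v0, 0), (w0, 16), (x0, 16)] :=
  trans_std3 (16) 462 rootB 0 12587685 (by decide +kernel) progB posB 766533760422085119788810751604967950 ncardB (by norm_num)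
    (by decide +kernel) (by decide +kernel) (by decide +kernel) (by decide +kernel)
    (by decide +kernel) runB (by decide)

theorem ncardC : (TT [(v0, 0), (w0, 16), (x0, 8)]).ncard = 1232 :=
  ncard_std3 (8) (2064) (132096) 1446576 1183680 1232 (by norm_num) (by norm_num) (by norm_num) (by norm_num) cntC

theorem transC : TransL [(v0, 0), (w0, 16), (x0, 8)] :=
  trans_std3 (8) 1232 rootC 1 7864649 (by decide +kernel) progC posC 726251588962425003599112949701658159 ncardC (by norm_num)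
    (by decide +kernel) (by decide +kernel) (by decide +kernel) (by decide +kernel)
    (by decide +kernel) runC (by decide)

/-- Every pair of minimal vectors with inner product `-8` is an image of the standard pair. -/
theorem exists_move (v w : leechLattice) (hv : sqNorm (v : GolayPt → ℤ) = 32)
    (hw : sqNorm (w : GolayPt → ℤ) = 32)
    (hvw : dotInt (v : GolayPt → ℤ) (w : GolayPt → ℤ) = -8) :
    ∃ h : Co0, h • v0 = v ∧ h • w0 = w := by
  obtain ⟨g, hg⟩ := trans_norm32 v0 v v0_norm hv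
  have h1 : sqNorm ((g • w0 : leechLattice) : GolayPt → ℤ) = 32 := by
    rw [co0_norm]
    exact w0_norm
  have h2 : dotInt (v : GolayPt → ℤ) ((g • w0 : leechLattice) : GolayPt → ℤ) = -8 := by
    have := smul_dot g v0 w0
    rw [hg] at this
    rw [this]
    exact v0w0
  obtain ⟨k, hk1, hk2⟩ := pair_trans_8 v (g • w0) w hv h1 hw h2 hvw
  exact ⟨k * g, by rw [mul_smul, hg, hk1], by rw [mul_smul, hk2]⟩

/-- The 2025 vectors, transitivity, and the three suborbits. -/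
theorem main (v w : ↥Cfsg.leechLattice) (hv : Cfsg.sqNorm (v : Cfsg.GolayPt → ℤ) = 32)
    (hw : Cfsg.sqNorm (w : Cfsg.GolayPt → ℤ) = 32)
    (hvw : Cfsg.dotInt (v : Cfsg.GolayPt → ℤ) (w : Cfsg.GolayPt → ℤ) = -8) :
    {x : ↥Cfsg.leechLattice | Cfsg.sqNorm (x : Cfsg.GolayPt → ℤ) = 32 ∧ Cfsg.dotInt (v : Cfsg.GolayPt → ℤ) (x : Cfsg.GolayPt → ℤ) = 0 ∧ Cfsg.dotInt (w : Cfsg.GolayPt → ℤ) (x : Cfsg.GolayPt → ℤ) = 16}.ncard = 2025 ∧
    (∀ x ∈ {x : ↥Cfsg.leechLattice | Cfsg.sqNorm (x : Cfsg.GolayPt → ℤ) = 32 ∧ Cfsg.dotInt (v : Cfsg.GolayPt → ℤ) (x : Cfsg.GolayPt → ℤ) = 0 ∧ Cfsg.dotInt (w : Cfsg.GolayPt → ℤ) (x : Cfsg.GolayPt → ℤ) = 16}, ∀ x' ∈ {x : ↥Cfsg.leechLattice | Cfsg.sqNorm (x : Cfsg.GolayPt → ℤ) = 32 ∧ Cfsg.dotInt (v : Cfsg.GolayPt → ℤ) (x : Cfsg.GolayPt → ℤ) = 0 ∧ Cfsg.dotInt (w : Cfsg.GolayPt → ℤ) (x : Cfsg.GolayPt → ℤ) = 16}, ∃ g : ↥Cfsg.Co0, g • v = v ∧ g • w = w ∧ g • x = x') ∧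
    ∀ x ∈ {x : ↥Cfsg.leechLattice | Cfsg.sqNorm (x : Cfsg.GolayPt → ℤ) = 32 ∧ Cfsg.dotInt (v : Cfsg.GolayPt → ℤ) (x : Cfsg.GolayPt → ℤ) = 0 ∧ Cfsg.dotInt (w : Cfsg.GolayPt → ℤ) (x : Cfsg.GolayPt → ℤ) = 16}, ∃ y₁ ∈ {x : ↥Cfsg.leechLattice | Cfsg.sqNorm (x : Cfsg.GolayPt → ℤ) = 32 ∧ Cfsg.dotInt (v : Cfsg.GolayPt → ℤ) (x : Cfsg.GolayPt → ℤ) = 0 ∧ Cfsg.dotInt (w : Cfsg.GolayPt → ℤ) (x : Cfsg.GolayPt → ℤ) = 16}, ∃ y₂ ∈ {x : ↥Cfsg.leechLattice | Cfsg.sqNorm (x : Cfsg.GolayPt → ℤ) = 32 ∧ Cfsg.dotInt (v : Cfsg.GolayPt → ℤ) (x : Cfsg.GolayPt → ℤ) = 0 ∧ Cfsg.dotInt (w : Cfsg.GolayPt → ℤ) (x : Cfsg.GolayPt → ℤ) = 16}, ∃ y₃ ∈ {x : ↥Cfsg.leechLattice | Cfsg.sqNorm (x : Cfsg.GolayPt → ℤ) = 32 ∧ Cfsg.dotInt (v : Cfsg.GolayPt → ℤ) (x : Cfsg.GolayPt → ℤ) = 0 ∧ Cfsg.dotInt (w : Cfsg.GolayPt → ℤ) (x : Cfsg.GolayPt → ℤ) = 16},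
      (MulAction.orbit ↥(MulAction.stabilizer ↥Cfsg.Co0 v ⊓ MulAction.stabilizer ↥Cfsg.Co0 w ⊓ MulAction.stabilizer ↥Cfsg.Co0 x) y₁).ncard = 330 ∧ (MulAction.orbit ↥(MulAction.stabilizer ↥Cfsg.Co0 v ⊓ MulAction.stabilizer ↥Cfsg.Co0 w ⊓ MulAction.stabilizer ↥Cfsg.Co0 x) y₂).ncard = 462 ∧
      (MulAction.orbit ↥(MulAction.stabilizer ↥Cfsg.Co0 v ⊓ MulAction.stabilizer ↥Cfsg.Co0 w ⊓ MulAction.stabilizer ↥Cfsg.Co0 x) y₃).ncard = 1232 := by
  obtain ⟨h, hhv, hhw⟩ := exists_move v w hv hw hvw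
  have e2 : [(v, (0 : ℤ)), (w, 16)] = mvL h [(v0, 0), (w0, 16)] := by
    simp [mvL, hhv, hhw]
  have hX : {x : ↥Cfsg.leechLattice | Cfsg.sqNorm (x : Cfsg.GolayPt → ℤ) = 32 ∧ Cfsg.dotInt (v : Cfsg.GolayPt → ℤ) (x : Cfsg.GolayPt → ℤ) = 0 ∧ Cfsg.dotInt (w : Cfsg.GolayPt → ℤ) (x : Cfsg.GolayPt → ℤ) = 16} = TT [(v, 0), (w, 16)] := by
    ext y
    rw [mem_TT2]
    rfl
  have nX : (TT [(v, 0), (w, 16)]).ncard = 2025 := by
    rw [e2]
    exact (ncard_TT_mvL h _).trans ncardX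
  have tX : TransL [(v, 0), (w, 16)] := by
    rw [e2]
    exact transX.mvL h
  rw [hX]
  refine ⟨nX, ?_, ?_⟩
  · intro x hx x' hx'
    obtain ⟨g, hg, hgx⟩ := tX x hx x' hx'
    rw [fixL2] at hg
    exact ⟨g, hg.1, hg.2, hgx⟩
  · intro x hx
    have hx0' : h • x0 ∈ TT [(v, 0), (w, 16)] := by
      rw [e2]
      exact (mem_TT_mvL h _ x0).mpr x0_mem
    obtain ⟨g, hg, hgx⟩ := tX (h • x0) hx0' x hx
    rw [fixL2] at hg
    have e3 : ∀ c : ℤ, [(v, (0 : ℤ)), (w, 16), (x, c)]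
        = mvL (g * h) [(v0, 0), (w0, 16), (x0, c)] := by
      intro c
      simp [mvL, mul_smul, hhv, hhw, hg.1, hg.2, hgx]
    have hH : ∀ (c : ℤ) (k : Co0), k ∈ (MulAction.stabilizer ↥Cfsg.Co0 v ⊓
        MulAction.stabilizer ↥Cfsg.Co0 w ⊓ MulAction.stabilizer ↥Cfsg.Co0 x) ↔
        FixL [(v, 0), (w, 16), (x, c)] k := by
      intro c k
      rw [fixL3, Subgroup.mem_inf, Subgroup.mem_inf, MulAction.mem_stabilizer_iff,
        MulAction.mem_stabilizer_iff, MulAction.mem_stabilizer_iff, and_assoc]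
    have cls : ∀ (c : ℤ) (n : ℕ), (TT [(v0, 0), (w0, 16), (x0, c)]).ncard = n →
        TransL [(v0, 0), (w0, 16), (x0, c)] → 0 < n →
        ∃ y ∈ TT [(v, 0), (w, 16)], (MulAction.orbit ↥(MulAction.stabilizer ↥Cfsg.Co0 v ⊓ MulAction.stabilizer ↥Cfsg.Co0 w ⊓ MulAction.stabilizer ↥Cfsg.Co0 x) y).ncard = n := by
      intro c n hn ht hpos
      have hn' : (TT [(v, 0), (w, 16), (x, c)]).ncard = n := by
        rw [e3 c]
        exact (ncard_TT_mvL _ _).trans hn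
      have ht' : TransL [(v, 0), (w, 16), (x, c)] := by
        rw [e3 c]
        exact ht.mvL _
      obtain ⟨y, hy⟩ : (TT [(v, 0), (w, 16), (x, c)]).Nonempty :=
        Set.nonempty_of_ncard_ne_zero (by rw [hn']; omega)
      refine ⟨y, ?_, ?_⟩
      · rw [mem_TT3] at hy
        rw [mem_TT2]
        exact ⟨hy.1, hy.2.1, hy.2.2.1⟩
      · rw [orbit_eq_TT _ (hH c) ht' hy]
        exact hn'
    obtain ⟨y1, hy1, ho1⟩ := cls 0 330 ncardA transA (by norm_num)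
    obtain ⟨y2, hy2, ho2⟩ := cls 16 462 ncardB transB (by norm_num)
    obtain ⟨y3, hy3, ho3⟩ := cls 8 1232 ncardC transC (by norm_num)
    exact ⟨y1, hy1, y2, hy2, y3, hy3, ho1, ho2, ho3⟩

end Cfsg.Agent.Lib.Helper37.D1634
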