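import Mathlib

set_option autoImplicit false
set_option linter.unusedSectionVars false

namespace Cfsg.Agent.Lib.Helper37

section Mask

variable {α : Type*} [Fintype α] [DecidableEq α]

/-- The subset of `α` encoded by the bits of `m` through the indexing `idx`. -/
def dec (idx : α → ℕ) (m : ℕ) : Finset α :=
  Finset.univ.filter (fun p => m.testBit (idx p) = true)

theorem mem_dec {idx : α → ℕ} {m : ℕ} {p : α} : p ∈ dec idx m ↔ m.testBit (idx p) = true := by
  simp [dec]

theorem dec_zero (idx : α → ℕ) : dec idx 0 = ∅ := by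
  ext p; simp [mem_dec]

theorem dec_and (idx : α → ℕ) (a b : ℕ) : dec idx (a &&& b) = dec idx a ∩ dec idx b := by
  ext p; simp [mem_dec, Nat.testBit_and]

theorem dec_or (idx : α → ℕ) (a b : ℕ) : dec idx (a ||| b) = dec idx a ∪ dec idx b := by
  ext p; simp [mem_dec, Nat.testBit_or]

theorem dec_xor (idx : α → ℕ) (a b : ℕ) :
    dec idx (a ^^^ b) = (dec idx a \ dec idx b) ∪ (dec idx b \ dec idx a) := by
  ext p
  simp only [mem_dec, Nat.testBit_xor, Finset.mem_union, Finset.mem_sdiff]
  cases a.testBit (idx p) <;> cases b.testBit (idx p) <;> simp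

/-- The mask of a subset. -/
def mask (idx : α → ℕ) (s : Finset α) : ℕ := ∑ i ∈ s.image idx, 2 ^ i

theorem testBit_sum_two_pow (S : Finset ℕ) (j : ℕ) : (∑ i ∈ S, 2 ^ i).testBit j = true ↔ j ∈ S := by
  rw [← Nat.mem_bitIndices, ← List.mem_toFinset, Finset.toFinset_bitIndices_sum_two_pow]

theorem testBit_mask {idx : α → ℕ} (hidx : Function.Injective idx) (s : Finset α) (p : α) :
    (mask idx s).testBit (idx p) = true ↔ p ∈ s := by
  rw [mask, testBit_sum_two_pow]
  simp [hidx.eq_iff]

theorem dec_mask {idx : α → ℕ} (hidx : Function.Injective idx) (s : Finset α) :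
    dec idx (mask idx s) = s := by
  ext p; rw [mem_dec, testBit_mask hidx]

theorem mask_lt {idx : α → ℕ} {N : ℕ} (h : ∀ p, idx p < N) (s : Finset α) : mask idx s < 2 ^ N := by
  apply Nat.lt_pow_two_of_testBit
  intro i hi
  by_contra hc
  rw [Bool.not_eq_false, mask, testBit_sum_two_pow] at hc
  obtain ⟨p, -, rfl⟩ := Finset.mem_image.mp hc
  exact absurd (h p) (not_lt.mpr hi)

theorem dec_inj {idx : α → ℕ} {N : ℕ} (hsurj : ∀ i < N, ∃ p, idx p = i) {a b : ℕ}
    (ha : a < 2 ^ N) (hb : b < 2 ^ N) (h : dec idx a = dec idx b) : a = b := by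
  apply Nat.eq_of_testBit_eq
  intro i
  by_cases hi : i < N
  · obtain ⟨p, rfl⟩ := hsurj i hi
    have : p ∈ dec idx a ↔ p ∈ dec idx b := by rw [h]
    rw [mem_dec, mem_dec] at this
    cases h1 : a.testBit (idx p) <;> cases h2 : b.testBit (idx p) <;> simp_all
  · have hN : 2 ^ N ≤ 2 ^ i := Nat.pow_le_pow_right (by norm_num) (not_lt.mp hi)
    rw [Nat.testBit_eq_false_of_lt (lt_of_lt_of_le ha hN),
      Nat.testBit_eq_false_of_lt (lt_of_lt_of_le hb hN)]

/-- Number of set bits below `N`. -/
def popN (N m : ℕ) : ℕ := ((List.range N).filter (fun i => m.testBit i)).length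

theorem card_dec {idx : α → ℕ} {N : ℕ} (hinj : Function.Injective idx) (hlt : ∀ p, idx p < N)
    (hsurj : ∀ i < N, ∃ p, idx p = i) (m : ℕ) : (dec idx m).card = popN N m := by
  have h1 : (dec idx m).card = ((dec idx m).image idx).card :=
    (Finset.card_image_of_injective _ hinj).symm
  have h2 : (dec idx m).image idx = (Finset.range N).filter (fun i => m.testBit i = true) := by
    ext i
    simp only [Finset.mem_image, mem_dec, Finset.mem_filter, Finset.mem_range]
    constructor
    · rintro ⟨p, hp, rfl⟩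
      exact ⟨hlt p, hp⟩
    · rintro ⟨hi, hb⟩
      obtain ⟨p, rfl⟩ := hsurj i hi
      exact ⟨p, hb, rfl⟩
  rw [h1, h2, popN]
  simp [Finset.card, Finset.filter, Finset.range, Multiset.range]

theorem dec_subset_iff {idx : α → ℕ} {N : ℕ} (hsurj : ∀ i < N, ∃ p, idx p = i) {a b : ℕ}
    (ha : a < 2 ^ N) : dec idx a ⊆ dec idx b ↔ a &&& b = a := by
  constructor
  · intro h
    have hab : a &&& b < 2 ^ N := lt_of_le_of_lt Nat.and_le_left ha
    apply dec_inj hsurj hab ha
    rw [dec_and]
    exact Finset.inter_eq_left.mpr h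
  · intro h
    rw [← h, dec_and]
    exact Finset.inter_subset_right

end Mask

end Cfsg.Agent.Lib.Helper37
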