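import Mathlib
import Cfsg.Prelude.Def_GeometricClasses
import Cfsg.Prelude.Def_LieClassical

/-!
# Project O9 (S5835, architect helper44): piece STB (proof by helper37)

A `g ∈ GL` mapping every member of an `m`-decomposition onto a member lies in the
decomposition stabilizer.
-/

set_option autoImplicit false

namespace Cfsg.Agent.Lib.Helper44.O9

open Matrix Cfsg.Geo

variable {n : ℕ} {F : Type*} [Field F] [Fintype F]

theorem STB {ι : Type} [Fintype ι] [DecidableEq ι] {t m : ℕ}
    (D : Fin t → Submodule F (ι → F)) (hD : IsMDecomposition m D) (g : GL ι F)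
    (h : ∀ i, ∃ j, (D i).map (Matrix.toLin' g.1) = D j) : g ∈ decompositionStabilizer D := by
  classical
  choose j hj using h
  have hDinj : Function.Injective D := by
    apply hD.indep.injective
    intro i hi
    have h1 := hD.finrank_eq i
    rw [hi, finrank_bot] at h1
    have h2 := hD.pos
    omega
  have hginj : Function.Injective (Matrix.toLin' g.1) := by
    have hleft : (Matrix.toLin' (g⁻¹).1).comp (Matrix.toLin' g.1) = LinearMap.id := by
      rw [← Matrix.toLin'_mul, ← Units.val_mul, inv_mul_cancel, Units.val_one, Matrix.toLin'_one]
    intro x y hxy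
    have h3 := congrArg (Matrix.toLin' (g⁻¹).1) hxy
    rw [← LinearMap.comp_apply, ← LinearMap.comp_apply, hleft] at h3
    exact h3
  have hjinj : Function.Injective j := by
    intro i i' hii
    apply hDinj
    have h1 : (D i).map (Matrix.toLin' g.1) = (D i').map (Matrix.toLin' g.1) := by
      rw [hj i, hj i', hii]
    exact Submodule.map_injective_of_injective hginj h1
  have hjbij : Function.Bijective j := Finite.injective_iff_bijective.mp hjinj
  exact ⟨Equiv.ofBijective j hjbij, fun i => hj i⟩

end Cfsg.Agent.Lib.Helper44.O9
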