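import Mathlib
import Cfsg.Agent.Lib.Helper72.PQDefs

set_option autoImplicit false

/-!
# S4306, piece PQ-FIN (for helper72)

The statement of S4306 from the internal form `RedStmt`, through the semidirect product `G ⋊ A`
(as in `Cfsg/Agent/S3796.lean`).  A nonabelian group of order `p * q` has a normal Sylow subgroup of
prime order (for the larger prime) on which the elements outside it act fixed-point-freely.
-/

namespace Cfsg.Agent.Lib.Helper37.PQ

open Cfsg.Agent.Lib.Helper72.PQ

universe u

/-- In a nonabelian group of order `p * q` with `q < p`, the Sylow `p`-subgroup `P` is normal of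
order `p` and the elements outside `P` centralise no nonidentity element of `P`. -/
theorem frob_kernel_of_lt {A : Type u} [Group A] [Finite A] (p q : ℕ) (hp : p.Prime) (hq : q.Prime)
    (hlt : q < p) (hA : Nat.card A = p * q) (hAna : ¬ IsMulCommutative A) :
    ∃ P : Subgroup A, P.Normal ∧ Nat.card P = p ∧
      ∀ a : A, a ∉ P → ∀ x ∈ P, a * x = x * a → x = 1 := by
  have : Fact p.Prime := ⟨hp⟩
  have : Fact q.Prime := ⟨hq⟩
  obtain ⟨P⟩ : Nonempty (Sylow p A) := inferInstance
  have hPcard : Nat.card (P : Subgroup A) = p := by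
    rw [Sylow.card_eq_multiplicity, hA]
    have h1 : (p * q).factorization p = 1 := by
      rw [Nat.factorization_mul hp.ne_zero hq.ne_zero, Finsupp.add_apply, hp.factorization_self,
        Nat.factorization_eq_zero_of_not_dvd]
      intro hdvd
      exact absurd ((Nat.prime_dvd_prime_iff_eq hp hq).mp hdvd) hlt.ne'
    rw [h1, pow_one]
  have hindex : (P : Subgroup A).index = q := by
    have h1 := Subgroup.card_mul_index (P : Subgroup A)
    rw [hPcard, hA] at h1
    exact Nat.eq_of_mul_eq_mul_left hp.pos h1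
  have hn1 : Nat.card (Sylow p A) = 1 := by
    have h1 := card_sylow_modEq_one p A
    have h2 := P.card_dvd_index
    rw [hindex] at h2
    rcases (Nat.dvd_prime hq).mp h2 with h | h
    · exact h
    · exfalso
      rw [h] at h1
      have h3 : q % p = 1 % p := h1
      rw [Nat.mod_eq_of_lt hlt, Nat.mod_eq_of_lt hp.one_lt] at h3
      exact hq.one_lt.ne' h3
  have : Subsingleton (Sylow p A) := (Nat.card_eq_one_iff_unique.mp hn1).1
  have hPn : (P : Subgroup A).Normal := Sylow.normal_of_subsingleton P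
  refine ⟨P, hPn, hPcard, ?_⟩
  intro a haP x hxP hax
  by_contra hx1
  apply hAna
  -- the centraliser of `x` is everything
  have hcyc : IsCyclic (P : Subgroup A) := isCyclic_of_prime_card hPcard
  have hPC : (P : Subgroup A) ≤ Subgroup.centralizer ({x} : Set A) := by
    intro y hy
    rw [Subgroup.mem_centralizer_iff]
    intro z hz
    rw [Set.mem_singleton_iff] at hz
    subst hz
    have h1 := (IsCyclic.commGroup (α := (P : Subgroup A))).mul_comm ⟨z, hxP⟩ ⟨y, hy⟩
    exact congrArg Subtype.val h1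
  have haC : a ∈ Subgroup.centralizer ({x} : Set A) := by
    rw [Subgroup.mem_centralizer_iff]
    intro z hz
    rw [Set.mem_singleton_iff] at hz
    subst hz
    exact hax.symm
  have hCtop : Subgroup.centralizer ({x} : Set A) = ⊤ := by
    obtain ⟨d, hd⟩ : Nat.card (P : Subgroup A) ∣ Nat.card (Subgroup.centralizer ({x} : Set A)) :=
      Subgroup.card_dvd_of_le hPC
    rw [hPcard] at hd
    have h2 : Nat.card (Subgroup.centralizer ({x} : Set A)) ∣ Nat.card A :=
      Subgroup.card_subgroup_dvd_card _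
    rw [hd, hA] at h2
    have h3 : d ∣ q := (Nat.mul_dvd_mul_iff_left hp.pos).mp h2
    rcases (Nat.dvd_prime hq).mp h3 with h | h
    · exfalso
      rw [h, mul_one] at hd
      have h4 : (P : Subgroup A) = Subgroup.centralizer ({x} : Set A) :=
        Subgroup.eq_of_le_of_card_ge hPC (by rw [hd, hPcard])
      exact haP (h4 ▸ haC)
    · rw [h, ← hA] at hd
      exact (Subgroup.card_eq_iff_eq_top _).mp hd
  have hxZ : x ∈ Subgroup.center A := by
    rw [Subgroup.mem_center_iff]
    intro g
    have hg : g ∈ Subgroup.centralizer ({x} : Set A) := by rw [hCtop]; exact Subgroup.mem_top g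
    exact (Subgroup.mem_centralizer_iff.mp hg x rfl).symm
  have hPZ : (P : Subgroup A) ≤ Subgroup.center A := by
    have h1 : Nat.card ((P : Subgroup A) ⊓ Subgroup.center A : Subgroup A) ∣ p :=
      (Subgroup.card_dvd_of_le inf_le_left).trans (dvd_of_eq hPcard)
    rcases (Nat.dvd_prime hp).mp h1 with h | h
    · exfalso
      have h2 := (Subgroup.card_eq_one).mp h
      have h3 : x ∈ ((P : Subgroup A) ⊓ Subgroup.center A : Subgroup A) :=
        Subgroup.mem_inf.mpr ⟨hxP, hxZ⟩
      rw [h2, Subgroup.mem_bot] at h3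
      exact hx1 h3
    · have h2 : ((P : Subgroup A) ⊓ Subgroup.center A : Subgroup A) = (P : Subgroup A) :=
        Subgroup.eq_of_le_of_card_ge inf_le_left (by rw [h, hPcard])
      rw [← h2]
      exact inf_le_right
  have := hPn
  have hqc : IsCyclic (A ⧸ (P : Subgroup A)) := by
    have h1 : Nat.card (A ⧸ (P : Subgroup A)) = q := by
      rw [← Subgroup.index_eq_card]; exact hindex
    exact isCyclic_of_prime_card h1
  refine MonoidHom.isMulCommutative_of_isCyclic_of_ker_le_center
    (QuotientGroup.mk' (P : Subgroup A)) ?_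
  rw [QuotientGroup.ker_mk']
  exact hPZ

theorem exists_frob_kernel {A : Type u} [Group A] [Finite A] (p q : ℕ) (hp : p.Prime) (hq : q.Prime)
    (hpq : p ≠ q) (hA : Nat.card A = p * q) (hAna : ¬ IsMulCommutative A) :
    ∃ (p' ℓ' : ℕ) (P : Subgroup A), p'.Prime ∧ ℓ'.Prime ∧ p' ≠ ℓ' ∧ p' * ℓ' = p * q ∧ P.Normal ∧
      Nat.card P = p' ∧ ∀ a : A, a ∉ P → ∀ x ∈ P, a * x = x * a → x = 1 := by
  rcases Nat.lt_or_gt_of_ne hpq with hlt | hlt
  · have hA' : Nat.card A = q * p := by rw [hA, mul_comm]
    obtain ⟨P, hPn, hPc, hPf⟩ := frob_kernel_of_lt q p hq hp hlt hA' hAna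
    exact ⟨q, p, P, hq, hp, hpq.symm, mul_comm q p, hPn, hPc, hPf⟩
  · obtain ⟨P, hPn, hPc, hPf⟩ := frob_kernel_of_lt p q hp hq hlt hA hAna
    exact ⟨p, q, P, hp, hq, hpq, rfl, hPn, hPc, hPf⟩

theorem fin.{v, w} (h : RedStmt.{max v w}) : FinStmt.{v, w} := by
  intro G A _ _ _ _ _ _ p q hp hq hpq hA hAna hcop hfpf
  obtain ⟨p', ℓ', P, hp', hℓ', hne', hmul', hPn, hPcard, hPfrob⟩ :=
    exists_frob_kernel p q hp hq hpq hA hAna
  obtain ⟨φ, hφ⟩ : ∃ φ : A →* MulAut G, ∀ a g, φ a g = a • g :=
    ⟨MulDistribMulAction.toMulAut A G, fun _ _ => rfl⟩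
  have : Finite (G ⋊[φ] A) := Finite.of_equiv _ SemidirectProduct.equivProd.symm
  have hι : Function.Injective (SemidirectProduct.inl : G →* G ⋊[φ] A) :=
    SemidirectProduct.inl_injective
  have hκ : Function.Injective (SemidirectProduct.inr : A →* G ⋊[φ] A) :=
    SemidirectProduct.inr_injective
  have hsolv : Group.IsSolvable ↥(SemidirectProduct.inl : G →* G ⋊[φ] A).range :=
    Group.isSolvable_of_surjective
      (f := (SemidirectProduct.inl : G →* G ⋊[φ] A).rangeRestrict)
      (MonoidHom.rangeRestrict_surjective _)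
  have hnorm : (SemidirectProduct.inr : A →* G ⋊[φ] A).range ≤
      Subgroup.normalizer (((SemidirectProduct.inl : G →* G ⋊[φ] A).range :
        Subgroup (G ⋊[φ] A)) : Set (G ⋊[φ] A)) := by
    have hn : ((SemidirectProduct.inl : G →* G ⋊[φ] A).range).Normal := by
      rw [SemidirectProduct.range_inl_eq_ker_rightHom]; infer_instance
    rw [Subgroup.normalizer_eq_top_iff.mpr hn]
    exact le_top
  have hfix : ∀ g ∈ (SemidirectProduct.inl : G →* G ⋊[φ] A).range,
      (∀ x ∈ (SemidirectProduct.inr : A →* G ⋊[φ] A).range, x * g = g * x) → g = 1 := by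
    rintro _ ⟨g, rfl⟩ hc
    have hg : g = 1 := by
      apply hfpf g
      intro a
      have h1 := hc (SemidirectProduct.inr a) ⟨a, rfl⟩
      have h2 := SemidirectProduct.inl_aut (φ := φ) a g
      rw [h1, mul_assoc, ← map_mul, mul_inv_cancel, map_one, mul_one] at h2
      rw [← hφ]
      exact hι h2
    rw [hg, map_one]
  have hcop' : (Nat.card ↥(SemidirectProduct.inl : G →* G ⋊[φ] A).range).Coprime (p' * ℓ') := by
    rw [hmul', ← Nat.card_congr (MonoidHom.ofInjective hι).toEquiv]
    exact hcop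
  have hFrob : Frob p' ℓ' (SemidirectProduct.inr : A →* G ⋊[φ] A).range
      (P.map (SemidirectProduct.inr : A →* G ⋊[φ] A)) := by
    refine ⟨hp', hℓ', hne', ?_, Subgroup.map_le_range _ _, ?_, ?_, ?_⟩
    · rw [hmul', ← hA]
      exact Nat.card_congr (MonoidHom.ofInjective hκ).toEquiv.symm
    · rw [← hPcard]
      exact Nat.card_congr (P.equivMapOfInjective _ hκ).toEquiv.symm
    · rintro _ ⟨a, rfl⟩
      rw [Subgroup.mem_normalizer_iff]
      intro y
      constructor
      · rintro ⟨x, hx, rfl⟩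
        refine ⟨a * x * a⁻¹, hPn.conj_mem x hx a, ?_⟩
        rw [map_mul, map_mul, map_inv]
      · rintro ⟨x, hx, hxy⟩
        refine ⟨a⁻¹ * x * a, ?_, ?_⟩
        · have h1 := hPn.conj_mem x hx a⁻¹
          rwa [inv_inv] at h1
        · rw [map_mul, map_mul, hxy, map_inv]
          group
    · rintro _ ⟨a, rfl⟩ haF _ ⟨x, hx, rfl⟩ hcomm
      have haP : a ∉ P := fun haP => haF ⟨a, haP, rfl⟩
      have hax : a * x = x * a := hκ (by rw [map_mul, map_mul]; exact hcomm)
      rw [hPfrob a haP x hx hax, map_one]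
  obtain ⟨k, m, hkm⟩ := h (G ⋊[φ] A) p' ℓ' _ _ _ hFrob hsolv hnorm hcop' hfix
  have e : (SemidirectProduct.inl : G →* G ⋊[φ] A).range =
      (⊤ : Subgroup G).map SemidirectProduct.inl := MonoidHom.range_eq_map _
  rw [e, ← Subgroup.map_lowerCentralSeries, ← Subgroup.map_lowerCentralSeries] at hkm
  have h0 : ((⊤ : Subgroup G).lowerCentralSeries k).lowerCentralSeries m = ⊥ :=
    (Subgroup.map_eq_bot_iff_of_injective _ hι).mp hkm
  have hN : ((⊤ : Subgroup G).lowerCentralSeries k).Normal := Subgroup.normal_of_characteristic _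
  refine ⟨(⊤ : Subgroup G).lowerCentralSeries k, hN, ?_, ?_⟩
  · exact (Subgroup.isNilpotent_iff_lowerCentralSeries _).mpr ⟨m, h0⟩
  · rw [Subgroup.nilpotent_iff_lowerCentralSeries]
    refine ⟨k, ?_⟩
    rw [← Subgroup.map_top_of_surjective (QuotientGroup.mk' ((⊤ : Subgroup G).lowerCentralSeries k))
      (QuotientGroup.mk'_surjective _), ← Subgroup.map_lowerCentralSeries]
    exact QuotientGroup.map_mk'_self _

end Cfsg.Agent.Lib.Helper37.PQ
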