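import Mathlib
import Cfsg.Prelude.Def_Characters
import Cfsg.Agent.Lib.Helper22.PTDefs
import Cfsg.Agent.Lib.Helper80.Twisted
import Cfsg.Agent.Lib.Helper80.Galois
import Cfsg.Agent.Lib.Helper83.IrrBasic
import Cfsg.Agent.Lib.Helper22.PTAux

/-!
# Project PT (S4705, architect helper22): piece BLKY (proof by helper37)

The family `Y k = ζ ∘ (· ^ m_k)` of Galois conjugates of `ζ`.
-/

set_option autoImplicit false

namespace Cfsg.Agent.Lib.Helper37.PT

open Cfsg Cfsg.Agent.Lib.Helper22.BFD Cfsg.Agent.Lib.Helper22.PT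
open scoped ComplexConjugate

universe u

variable {G : Type u} [Group G] [Fintype G]

/-- central elements are `p`-regular -/
theorem blky_zreg (p : ℕ) [Fact p.Prime] (z : G) (hord : orderOf z = p)
    (hsq : ¬ p ^ 2 ∣ Nat.card G) (hnn : ¬ (Subgroup.zpowers z).Normal) :
    ∀ c ∈ Subgroup.center G, ¬ p ∣ orderOf c := by
  intro c hc hdvd
  have hp := (Fact.out : p.Prime)
  have hc0 : orderOf c ≠ 0 := (orderOf_pos c).ne'
  have hc'ord : orderOf (c ^ (orderOf c / p)) = p := orderOf_pow_orderOf_div hc0 hdvd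
  have hc'cen : c ^ (orderOf c / p) ∈ Subgroup.center G := Subgroup.pow_mem _ hc _
  have hN : (Subgroup.zpowers (c ^ (orderOf c / p))).Normal := by
    constructor
    intro n hn g
    have hle : Subgroup.zpowers (c ^ (orderOf c / p)) ≤ Subgroup.center G := by
      rw [Subgroup.zpowers_le]
      exact hc'cen
    have h1 := Subgroup.mem_center_iff.mp (hle hn) g
    have h2 : g * n * g⁻¹ = n := by
      rw [h1, mul_assoc, mul_inv_cancel, mul_one]
    rw [h2]
    exact hn
  have hcardz : Nat.card (Subgroup.zpowers z) = p := by rw [Nat.card_zpowers, hord]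
  have hcardc : Nat.card (Subgroup.zpowers (c ^ (orderOf c / p))) = p := by
    rw [Nat.card_zpowers, hc'ord]
  have hpg1 : IsPGroup p (Subgroup.zpowers z) :=
    IsPGroup.of_card (n := 1) (by rw [hcardz, pow_one])
  have hpg2 : IsPGroup p (Subgroup.zpowers (c ^ (orderOf c / p))) :=
    IsPGroup.of_card (n := 1) (by rw [hcardc, pow_one])
  obtain ⟨Q1, hQ1⟩ := hpg1.exists_le_sylow
  obtain ⟨Q2, hQ2⟩ := hpg2.exists_le_sylow
  have hfac : (Nat.card G).factorization p = 1 := by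
    have hdvdG : p ∣ Nat.card G := by
      rw [← hord]
      exact orderOf_dvd_natCard z
    have hpos : Nat.card G ≠ 0 := Nat.card_pos.ne'
    have h1 : 1 ≤ (Nat.card G).factorization p :=
      (hp.dvd_iff_one_le_factorization hpos).mp hdvdG
    have h2 : ¬ 2 ≤ (Nat.card G).factorization p := by
      intro h2
      exact hsq ((hp.pow_dvd_iff_le_factorization hpos).mpr h2)
    omega
  have hQ1card : Nat.card Q1 = p := by rw [Sylow.card_eq_multiplicity, hfac, pow_one]
  have hQ2card : Nat.card Q2 = p := by rw [Sylow.card_eq_multiplicity, hfac, pow_one]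
  have e1 : Subgroup.zpowers z = (Q1 : Subgroup G) :=
    Subgroup.eq_of_le_of_card_ge hQ1 (by rw [hcardz]; exact hQ1card.le)
  have e2 : Subgroup.zpowers (c ^ (orderOf c / p)) = (Q2 : Subgroup G) :=
    Subgroup.eq_of_le_of_card_ge hQ2 (by rw [hcardc]; exact hQ2card.le)
  obtain ⟨g, hg⟩ := MulAction.exists_smul_eq G Q2 Q1
  have hQ2n : (Q2 : Subgroup G).Normal := e2 ▸ hN
  have e3 : g • Q2 = Q2 := Sylow.smul_eq_of_normal
  have e4 : Q1 = Q2 := by rw [← hg, e3]
  apply hnn
  rw [e1, e4, ← e2]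
  exact hN

omit [Fintype G] in
/-- powers of `z` -/
theorem blky_zpow (p : ℕ) [Fact p.Prime] (z : G) (hord : orderOf z = p) (t : ZMod p) (mm : ℕ) :
    (z ^ t.val) ^ mm = z ^ (t * (mm : ZMod p)).val := by
  rw [← pow_mul, pow_eq_pow_iff_modEq, hord]
  rw [← ZMod.natCast_eq_natCast_iff]
  rw [Nat.cast_mul, ZMod.natCast_val, ZMod.natCast_val, ZMod.cast_id']
  rfl

theorem blky_ev_neg (p : ℕ) [Fact p.Prime] (w : ℂ) (v s : ZMod p) :
    ev p w v (-s) = ev p w v s := by
  unfold ev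
  rw [mul_neg, neg_neg, add_comm]

theorem blky_ev_mul (p : ℕ) [Fact p.Prime] (w : ℂ) (v t k : ZMod p) :
    ev p w v (t * k) = ev p w (v * k) t := by
  unfold ev
  have e : v * (t * k) = v * k * t := by ring
  rw [e]

theorem blky_core (p : ℕ) [Fact p.Prime] (w : ℂ) (hw : IsPrimitiveRoot w p) (z : G) (ζ : G → ℂ)
    (h : Hyp G p z ζ) (hl : Loc G p z ζ) (hg : GExp G p) (u : ZMod p) (hu : u ≠ 0)
    (hex : ∀ t : ZMod p, t ≠ 0 → ζ (z ^ t.val) = -ev p w u t)
    (hpsd : ∀ g : G, p ∣ orderOf g → ∃ x : G, ∃ t : ZMod p, t ≠ 0 ∧ ∃ c ∈ Subgroup.center G,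
      g = x * (z ^ t.val * c) * x⁻¹) :
    ∃ Y : (ZMod p)ˣ → IrrCharacter G, YFam p w z ζ u Y := by
  have hp := (Fact.out : p.Prime)
  have hreg := blky_zreg p z h.ord h.sq h.nn
  have hzc : ∀ c ∈ Subgroup.center G, ∀ g : G, ζ (c * g) = cz ζ c * ζ g := by
    intro c hc g
    have h1 := Cfsg.Agent.Lib.Helper80.irr_mul_central (⟨ζ, h.irr⟩ : IrrCharacter G) hc g
    have h2 : g * c = c * g := Subgroup.mem_center_iff.mp hc g
    rw [← h2]
    exact h1
  choose m hm1 hm2 hm3 using hg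
  have hsym : ∀ s : ZMod p, ζ (z ^ (-s).val) = ζ (z ^ s.val) := by
    intro s
    by_cases hs : s = 0
    · rw [hs, neg_zero]
    · rw [hex (-s) (neg_ne_zero.mpr hs), hex s hs, blky_ev_neg]
  have hkey : ∀ (g x : G) (t : ZMod p) (c : G), c ∈ Subgroup.center G →
      g = x * (z ^ t.val * c) * x⁻¹ → ∀ mm : ℕ, (∀ g' : G, ¬ p ∣ orderOf g' → g' ^ mm = g') →
      ζ (g ^ mm) = cz ζ c * ζ (z ^ (t * (mm : ZMod p)).val) := by
    intro g x t c hc hgx mm hmm
    have hcomm : Commute (z ^ t.val) c := Subgroup.mem_center_iff.mp hc (z ^ t.val)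
    have h3 : z ^ (t * (mm : ZMod p)).val * c = c * z ^ (t * (mm : ZMod p)).val :=
      Subgroup.mem_center_iff.mp hc _
    rw [hgx, conj_pow, Cfsg.Agent.Lib.Helper83.irr_classFunction h.irr, hcomm.mul_pow,
      hmm c (hreg c hc), blky_zpow p z h.ord, h3, hzc c hc]
  refine ⟨fun k => ⟨fun g => ζ (g ^ m k),
    Cfsg.Agent.Lib.Helper80.isIrrCharacter_pow_coprime (m k) (hm1 k) ⟨ζ, h.irr⟩⟩,
    ?_, ?_, ?_, ?_, ?_, ?_⟩
  · show (fun g => ζ (g ^ m 1)) = ζ
    funext g
    by_cases hs : p ∣ orderOf g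
    · obtain ⟨x, t, ht, c, hc, hgx⟩ := hpsd g hs
      have k1 := hkey g x t c hc hgx (m 1) (hm3 1)
      have k2 := hkey g x t c hc hgx 1 (fun g' _ => pow_one g')
      rw [pow_one] at k2
      show ζ (g ^ m 1) = ζ g
      rw [k1, k2, hm2 1]
      simp
    · exact congrArg ζ (hm3 1 g hs)
  · intro k c hc g
    show ζ ((c * g) ^ m k) = cz ζ c * ζ (g ^ m k)
    have hcg : Commute c g := (Subgroup.mem_center_iff.mp hc g).symm
    rw [hcg.mul_pow, hm3 k c (hreg c hc), hzc c hc]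
  · intro k t ht
    show ζ ((z ^ t.val) ^ m k) = -ev p w (u * k) t
    rw [blky_zpow p z h.ord, hm2 k, hex _ (mul_ne_zero ht k.ne_zero), blky_ev_mul]
  · intro k
    show ζ (1 ^ m k) = (p : ℂ) - 2
    rw [one_pow, h.deg]
  · intro k g hgr
    show ζ (g ^ m k) = ζ g
    rw [hm3 k g hgr]
  · intro k l
    constructor
    · intro hkl
      have hv : ζ ((z ^ (1 : ZMod p).val) ^ m k) = ζ ((z ^ (1 : ZMod p).val) ^ m l) :=
        congrFun (congrArg Subtype.val hkl) (z ^ (1 : ZMod p).val)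
      rw [blky_zpow p z h.ord, blky_zpow p z h.ord, hm2 k, hm2 l, one_mul, one_mul,
        hex _ k.ne_zero, hex _ l.ne_zero, neg_inj] at hv
      unfold ev at hv
      have hAA : w ^ (u * (k : ZMod p)).val * w ^ (-(u * (k : ZMod p))).val = 1 := by
        rw [← pow_add, hw.pow_eq_one_iff_dvd, ← ZMod.natCast_eq_zero_iff, Nat.cast_add,
          ZMod.natCast_val, ZMod.natCast_val, ZMod.cast_id']
        simp
      have hBB : w ^ (u * (l : ZMod p)).val * w ^ (-(u * (l : ZMod p))).val = 1 := by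
        rw [← pow_add, hw.pow_eq_one_iff_dvd, ← ZMod.natCast_eq_zero_iff, Nat.cast_add,
          ZMod.natCast_val, ZMod.natCast_val, ZMod.cast_id']
        simp
      have hprod : (w ^ (u * (k : ZMod p)).val - w ^ (u * (l : ZMod p)).val) *
          (w ^ (u * (k : ZMod p)).val - w ^ (-(u * (l : ZMod p))).val) = 0 := by
        linear_combination (w ^ (u * (k : ZMod p)).val) * hv + hBB - hAA
      rcases mul_eq_zero.mp hprod with h1 | h1
      · left
        have h2 := hw.pow_inj (ZMod.val_lt _) (ZMod.val_lt _) (sub_eq_zero.mp h1)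
        have h3 : u * (k : ZMod p) = u * (l : ZMod p) := ZMod.val_injective p h2
        exact Units.ext (mul_left_cancel₀ hu h3)
      · right
        have h2 := hw.pow_inj (ZMod.val_lt _) (ZMod.val_lt _) (sub_eq_zero.mp h1)
        have h3 : u * (k : ZMod p) = -(u * (l : ZMod p)) := ZMod.val_injective p h2
        have h4 : u * (k : ZMod p) = u * (-(l : ZMod p)) := by rw [h3, mul_neg]
        apply Units.ext
        rw [Units.val_neg]
        exact mul_left_cancel₀ hu h4
    · rintro (rfl | rfl)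
      · rfl
      · apply Subtype.ext
        funext g
        show ζ (g ^ m (-l)) = ζ (g ^ m l)
        by_cases hs : p ∣ orderOf g
        · obtain ⟨x, t, ht, c, hc, hgx⟩ := hpsd g hs
          rw [hkey g x t c hc hgx (m (-l)) (hm3 (-l)), hkey g x t c hc hgx (m l) (hm3 l), hm2,
            hm2, Units.val_neg, mul_neg, hsym]
        · rw [hm3 (-l) g hs, hm3 l g hs]

/-- PIECE BLKY -/
theorem blkY (p : ℕ) [Fact p.Prime] (w : ℂ) (hw : IsPrimitiveRoot w p) (z : G) (ζ : G → ℂ)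
    (h : Hyp G p z ζ) (hl : Loc G p z ζ) (hg : GExp G p) (u : ZMod p) (hu : u ≠ 0)
    (hex : ∀ t : ZMod p, t ≠ 0 → ζ (z ^ t.val) = -ev p w u t) :
    ∃ Y : (ZMod p)ˣ → IrrCharacter G, YFam p w z ζ u Y :=
  blky_core p w hw z ζ h hl hg u hu hex (psd p z ζ h hl)

end Cfsg.Agent.Lib.Helper37.PT
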