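import Mathlib
import Cfsg.Agent.Lib.Helper44.PU3Defs
import Cfsg.Agent.Lib.Helper18.UnitaryFr

/-!
# PU3 project, piece TRANS (helper37 for helper44, S2784)

`SU_3(q)` is transitive on nonzero isotropic vectors: Witt's theorem of helper18
for a single isotropic vector.
-/

set_option autoImplicit false

namespace Cfsg.Agent.Lib.Helper44.PU3

open Matrix

theorem pu3_trans {F : Type*} [Field F] [Fintype F] (q : ℕ) : TransStmt F q := by
  intro hF v w hv hw hvv hww
  have hli : LinearIndependent F (fun _ : Fin 1 => v) :=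
    LinearIndependent.of_subsingleton (0 : Fin 1) hv
  have hli' : LinearIndependent F (fun _ : Fin 1 => w) :=
    LinearIndependent.of_subsingleton (0 : Fin 1) hw
  obtain ⟨M, hdet, hpres, hM⟩ :=
    Cfsg.Agent.Lib.Helper18.witt_iso_SU hF (k := 1) (n := 3) (by norm_num)
      (fun _ => v) (fun _ => w) hli hli' (fun _ _ => hvv) (fun _ _ => hww)
  exact ⟨M, ⟨hdet, hpres⟩, hM 0⟩

end Cfsg.Agent.Lib.Helper44.PU3
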