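import Cfsg.Agent.Lib.Helper96.PiDefs

/-!
Project PI (S5989, helper96): piece X2PLANE (helper37).  The plane `span{v, x v}` of an isometry
`x` with `x * x = -1` has type `epsNeg F`.
-/

set_option autoImplicit false
set_option linter.unusedSectionVars false
set_option linter.unusedVariables false

namespace Cfsg.Agent.Lib.Helper37.Pi

open Module Cfsg.Agent.Lib.Helper96.Sp Cfsg.Agent.Lib.Helper96.BG Cfsg.Agent.Lib.Helper96.Hy
  Cfsg.Agent.Lib.Helper96.Pi Cfsg.Agent.Lib.Helper47

universe u

variable {F : Type u} [Field F] [Fintype F] {V : Type u} [AddCommGroup V] [Module F V]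
  [FiniteDimensional F V] {B : LinearMap.BilinForm F V}

-- PIECE X2PLANE
theorem typ_plane (hS : B.IsSymm) (h2 : (2 : F) ≠ 0) (hN : ND B ⊤) (hF : Facts B)
    (x : Module.End F V) (hx : Isom B x) (hx2 : x * x = -1) (v : V) (hv : B v v ≠ 0)
    (hP : ND B (Submodule.span F {v, x v}) ∧ finrank F (Submodule.span F {v, x v}) = 2 ∧
      (Submodule.span F {v, x v}).map x ≤ Submodule.span F {v, x v} ∧
      B v (x v) = 0 ∧ B (x v) (x v) = B v v) :
    Typ B (Submodule.span F {v, x v}) (epsNeg F) := by
  obtain ⟨hPnd, hPdim, hPinv, hvx, hxx⟩ := hP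
  have hxv : B (x v) v = 0 := by
    rw [hS.eq]
    exact hvx
  by_cases hsq : IsSquare (-1 : F)
  · rw [epsNeg_of_sq hsq]
    obtain ⟨j, hj⟩ := hsq
    apply hF.typ_of_hyp _ _ (by rw [hPdim]; norm_num)
    refine ⟨hPnd, Submodule.span F {v + j • x v}, ?_, ?_, ?_⟩
    · rw [Submodule.span_singleton_le_iff_mem]
      exact Submodule.add_mem _ (Submodule.subset_span (by simp))
        (Submodule.smul_mem _ _ (Submodule.subset_span (by simp)))
    · intro u1 hu1 u2 hu2
      rw [Submodule.mem_span_singleton] at hu1 hu2
      obtain ⟨c1, rfl⟩ := hu1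
      obtain ⟨c2, rfl⟩ := hu2
      have hww : B (v + j • x v) (v + j • x v) = 0 := by
        simp only [map_add, map_smul, LinearMap.add_apply, LinearMap.smul_apply, smul_eq_mul]
        linear_combination j * hvx + j * hxv + j * j * hxx + (-(B v v)) * hj
      simp only [map_smul, LinearMap.smul_apply, smul_eq_mul, hww, mul_zero]
    · have hw0 : v + j • x v ≠ 0 := by
        intro h0
        have h1 : B (v + j • x v) v = B v v := by
          simp only [map_add, map_smul, LinearMap.add_apply, LinearMap.smul_apply, smul_eq_mul]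
          linear_combination j * hxv
        rw [h0, map_zero, LinearMap.zero_apply] at h1
        exact hv h1.symm
      rw [finrank_span_singleton hw0, hPdim]
  · rw [epsNeg_of_not_sq hsq]
    rcases hF.typ_ex _ hPnd 0 (by rw [hPdim]) with h1 | h1
    · exfalso
      obtain ⟨-, U, hUP, hUU, hUdim⟩ := hF.hyp_of_typ _ hPnd h1
      have hpos : 0 < finrank F U := by omega
      obtain ⟨⟨w, hwU⟩, hw0⟩ := Module.finrank_pos_iff_exists_ne_zero.mp hpos
      have hw0' : w ≠ 0 := fun h => hw0 (Subtype.ext h)
      have hwP := hUP hwU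
      rw [Submodule.mem_span_pair] at hwP
      obtain ⟨s, t, rfl⟩ := hwP
      have hww := hUU _ hwU _ hwU
      have hexp : B (s • v + t • x v) (s • v + t • x v) = B v v * (s * s + t * t) := by
        simp only [map_add, map_smul, LinearMap.add_apply, LinearMap.smul_apply, smul_eq_mul]
        linear_combination (s * t) * hvx + (t * s) * hxv + (t * t) * hxx
      rw [hexp] at hww
      have hst : s * s + t * t = 0 := (mul_eq_zero.mp hww).resolve_left hv
      by_cases ht : t = 0
      · rw [ht, mul_zero, add_zero] at hst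
        have hs : s = 0 := mul_self_eq_zero.mp hst
        apply hw0'
        rw [hs, ht, zero_smul, zero_smul, add_zero]
      · apply hsq
        refine ⟨s / t, ?_⟩
        rw [div_mul_div_comm, eq_div_iff (mul_ne_zero ht ht)]
        linear_combination -hst
    · exact h1

end Cfsg.Agent.Lib.Helper37.Pi
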