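import Mathlib
import Cfsg.Prelude.Def_GeometricClasses
import Cfsg.Prelude.Def_LieClassical
import Cfsg.Agent.Lib.Helper7.GUOrder
import Cfsg.Agent.Lib.Helper18.UnitaryTv
import Cfsg.Agent.Lib.Helper16.SLPC3

/-!
# SUP project (helper71, S5811 + S5856), piece U2 (helper37)

An irreducible, not absolutely irreducible subgroup of `GU_n`, `n` prime, centralises an
adjoint-closed field subalgebra of degree `n`.
-/

set_option autoImplicit false

namespace Cfsg.Agent.Lib.Helper37.SUPU2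

open Matrix Cfsg.Geo

variable {n : ℕ} {F : Type*} [Field F] [Fintype F] {q : ℕ}

/-- the adjoint of a matrix for the hermitian form -/
theorem U2_hf_adj (hF : Fintype.card F = q ^ 2) (X : Matrix (Fin n) (Fin n) F)
    (u v : Fin n → F) :
    Cfsg.hermForm n F q (X *ᵥ u) v = Cfsg.hermForm n F q u ((X.map (· ^ q))ᵀ *ᵥ v) := by
  have h1 : (X.map (· ^ q))ᵀ *ᵥ v = ∑ i, v i • (fun j => (X i j) ^ q) := by
    funext j
    simp [Matrix.mulVec, dotProduct, Finset.sum_apply, mul_comm]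
  rw [h1, Cfsg.Agent.Lib.Helper7.hf_sum_right hF]
  simp only [Cfsg.Agent.Lib.Helper7.hf_smul_right]
  unfold Cfsg.hermForm
  refine Finset.sum_congr rfl fun i _ => ?_
  simp only [Cfsg.Agent.Lib.Helper7.herm_pow_pow hF]
  rw [Matrix.mulVec, dotProduct, mul_comm]
  congr 1
  refine Finset.sum_congr rfl fun j _ => ?_
  ring

omit [Fintype F] in
theorem U2_ext {A B : Matrix (Fin n) (Fin n) F} (h : ∀ v, A *ᵥ v = B *ᵥ v) : A = B := by
  apply Matrix.toLin'.injective
  apply LinearMap.ext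
  intro v
  rw [Matrix.toLin'_apply, Matrix.toLin'_apply]
  exact h v

/-- U2: an irreducible, not absolutely irreducible subgroup of `GU_n`, `n` prime, centralises an
adjoint-closed field subalgebra of degree `n`. -/
theorem U2 (hF : Fintype.card F = q ^ 2) (hn : n.Prime) (H : Subgroup (GL (Fin n) F))
    (hH : H ≤ Cfsg.GU n F q) (h1 : ActsIrreducibly (matrixSet H))
    (h2 : ¬ ActsAbsolutelyIrreducibly (matrixSet H)) :
    ∃ K : Subalgebra F (Matrix (Fin n) (Fin n) F), IsFieldSubalgebra n K ∧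
      IsAdjointClosedFor (Cfsg.hermForm n F q) K ∧ H ≤ subalgebraNormalizer K := by
  classical
  -- a non-scalar matrix commuting with `H`
  have h3 : ∃ M : Matrix (Fin n) (Fin n) F, (∀ s ∈ matrixSet H, M * s = s * M) ∧
      ¬ ∃ c : F, M = c • (1 : Matrix (Fin n) (Fin n) F) := by
    by_contra hcon
    apply h2
    refine ⟨h1, fun M hM => ?_⟩
    by_contra hc
    exact hcon ⟨M, hM, hc⟩
  obtain ⟨M, hM, hMns⟩ := h3
  -- nonzero matrices commuting with `H` are injective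
  have hinjE : ∀ x : Matrix (Fin n) (Fin n) F, (∀ s ∈ matrixSet H, x * s = s * x) → x ≠ 0 →
      ∀ v : Fin n → F, x *ᵥ v = 0 → v = 0 := by
    intro x hxc hx0 v hv
    have hW := h1 (LinearMap.ker (Matrix.toLin' x)) (by
      intro s hs w hw
      obtain ⟨u, hu, rfl⟩ := Submodule.mem_map.mp hw
      rw [LinearMap.mem_ker] at hu ⊢
      rw [Matrix.toLin'_apply] at hu ⊢
      rw [Matrix.toLin'_apply, Matrix.mulVec_mulVec, hxc s hs, ← Matrix.mulVec_mulVec, hu,
        Matrix.mulVec_zero])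
    rcases hW with hW | hW
    · have : v ∈ LinearMap.ker (Matrix.toLin' x) := by
        rw [LinearMap.mem_ker, Matrix.toLin'_apply]; exact hv
      rw [hW] at this
      exact (Submodule.mem_bot F).mp this
    · exfalso
      apply hx0
      have h4 : Matrix.toLin' x = 0 := LinearMap.ker_eq_top.mp hW
      have h5 : Matrix.toLin' x = Matrix.toLin' (0 : Matrix (Fin n) (Fin n) F) := by
        rw [h4, map_zero]
      exact Matrix.toLin'.injective h5
  obtain ⟨K, hKdef⟩ : ∃ K : Subalgebra F (Matrix (Fin n) (Fin n) F),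
      K = Algebra.adjoin F {M} := ⟨_, rfl⟩
  have hMK : M ∈ K := by
    rw [hKdef]; exact Algebra.subset_adjoin (Set.mem_singleton M)
  have hcomm : ∀ x ∈ K, ∀ y ∈ K, x * y = y * x := by
    intro x hx y hy
    rw [hKdef] at hx hy
    have hxM : Commute x M := (Algebra.commute_of_mem_adjoin_self hx).symm
    exact (Algebra.commute_of_mem_adjoin_singleton_of_commute hy hxM).eq
  have hKc : ∀ x ∈ K, ∀ s ∈ matrixSet H, x * s = s * x := by
    intro x hx s hs
    rw [hKdef] at hx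
    have hsM : Commute s M := (hM s hs).symm
    exact (Algebra.commute_of_mem_adjoin_singleton_of_commute hx hsM).eq.symm
  have hinj : ∀ x ∈ K, x ≠ 0 → ∀ v : Fin n → F, x *ᵥ v = 0 → v = 0 :=
    fun x hx hx0 => hinjE x (hKc x hx) hx0
  have hcancel : ∀ x ∈ K, x ≠ 0 → ∀ y : Matrix (Fin n) (Fin n) F, x * y = 0 → y = 0 := by
    intro x hx hx0 y hxy
    apply Matrix.toLin'.injective
    apply LinearMap.ext
    intro v
    rw [Matrix.toLin'_apply, map_zero, LinearMap.zero_apply]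
    apply hinj x hx hx0
    rw [Matrix.mulVec_mulVec, hxy, Matrix.zero_mulVec]
  have hinv : ∀ x ∈ K, x ≠ 0 → ∃ y ∈ K, x * y = 1 := by
    intro x hx hx0
    let L : ↥K →ₗ[F] ↥K :=
      { toFun := fun y => ⟨x * y.1, K.mul_mem hx y.2⟩
        map_add' := fun y z => Subtype.ext (by
          show x * (y.1 + z.1) = x * y.1 + x * z.1
          rw [mul_add])
        map_smul' := fun a y => Subtype.ext (by
          show x * (a • y.1) = a • (x * y.1)
          rw [mul_smul_comm]) }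
    have hLinj : Function.Injective L := by
      intro y z hyz
      have h4 : x * y.1 = x * z.1 := congrArg Subtype.val hyz
      have h5 : x * (y.1 - z.1) = 0 := by rw [mul_sub, h4, sub_self]
      exact Subtype.ext (sub_eq_zero.mp (hcancel x hx hx0 _ h5))
    obtain ⟨y, hy⟩ := (LinearMap.injective_iff_surjective.mp hLinj) ⟨1, K.one_mem⟩
    exact ⟨y.1, y.2, congrArg Subtype.val hy⟩
  have hdim : 2 ≤ Module.finrank F K := by
    by_contra hlt
    have hle : Module.finrank F K ≤ 1 := by omega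
    obtain ⟨v, hv⟩ := finrank_le_one_iff.mp hle
    obtain ⟨c₁, hc₁⟩ := hv ⟨1, K.one_mem⟩
    obtain ⟨c₂, hc₂⟩ := hv ⟨M, hMK⟩
    have e1 : c₁ • v.1 = (1 : Matrix (Fin n) (Fin n) F) := congrArg Subtype.val hc₁
    have e2 : c₂ • v.1 = M := congrArg Subtype.val hc₂
    apply hMns
    by_cases hc0 : c₁ = 0
    · refine ⟨0, ?_⟩
      rw [hc0, zero_smul] at e1
      rw [zero_smul, ← mul_one M, ← e1, mul_zero]
    · refine ⟨c₂ * c₁⁻¹, ?_⟩
      rw [← e2, ← e1, smul_smul, mul_assoc, inv_mul_cancel₀ hc0, mul_one]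
  have hKfs : IsFieldSubalgebra (Module.finrank F K) K := ⟨hcomm, hinv, rfl⟩
  have hd : Module.finrank F K = n := by
    rcases (Nat.dvd_prime hn).1
      (Cfsg.Agent.Lib.Helper16.SLPC3.C3 hn.one_lt.le _ K hKfs) with h | h
    · omega
    · exact h
  -- the commutant of `H` is `K`
  have hn0 : 0 < n := hn.pos
  obtain ⟨v₀, hv₀⟩ : ∃ v₀ : Fin n → F, v₀ ≠ 0 := ⟨Pi.single ⟨0, hn0⟩ 1, by
    intro h
    have h' := congrFun h ⟨0, hn0⟩
    simp at h'⟩
  let ev : ↥K →ₗ[F] (Fin n → F) :=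
    { toFun := fun k => k.1 *ᵥ v₀
      map_add' := fun a b => by
        show (a.1 + b.1) *ᵥ v₀ = a.1 *ᵥ v₀ + b.1 *ᵥ v₀
        rw [Matrix.add_mulVec]
      map_smul' := fun a b => by
        show (a • b.1) *ᵥ v₀ = a • (b.1 *ᵥ v₀)
        rw [Matrix.smul_mulVec] }
  have hevinj : Function.Injective ev := by
    intro a b hab
    have h4 : a.1 *ᵥ v₀ = b.1 *ᵥ v₀ := hab
    have h5 : (a.1 - b.1) *ᵥ v₀ = 0 := by rw [Matrix.sub_mulVec, h4, sub_self]
    by_contra hne
    have hne' : a.1 - b.1 ≠ 0 := fun h => hne (Subtype.ext (sub_eq_zero.mp h))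
    exact hv₀ (hinj _ (K.sub_mem a.2 b.2) hne' v₀ h5)
  have hevsurj : Function.Surjective ev := by
    have hfr : Module.finrank F ↥K = Module.finrank F (Fin n → F) := by
      rw [hd, Module.finrank_fin_fun]
    exact (LinearMap.injective_iff_surjective_of_finrank_eq_finrank hfr).mp hevinj
  have hEK : ∀ X : Matrix (Fin n) (Fin n) F, (∀ s ∈ matrixSet H, X * s = s * X) → X ∈ K := by
    intro X hX
    obtain ⟨k, hk⟩ := hevsurj (X *ᵥ v₀)
    have hk' : k.1 *ᵥ v₀ = X *ᵥ v₀ := hk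
    have h5 : (X - k.1) *ᵥ v₀ = 0 := by rw [Matrix.sub_mulVec, hk', sub_self]
    have hc : ∀ s ∈ matrixSet H, (X - k.1) * s = s * (X - k.1) := by
      intro s hs
      rw [sub_mul, mul_sub, hX s hs, hKc k.1 k.2 s hs]
    have h6 : X - k.1 = 0 := by
      by_contra hne
      exact hv₀ (hinjE _ hc hne v₀ h5)
    rw [sub_eq_zero.mp h6]
    exact k.2
  -- adjoints
  have hGU : ∀ h ∈ H, ∀ a b : Fin n → F, Cfsg.hermForm n F q a (h.1 *ᵥ b) =
      Cfsg.hermForm n F q ((h⁻¹ : GL (Fin n) F).1 *ᵥ a) b := by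
    intro h hh a b
    have h7 : Cfsg.hermForm n F q (h.1 *ᵥ ((h⁻¹ : GL (Fin n) F).1 *ᵥ a)) (h.1 *ᵥ b) =
        Cfsg.hermForm n F q ((h⁻¹ : GL (Fin n) F).1 *ᵥ a) b :=
      (Cfsg.Agent.Lib.Helper7.mem_GU_iff h).mp (hH hh) _ _
    have h8 : h.1 *ᵥ ((h⁻¹ : GL (Fin n) F).1 *ᵥ a) = a := by
      rw [Matrix.mulVec_mulVec, ← Units.val_mul, mul_inv_cancel, Units.val_one,
        Matrix.one_mulVec]
    rw [h8] at h7
    exact h7
  have hadjE : ∀ X : Matrix (Fin n) (Fin n) F, (∀ s ∈ matrixSet H, X * s = s * X) →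
      ∀ s ∈ matrixSet H, (X.map (· ^ q))ᵀ * s = s * (X.map (· ^ q))ᵀ := by
    intro X hX s hs
    obtain ⟨h, hh, hs'⟩ := hs
    have hs'' : s = h.1 := hs'.symm
    subst hs''
    apply U2_ext
    intro v
    have hinvmem : (h⁻¹ : GL (Fin n) F).1 ∈ matrixSet H := ⟨h⁻¹, H.inv_mem hh, rfl⟩
    have key : ∀ u, Cfsg.hermForm n F q u (((X.map (· ^ q))ᵀ * h.1) *ᵥ v) =
        Cfsg.hermForm n F q u ((h.1 * (X.map (· ^ q))ᵀ) *ᵥ v) := by
      intro u
      rw [← Matrix.mulVec_mulVec, ← U2_hf_adj hF, hGU h hh, ← Matrix.mulVec_mulVec, hGU h hh,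
        ← U2_hf_adj hF, Matrix.mulVec_mulVec, Matrix.mulVec_mulVec, hX _ hinvmem]
    have h9 : (((X.map (· ^ q))ᵀ * h.1) *ᵥ v) - ((h.1 * (X.map (· ^ q))ᵀ) *ᵥ v) = 0 := by
      apply Cfsg.Agent.Lib.Helper18.herm_nondeg hF
      intro x
      rw [Cfsg.Agent.Lib.Helper18.hf_sub_right hF, key x, sub_self]
    exact sub_eq_zero.mp h9
  refine ⟨K, ?_, ?_, ?_⟩
  · exact ⟨hcomm, hinv, hd⟩
  · intro k hk
    exact ⟨(k.map (· ^ q))ᵀ, hEK _ (hadjE k (hKc k hk)), fun u v => U2_hf_adj hF k u v⟩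
  · intro h hh
    show ∀ k : Matrix (Fin n) (Fin n) F,
      k ∈ K ↔ h.1 * k * (h⁻¹ : GL (Fin n) F).1 ∈ K
    intro k
    have hs : h.1 ∈ matrixSet H := ⟨h, hh, rfl⟩
    have hsi : (h⁻¹ : GL (Fin n) F).1 ∈ matrixSet H := ⟨h⁻¹, H.inv_mem hh, rfl⟩
    constructor
    · intro hk
      have h6 : h.1 * k * (h⁻¹ : GL (Fin n) F).1 = k := by
        rw [← hKc k hk h.1 hs, mul_assoc, ← Units.val_mul, mul_inv_cancel, Units.val_one,
          mul_one]
      rw [h6]
      exact hk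
    · intro hk
      obtain ⟨k', hk'⟩ : ∃ k' : Matrix (Fin n) (Fin n) F,
          k' = h.1 * k * (h⁻¹ : GL (Fin n) F).1 := ⟨_, rfl⟩
      rw [← hk'] at hk
      have h7 : k = (h⁻¹ : GL (Fin n) F).1 * k' * h.1 := by
        rw [hk', ← mul_assoc, ← mul_assoc, ← Units.val_mul, inv_mul_cancel, Units.val_one,
          one_mul, mul_assoc, ← Units.val_mul, inv_mul_cancel, Units.val_one, mul_one]
      have h8 : (h⁻¹ : GL (Fin n) F).1 * k' * h.1 = k' := by
        rw [← hKc k' hk _ hsi, mul_assoc, ← Units.val_mul, inv_mul_cancel, Units.val_one,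
          mul_one]
      rw [h7, h8]
      exact hk

end Cfsg.Agent.Lib.Helper37.SUPU2
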