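import Mathlib
import Cfsg.Agent.Lib.Helper48.SVA

/-!
# S2425, piece TRANS (for helper48): flags of subspaces with prescribed dimensions are translates
of the standard flag
-/

set_option autoImplicit false

namespace Cfsg.Agent.Lib.Helper48.SV

open Cfsg
open scoped MatrixGroups Polynomial

section Flag

variable {F : Type*} [Field F] {n : ℕ}

/-- piece TRANS (1) -/
theorem finrank_stdSub (s : ℕ) (hs : s ≤ n) : Module.finrank F (stdSub F n s) = s := by
  have e : stdSub F n s ≃ₗ[F] (Fin s → F) :=
    { toFun := fun v i => (v : Fin n → F) ⟨i.val, lt_of_lt_of_le i.isLt hs⟩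
      map_add' := fun _ _ => rfl
      map_smul' := fun _ _ => rfl
      invFun := fun w => ⟨fun j => if h : j.val < s then w ⟨j.val, h⟩ else 0, fun j hj => by
        show (if h : j.val < s then w ⟨j.val, h⟩ else 0) = 0
        rw [dif_neg (by omega)]⟩
      left_inv := fun v => by
        apply Subtype.ext
        funext j
        show (if h : j.val < s then (v : Fin n → F) ⟨j.val, _⟩ else 0) = (v : Fin n → F) j
        by_cases h : j.val < s
        · rw [dif_pos h]
        · rw [dif_neg h]
          exact (v.2 j (by omega)).symm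
      right_inv := fun w => by
        funext i
        show (if h : i.val < s then w ⟨i.val, h⟩ else 0) = w i
        rw [dif_pos i.isLt] }
  rw [e.finrank_eq, Module.finrank_fin_fun]

theorem trans_aux_single_mem (s : ℕ) (j : Fin n) (hj : j.val < s) :
    (Pi.single j 1 : Fin n → F) ∈ stdSub F n s := by
  intro k hk
  have hne : k ≠ j := fun h => by rw [h] at hk; omega
  exact Pi.single_eq_of_ne hne 1

theorem trans_aux_psum_le (μ : Fin n → ℕ) (hμ : ∑ i, μ i = n) (i : ℕ) (hi : i ≤ n) :
    psum μ i ≤ n := by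
  have h := psum_mono μ hi
  rw [psum_top, hμ] at h
  exact h

/-- an adapted family: the first `psum μ i'` vectors span `W i'` -/
theorem trans_aux_family (μ : Fin n → ℕ) (hμ : ∑ i, μ i = n)
    (W : Fin (n + 1) → Submodule F (Fin n → F)) (hmono : Monotone W)
    (hdim : ∀ i : Fin (n + 1), Module.finrank F (W i) = psum μ i.val) :
    ∀ i : ℕ, ∀ hi : i ≤ n, ∃ b : Fin n → (Fin n → F), ∀ i' : ℕ, ∀ hi' : i' ≤ i,
      Submodule.span F (b '' {j : Fin n | j.val < psum μ i'}) =
        W ⟨i', Nat.lt_succ_of_le (le_trans hi' hi)⟩ := by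
  intro i
  induction i with
  | zero =>
    intro hi
    refine ⟨fun _ => 0, ?_⟩
    intro i' hi'
    have h0 : i' = 0 := Nat.le_zero.mp hi'
    subst h0
    have hW : W ⟨0, Nat.lt_succ_of_le (le_trans hi' hi)⟩ = ⊥ := by
      rw [← Submodule.finrank_eq_zero, hdim]
      exact psum_zero μ
    rw [hW]
    have hS : {j : Fin n | j.val < psum μ 0} = ∅ := by
      ext j
      simp [psum_zero]
    rw [hS, Set.image_empty, Submodule.span_empty]
  | succ i ih =>
    intro hi
    have hi0 : i ≤ n := Nat.le_of_succ_le hi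
    have hin : i < n := hi
    obtain ⟨b, hb⟩ := ih hi0
    -- the two consecutive members of the flag
    obtain ⟨Wi, hWi⟩ : ∃ Wi, Wi = W ⟨i, Nat.lt_succ_of_le hi0⟩ := ⟨_, rfl⟩
    obtain ⟨Wj, hWj⟩ : ∃ Wj, Wj = W ⟨i + 1, Nat.lt_succ_of_le hi⟩ := ⟨_, rfl⟩
    have hle : Wi ≤ Wj := by
      rw [hWi, hWj]
      apply hmono
      show i ≤ i + 1
      omega
    have hdi : Module.finrank F Wi = psum μ i := by rw [hWi, hdim]
    have hps : psum μ (i + 1) = psum μ i + μ ⟨i, hin⟩ := psum_succ μ ⟨i, hin⟩
    have hdj : Module.finrank F Wj = psum μ i + μ ⟨i, hin⟩ := by rw [hWj, hdim]; exact hps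
    have hbi : Submodule.span F (b '' {j : Fin n | j.val < psum μ i}) = Wi := by
      rw [hWi]; exact hb i le_rfl
    -- a complement of `Wi` in `Wj`
    obtain ⟨C', hC'⟩ := Submodule.exists_isCompl Wi
    have hsup : Wi ⊔ C' ⊓ Wj = Wj := by
      rw [← sup_inf_assoc_of_le C' hle, hC'.sup_eq_top, top_inf_eq]
    have hinf : Wi ⊓ (C' ⊓ Wj) = ⊥ := by
      rw [eq_bot_iff, ← hC'.inf_eq_bot]
      exact inf_le_inf_left _ inf_le_left
    have hC : Module.finrank F ↥(C' ⊓ Wj) = μ ⟨i, hin⟩ := by
      have h := Submodule.finrank_sup_add_finrank_inf_eq Wi (C' ⊓ Wj)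
      rw [hsup, hinf, finrank_bot, hdi, hdj] at h
      omega
    have hpn : psum μ i + μ ⟨i, hin⟩ ≤ n := by
      rw [← hps]; exact trans_aux_psum_le μ hμ (i + 1) hi
    obtain ⟨c⟩ : Nonempty (Module.Basis (Fin (μ ⟨i, hin⟩)) F ↥(C' ⊓ Wj)) :=
      ⟨Module.finBasisOfFinrankEq F _ hC⟩
    -- the new family
    obtain ⟨b', hb'1, hb'2⟩ : ∃ b' : Fin n → (Fin n → F),
        (∀ j : Fin n, j.val < psum μ i → b' j = b j) ∧
        (∀ k : Fin (μ ⟨i, hin⟩), ∀ h : psum μ i + k.val < n,
          b' ⟨psum μ i + k.val, h⟩ = ((c k : ↥(C' ⊓ Wj)) : Fin n → F)) := by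
      refine ⟨fun j => if h : psum μ i ≤ j.val ∧ j.val < psum μ i + μ ⟨i, hin⟩ then
        ((c ⟨j.val - psum μ i, by omega⟩ : ↥(C' ⊓ Wj)) : Fin n → F) else b j, ?_, ?_⟩
      · intro j hj
        show (if h : psum μ i ≤ j.val ∧ j.val < psum μ i + μ ⟨i, hin⟩ then
          ((c ⟨j.val - psum μ i, by omega⟩ : ↥(C' ⊓ Wj)) : Fin n → F) else b j) = b j
        rw [dif_neg (by omega)]
      · intro k h
        show (if h' : psum μ i ≤ (⟨psum μ i + k.val, h⟩ : Fin n).val ∧
            (⟨psum μ i + k.val, h⟩ : Fin n).val < psum μ i + μ ⟨i, hin⟩ then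
          ((c ⟨(⟨psum μ i + k.val, h⟩ : Fin n).val - psum μ i, by omega⟩ : ↥(C' ⊓ Wj)) :
            Fin n → F) else b ⟨psum μ i + k.val, h⟩) = _
        have hk := k.isLt
        rw [dif_pos ⟨by show psum μ i ≤ psum μ i + k.val; omega,
          by show psum μ i + k.val < psum μ i + μ ⟨i, hin⟩; omega⟩]
        congr 3
        show psum μ i + k.val - psum μ i = k.val
        omega
    refine ⟨b', ?_⟩
    intro i' hi'
    rcases Nat.lt_or_ge i' (i + 1) with hlt | hge
    · -- old members of the flag
      have hi'i : i' ≤ i := Nat.lt_succ_iff.mp hlt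
      have hmon : psum μ i' ≤ psum μ i := psum_mono μ hi'i
      have himg : b' '' {j : Fin n | j.val < psum μ i'} = b '' {j : Fin n | j.val < psum μ i'} := by
        apply Set.image_congr
        intro j hj
        exact hb'1 j (lt_of_lt_of_le hj hmon)
      rw [himg]
      exact hb i' hi'i
    · -- the new member
      have hi'e : i' = i + 1 := le_antisymm hi' hge
      subst hi'e
      rw [← hWj]
      apply le_antisymm
      · rw [Submodule.span_le]
        rintro _ ⟨j, hj, rfl⟩
        have hj' : j.val < psum μ i + μ ⟨i, hin⟩ := by rw [← hps]; exact hj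
        by_cases h : j.val < psum μ i
        · rw [hb'1 j h]
          apply hle
          rw [← hbi]
          exact Submodule.subset_span ⟨j, h, rfl⟩
        · have hk : j.val - psum μ i < μ ⟨i, hin⟩ := by omega
          have hjn : psum μ i + (⟨j.val - psum μ i, hk⟩ : Fin (μ ⟨i, hin⟩)).val < n := by
            show psum μ i + (j.val - psum μ i) < n
            have := j.isLt
            omega
          have e1 := hb'2 ⟨j.val - psum μ i, hk⟩ hjn
          have e2 : (⟨psum μ i + (⟨j.val - psum μ i, hk⟩ : Fin (μ ⟨i, hin⟩)).val, hjn⟩ : Fin n) = j := by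
            apply Fin.ext
            show psum μ i + (j.val - psum μ i) = j.val
            omega
          rw [e2] at e1
          rw [e1]
          exact (inf_le_right : C' ⊓ Wj ≤ Wj) (c _).2
      · rw [← hsup]
        apply sup_le
        · rw [← hbi, Submodule.span_le]
          rintro _ ⟨j, hj, rfl⟩
          rw [← hb'1 j hj]
          refine Submodule.subset_span ⟨j, ?_, rfl⟩
          show j.val < psum μ (i + 1)
          rw [hps]
          have : j.val < psum μ i := hj
          omega
        · intro x hx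
          have hrep := c.sum_repr ⟨x, hx⟩
          have hx' : x = ∑ k, c.repr ⟨x, hx⟩ k • ((c k : ↥(C' ⊓ Wj)) : Fin n → F) := by
            have h2 : ((∑ k, c.repr ⟨x, hx⟩ k • c k : ↥(C' ⊓ Wj)) : Fin n → F) = x :=
              congrArg (Subtype.val : ↥(C' ⊓ Wj) → (Fin n → F)) hrep
            refine h2.symm.trans ?_
            rw [Submodule.coe_sum]
            simp only [Submodule.coe_smul]
          rw [hx']
          apply Submodule.sum_mem
          intro k _
          apply Submodule.smul_mem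
          have hkn : psum μ i + k.val < n := by
            have := k.isLt
            omega
          rw [← hb'2 k hkn]
          refine Submodule.subset_span ⟨⟨psum μ i + k.val, hkn⟩, ?_, rfl⟩
          show psum μ i + k.val < psum μ (i + 1)
          rw [hps]
          have := k.isLt
          omega

/-- piece TRANS (2): every flag with the right dimensions is a translate of the standard one -/
theorem exists_gl_of_flag (μ : Fin n → ℕ) (hμ : ∑ i, μ i = n)
    (W : Fin (n + 1) → Submodule F (Fin n → F)) (hmono : Monotone W)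
    (hdim : ∀ i : Fin (n + 1), Module.finrank F (W i) = psum μ i.val) :
    ∃ g : GL (Fin n) F, ∀ i : Fin (n + 1),
      W i = (stdSub F n (psum μ i.val)).map (Matrix.toLin' (g : Matrix (Fin n) (Fin n) F)) := by
  obtain ⟨b, hb⟩ := trans_aux_family μ hμ W hmono hdim n le_rfl
  -- `b` spans everything
  have htop : ⊤ ≤ Submodule.span F (Set.range b) := by
    have h1 := hb n le_rfl
    have hS : {j : Fin n | j.val < psum μ n} = Set.univ := by
      ext j
      have := j.isLt
      simp [psum_top, hμ]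
    rw [hS, Set.image_univ] at h1
    rw [h1]
    have h2 : W ⟨n, Nat.lt_succ_of_le (le_trans le_rfl le_rfl)⟩ = ⊤ := by
      apply Submodule.eq_top_of_finrank_eq
      rw [hdim, Module.finrank_fin_fun]
      show psum μ n = n
      rw [psum_top, hμ]
    rw [h2]
  have hcard : Fintype.card (Fin n) = Module.finrank F (Fin n → F) := by
    rw [Fintype.card_fin, Module.finrank_fin_fun]
  obtain ⟨B, hB⟩ : ∃ B : Module.Basis (Fin n) F (Fin n → F), ⇑B = b :=
    ⟨basisOfTopLeSpanOfCardEqFinrank b htop hcard, coe_basisOfTopLeSpanOfCardEqFinrank b htop hcard⟩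
  -- the linear automorphism `Pi.single j 1 ↦ b j`
  obtain ⟨e, he⟩ : ∃ e : (Fin n → F) ≃ₗ[F] (Fin n → F), ∀ j, e (Pi.single j 1) = b j := by
    refine ⟨(Pi.basisFun F (Fin n)).equiv B (Equiv.refl _), fun j => ?_⟩
    have h := Module.Basis.equiv_apply (Pi.basisFun F (Fin n)) j B (Equiv.refl _)
    rw [Pi.basisFun_apply] at h
    rw [h, hB]
    rfl
  have h1 : LinearMap.toMatrix' (e : (Fin n → F) →ₗ[F] (Fin n → F)) *
      LinearMap.toMatrix' (e.symm : (Fin n → F) →ₗ[F] (Fin n → F)) = 1 := by
    rw [← LinearMap.toMatrix'_comp, LinearEquiv.comp_coe, LinearEquiv.symm_trans_self,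
      LinearEquiv.refl_toLinearMap, LinearMap.toMatrix'_id]
  have h2 : LinearMap.toMatrix' (e.symm : (Fin n → F) →ₗ[F] (Fin n → F)) *
      LinearMap.toMatrix' (e : (Fin n → F) →ₗ[F] (Fin n → F)) = 1 := by
    rw [← LinearMap.toMatrix'_comp, LinearEquiv.comp_coe, LinearEquiv.self_trans_symm,
      LinearEquiv.refl_toLinearMap, LinearMap.toMatrix'_id]
  refine ⟨⟨LinearMap.toMatrix' (e : (Fin n → F) →ₗ[F] (Fin n → F)),
    LinearMap.toMatrix' (e.symm : (Fin n → F) →ₗ[F] (Fin n → F)), h1, h2⟩, ?_⟩
  intro i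
  show W i = (stdSub F n (psum μ i.val)).map
    (Matrix.toLin' (LinearMap.toMatrix' (e : (Fin n → F) →ₗ[F] (Fin n → F))))
  rw [Matrix.toLin'_toMatrix']
  have hpn : psum μ i.val ≤ n := trans_aux_psum_le μ hμ i.val (Nat.lt_succ_iff.mp i.isLt)
  apply Submodule.eq_of_le_of_finrank_eq
  · have hi := hb i.val (Nat.lt_succ_iff.mp i.isLt)
    have hWi : W ⟨i.val, Nat.lt_succ_of_le (le_trans (Nat.lt_succ_iff.mp i.isLt) le_rfl)⟩ = W i := rfl
    rw [hWi] at hi
    rw [← hi, Submodule.span_le]
    rintro _ ⟨j, hj, rfl⟩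
    exact ⟨Pi.single j 1, trans_aux_single_mem _ j hj, he j⟩
  · rw [hdim]
    have h3 : Module.finrank F ↥((stdSub F n (psum μ i.val)).map
        (e : (Fin n → F) →ₗ[F] (Fin n → F))) = Module.finrank F ↥(stdSub F n (psum μ i.val)) :=
      LinearEquiv.finrank_map_eq e _
    rw [h3, finrank_stdSub _ hpn]

end Flag

end Cfsg.Agent.Lib.Helper48.SV
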