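import Cfsg.Agent.Lib.Helper98.T73Defs

/-!
# Project T73 (S5973, architect helper98): assembly piece LFIX (helper37)

`lfix_core`: the assembly with the leaf facts (CHARP, TYPC, TAUSGN, RTIODD/RTIEVEN, TI2TS, WIEX,
SUMTS) as hypotheses about the given isometry.
-/

set_option autoImplicit false

namespace Cfsg.Agent.Lib.Helper98.T73

open Cfsg.Agent.Lib.Helper47 Module Polynomial

universe u

variable {F : Type u} [Field F] [Fintype F] {V : Type u} [AddCommGroup V] [Module F V]
  [FiniteDimensional F V] {Q : V → F} {B : V → V → F}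

theorem lfix_core (hQ : IsQuad Q B) (d : ℕ) (hdim : finrank F V = 2 * d) (ε : ℤ)
    (r i : ℕ) (hir : i ∣ r - 1) (g : Module.End F V)
    (u : Multiset F[X]) (hu0 : u ≠ 0)
    (hR : finrank F (LinearMap.range (g - 1)) = i * Multiset.card u)
    (hCeven : Even (finrank F (LinearMap.ker (g - 1))))
    (hCtyp : ∀ e : ℕ, finrank F (LinearMap.ker (g - 1)) = 2 * e + 2 →
        SubTyp Q B (LinearMap.ker (g - 1)) e (ε * tauSign u))
    (hC0 : finrank F (LinearMap.ker (g - 1)) = 0 → tauSign u = ε)
    (htau : tauSign u = sgn i (Multiset.card u))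
    (hodd : Odd i → ∀ b : ℕ, 2 * (i * b) ≤ finrank F (LinearMap.range (g - 1)) →
      ∃ U : Submodule F V, U ≤ LinearMap.range (g - 1) ∧ U.map g ≤ U ∧
        (∀ x ∈ U, ∀ y ∈ U, B x y = 0) ∧ finrank F U = i * b)
    (heven : Even i → ∀ b : ℕ,
      (b ≠ 0 → (r - 1) + 2 * (i * b) ≤ finrank F (LinearMap.range (g - 1)) + i) →
      ∃ U : Submodule F V, U ≤ LinearMap.range (g - 1) ∧ U.map g ≤ U ∧
        (∀ x ∈ U, ∀ y ∈ U, B x y = 0) ∧ finrank F U = i * b)
    (hts : ∀ U : Submodule F V, U ≤ LinearMap.range (g - 1) → U.map g ≤ U →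
      (∀ x ∈ U, ∀ y ∈ U, B x y = 0) → TS Q U)
    (hwi : ∀ (e : ℕ) (η : ℤ), SubTyp Q B (LinearMap.ker (g - 1)) e η → ∀ w : ℕ, w ≤ wi e η →
      ∃ U : Submodule F V, U ≤ LinearMap.ker (g - 1) ∧ finrank F U = w ∧ TS Q U)
    (hsum : ∀ U U' : Submodule F V, U ≤ LinearMap.range (g - 1) →
      U' ≤ LinearMap.ker (g - 1) → U.map g ≤ U → TS Q U → TS Q U' →
      TS Q (U ⊔ U') ∧ (U ⊔ U').map g ≤ U ⊔ U' ∧
        finrank F ↥(U ⊔ U') = finrank F U + finrank F U') :
    ∃ A : ℕ, Valid ε i d A ∧
      ∀ j w : ℕ, JC i ((r - 1) / i) A j → w ≤ om ε i d A →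
        ∃ W : Submodule F V, finrank F W = i * j + w ∧ TS Q W ∧ W.map g ≤ W := by
  have hrn : finrank F (LinearMap.range (g - 1)) + finrank F (LinearMap.ker (g - 1)) = 2 * d := by
    rw [← hdim]
    exact LinearMap.finrank_range_add_finrank_ker (g - 1)
  have hA1 : 1 ≤ Multiset.card u := Multiset.card_pos.mpr hu0
  have hle : i * Multiset.card u ≤ 2 * d := by omega
  have hC : finrank F (LinearMap.ker (g - 1)) = 2 * d - i * Multiset.card u := by omega
  refine ⟨Multiset.card u, ⟨hA1, hle, ?_, ?_⟩, ?_⟩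
  · intro hio
    have h1 : Even (i * Multiset.card u) := by
      have h2 : Even (2 * d) := even_two_mul d
      have h3 : i * Multiset.card u = 2 * d - finrank F (LinearMap.ker (g - 1)) := by omega
      rw [h3]
      exact (Nat.even_sub (by omega)).mpr (iff_of_true h2 hCeven)
    rcases Nat.even_mul.mp h1 with h | h
    · exact absurd h (Nat.not_even_iff_odd.mpr hio)
    · exact h
  · intro h2d
    have hC0' : finrank F (LinearMap.ker (g - 1)) = 0 := by omega
    rw [← htau]
    exact hC0 hC0'
  · intro j w hJ hw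
    have hU : ∃ U : Submodule F V, U ≤ LinearMap.range (g - 1) ∧ U.map g ≤ U ∧
        (∀ x ∈ U, ∀ y ∈ U, B x y = 0) ∧ finrank F U = i * j := by
      unfold JC at hJ
      by_cases hev : Even i
      · rw [if_pos hev] at hJ
        apply heven hev j
        intro hj0
        rcases hJ with hJ | hJ
        · exact absurd hJ hj0
        · have ht : i * ((r - 1) / i) = r - 1 := Nat.mul_div_cancel' hir
          rw [hR]
          calc (r - 1) + 2 * (i * j) = i * ((r - 1) / i + 2 * j) := by
                rw [mul_add, ht]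
                ring
            _ ≤ i * (Multiset.card u + 1) := Nat.mul_le_mul_left i hJ
            _ = i * Multiset.card u + i := by ring
      · rw [if_neg hev] at hJ
        apply hodd (Nat.not_even_iff_odd.mp hev) j
        rw [hR]
        calc 2 * (i * j) = i * (2 * j) := by ring
          _ ≤ i * Multiset.card u := Nat.mul_le_mul_left i hJ
    obtain ⟨U, hUR, hUg, hUti, hUdim⟩ := hU
    have hUts := hts U hUR hUg hUti
    have hU' : ∃ U' : Submodule F V, U' ≤ LinearMap.ker (g - 1) ∧ finrank F U' = w ∧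
        TS Q U' := by
      by_cases h0 : 2 * d = i * Multiset.card u
      · have hw0 : w = 0 := by
          unfold om at hw
          rw [if_pos h0] at hw
          omega
        refine ⟨⊥, bot_le, ?_, ?_⟩
        · rw [hw0]
          exact finrank_bot F V
        · intro x hx
          rw [Submodule.mem_bot] at hx
          rw [hx]
          exact hQ.map_zero
      · obtain ⟨c, hc⟩ := hCeven
        have hcpos : 1 ≤ c := by omega
        have hCe : finrank F (LinearMap.ker (g - 1)) = 2 * (c - 1) + 2 := by omega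
        have hK := hCtyp (c - 1) hCe
        apply hwi (c - 1) _ hK w
        unfold om at hw
        rw [if_neg h0] at hw
        unfold wi
        rw [htau]
        by_cases h1 : ε * sgn i (Multiset.card u) = 1
        · rw [if_pos h1] at hw
          rw [if_pos h1]
          omega
        · rw [if_neg h1] at hw
          rw [if_neg h1]
          omega
    obtain ⟨U', hU'C, hU'dim, hU'ts⟩ := hU'
    obtain ⟨s1, s2, s3⟩ := hsum U U' hUR hU'C hUg hUts hU'ts
    exact ⟨U ⊔ U', by rw [s3, hUdim, hU'dim], s1, s2⟩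

end Cfsg.Agent.Lib.Helper98.T73
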