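import Mathlib
import Cfsg.Prelude.Def_SporadicCombinatorics

set_option autoImplicit false

namespace Cfsg.Agent.Lib.Helper37

open Cfsg

/-- Basis words of the length-12 ternary code (rows indexed by the column, entries by the row label). -/
def tg0 : ArrayPt → ZMod 3 := fun p => (![![1,0,0], ![0,0,1], ![0,0,1], ![1,1,2]] p.1 : Fin 3 → ZMod 3) p.2
def tg1 : ArrayPt → ZMod 3 := fun p => (![![0,1,0], ![0,0,1], ![0,2,2], ![2,0,2]] p.1 : Fin 3 → ZMod 3) p.2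
def tg2 : ArrayPt → ZMod 3 := fun p => (![![0,0,1], ![0,0,1], ![0,1,0], ![2,1,1]] p.1 : Fin 3 → ZMod 3) p.2
def tg3 : ArrayPt → ZMod 3 := fun p => (![![0,0,0], ![1,0,2], ![0,2,1], ![2,1,0]] p.1 : Fin 3 → ZMod 3) p.2
def tg4 : ArrayPt → ZMod 3 := fun p => (![![0,0,0], ![0,1,2], ![0,1,2], ![0,1,2]] p.1 : Fin 3 → ZMod 3) p.2
def tg5 : ArrayPt → ZMod 3 := fun p => (![![0,0,0], ![0,0,0], ![1,1,1], ![2,2,2]] p.1 : Fin 3 → ZMod 3) p.2

/-- The word with coefficients `a, …, f` on the basis. -/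
def tword (a b c d e f : ZMod 3) : ArrayPt → ZMod 3 :=
  fun p => a * tg0 p + b * tg1 p + c * tg2 p + d * tg3 p + e * tg4 p + f * tg5 p

theorem sum_zmod3 (f : ZMod 3 → ZMod 3) : ∑ r : ZMod 3, f r = f 0 + f 1 + f 2 :=
  Fin.sum_univ_three f

theorem tetra_exists {t : Fin 4 → ZMod 3} (ht : t ∈ tetracode) :
    ∃ a b : ZMod 3, a • ![0, 1, 1, 1] + b • ![1, 0, 1, 2] = t := by
  unfold tetracode at ht
  exact Submodule.mem_span_pair.mp ht

theorem tetra_mem (a b : ZMod 3) : a • ![0, 1, 1, 1] + b • ![1, 0, 1, 2] ∈ tetracode := by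
  unfold tetracode
  exact Submodule.mem_span_pair.mpr ⟨a, b, rfl⟩

theorem tg_cols : ∀ i : Fin 4,
    (∑ r : ZMod 3, tg0 (i, r) = -2) ∧ (∑ r : ZMod 3, tg1 (i, r) = -2) ∧
    (∑ r : ZMod 3, tg2 (i, r) = -2) ∧ (∑ r : ZMod 3, tg3 (i, r) = -0) ∧
    (∑ r : ZMod 3, tg4 (i, r) = -0) ∧ (∑ r : ZMod 3, tg5 (i, r) = -0) := by
  decide +kernel

theorem tg_tets : ∀ a b : ZMod 3,
    (∑ i : Fin 4, tg0 (i, (a • ![0, 1, 1, 1] + b • ![1, 0, 1, 2] : Fin 4 → ZMod 3) i) = 2) ∧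
    (∑ i : Fin 4, tg1 (i, (a • ![0, 1, 1, 1] + b • ![1, 0, 1, 2] : Fin 4 → ZMod 3) i) = 2) ∧
    (∑ i : Fin 4, tg2 (i, (a • ![0, 1, 1, 1] + b • ![1, 0, 1, 2] : Fin 4 → ZMod 3) i) = 2) ∧
    (∑ i : Fin 4, tg3 (i, (a • ![0, 1, 1, 1] + b • ![1, 0, 1, 2] : Fin 4 → ZMod 3) i) = 0) ∧
    (∑ i : Fin 4, tg4 (i, (a • ![0, 1, 1, 1] + b • ![1, 0, 1, 2] : Fin 4 → ZMod 3) i) = 0) ∧
    (∑ i : Fin 4, tg5 (i, (a • ![0, 1, 1, 1] + b • ![1, 0, 1, 2] : Fin 4 → ZMod 3) i) = 0) := by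
  decide +kernel

theorem tg0_mem : tg0 ∈ ternaryGolayCode :=
  ⟨2, fun i => (tg_cols i).1, fun t ht => by
    obtain ⟨a, b, rfl⟩ := tetra_exists ht; exact (tg_tets a b).1⟩
theorem tg1_mem : tg1 ∈ ternaryGolayCode :=
  ⟨2, fun i => (tg_cols i).2.1, fun t ht => by
    obtain ⟨a, b, rfl⟩ := tetra_exists ht; exact (tg_tets a b).2.1⟩
theorem tg2_mem : tg2 ∈ ternaryGolayCode :=
  ⟨2, fun i => (tg_cols i).2.2.1, fun t ht => by
    obtain ⟨a, b, rfl⟩ := tetra_exists ht; exact (tg_tets a b).2.2.1⟩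
theorem tg3_mem : tg3 ∈ ternaryGolayCode :=
  ⟨0, fun i => (tg_cols i).2.2.2.1, fun t ht => by
    obtain ⟨a, b, rfl⟩ := tetra_exists ht; exact (tg_tets a b).2.2.2.1⟩
theorem tg4_mem : tg4 ∈ ternaryGolayCode :=
  ⟨0, fun i => (tg_cols i).2.2.2.2.1, fun t ht => by
    obtain ⟨a, b, rfl⟩ := tetra_exists ht; exact (tg_tets a b).2.2.2.2.1⟩
theorem tg5_mem : tg5 ∈ ternaryGolayCode :=
  ⟨0, fun i => (tg_cols i).2.2.2.2.2, fun t ht => by
    obtain ⟨a, b, rfl⟩ := tetra_exists ht; exact (tg_tets a b).2.2.2.2.2⟩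

theorem tword_eq (a b c d e f : ZMod 3) :
    tword a b c d e f = a • tg0 + b • tg1 + c • tg2 + d • tg3 + e • tg4 + f • tg5 := by
  funext p
  simp [tword]

theorem tword_mem (a b c d e f : ZMod 3) : tword a b c d e f ∈ ternaryGolayCode := by
  rw [tword_eq]
  exact Submodule.add_mem _ (Submodule.add_mem _ (Submodule.add_mem _ (Submodule.add_mem _
    (Submodule.add_mem _ (Submodule.smul_mem _ _ tg0_mem) (Submodule.smul_mem _ _ tg1_mem))
    (Submodule.smul_mem _ _ tg2_mem)) (Submodule.smul_mem _ _ tg3_mem))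
    (Submodule.smul_mem _ _ tg4_mem)) (Submodule.smul_mem _ _ tg5_mem)

/-- The thirteen explicit linear equations satisfied by a word of the code. -/
theorem eqs_of_mem {z : ArrayPt → ZMod 3} (hz : z ∈ ternaryGolayCode) : ∃ s : ZMod 3,
    (z (0, 0) + z (0, 1) + z (0, 2) = -s ∧ z (1, 0) + z (1, 1) + z (1, 2) = -s ∧
     z (2, 0) + z (2, 1) + z (2, 2) = -s ∧ z (3, 0) + z (3, 1) + z (3, 2) = -s) ∧
    (z (0, 0) + z (1, 0) + z (2, 0) + z (3, 0) = s ∧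
     z (0, 1) + z (1, 0) + z (2, 1) + z (3, 2) = s ∧
     z (0, 2) + z (1, 0) + z (2, 2) + z (3, 1) = s ∧
     z (0, 0) + z (1, 1) + z (2, 1) + z (3, 1) = s ∧
     z (0, 1) + z (1, 1) + z (2, 2) + z (3, 0) = s ∧
     z (0, 2) + z (1, 1) + z (2, 0) + z (3, 2) = s ∧
     z (0, 0) + z (1, 2) + z (2, 2) + z (3, 2) = s ∧
     z (0, 1) + z (1, 2) + z (2, 0) + z (3, 1) = s ∧
     z (0, 2) + z (1, 2) + z (2, 1) + z (3, 0) = s) := by
  obtain ⟨s, hc, ht⟩ := hz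
  refine ⟨s, ⟨?_, ?_, ?_, ?_⟩, ?_, ?_, ?_, ?_, ?_, ?_, ?_, ?_, ?_⟩
  · have := hc 0; rwa [sum_zmod3] at this
  · have := hc 1; rwa [sum_zmod3] at this
  · have := hc 2; rwa [sum_zmod3] at this
  · have := hc 3; rwa [sum_zmod3] at this
  · have := ht _ (tetra_mem 0 0); rw [Fin.sum_univ_four] at this; exact this
  · have := ht _ (tetra_mem 0 1); rw [Fin.sum_univ_four] at this; exact this
  · have := ht _ (tetra_mem 0 2); rw [Fin.sum_univ_four] at this; exact this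
  · have := ht _ (tetra_mem 1 0); rw [Fin.sum_univ_four] at this; exact this
  · have := ht _ (tetra_mem 1 1); rw [Fin.sum_univ_four] at this; exact this
  · have := ht _ (tetra_mem 1 2); rw [Fin.sum_univ_four] at this; exact this
  · have := ht _ (tetra_mem 2 0); rw [Fin.sum_univ_four] at this; exact this
  · have := ht _ (tetra_mem 2 1); rw [Fin.sum_univ_four] at this; exact this
  · have := ht _ (tetra_mem 2 2); rw [Fin.sum_univ_four] at this; exact this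

set_option synthInstance.maxSize 2048 in
theorem tkey : ∀ (x5 x7 x8 x9 x10 x11 s : ZMod 3),
    ((0 + 0 + 0 = -s ∧ 0 + 0 + x5 = -s ∧ 0 + x7 + x8 = -s ∧ x9 + x10 + x11 = -s) ∧
    (0 + 0 + 0 + x9 = s ∧ 0 + 0 + x7 + x11 = s ∧ 0 + 0 + x8 + x10 = s ∧ 0 + 0 + x7 + x10 = s ∧
     0 + 0 + x8 + x9 = s ∧ 0 + 0 + 0 + x11 = s ∧ 0 + x5 + x8 + x11 = s ∧ 0 + x5 + 0 + x10 = s ∧
     0 + x5 + x7 + x9 = s)) →
    x5 = 0 ∧ x7 = 0 ∧ x8 = 0 ∧ x9 = 0 ∧ x10 = 0 ∧ x11 = 0 := by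
  decide +kernel

theorem tword_pivots : ∀ a b c d e f : ZMod 3,
    tword a b c d e f (0, 0) = a ∧ tword a b c d e f (0, 1) = b ∧ tword a b c d e f (0, 2) = c ∧
    tword a b c d e f (1, 0) = d ∧ tword a b c d e f (1, 1) = e ∧ tword a b c d e f (2, 0) = f := by
  decide +kernel

theorem arrayPt_cases : ∀ p : ArrayPt, p = (0, 0) ∨ p = (0, 1) ∨ p = (0, 2) ∨ p = (1, 0) ∨
    p = (1, 1) ∨ p = (1, 2) ∨ p = (2, 0) ∨ p = (2, 1) ∨ p = (2, 2) ∨ p = (3, 0) ∨ p = (3, 1) ∨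
    p = (3, 2) := by
  decide +kernel

/-- A word of the code is determined by six of its coordinates. -/
theorem eq_tword_of_mem {x : ArrayPt → ZMod 3} (hx : x ∈ ternaryGolayCode) :
    x = tword (x (0, 0)) (x (0, 1)) (x (0, 2)) (x (1, 0)) (x (1, 1)) (x (2, 0)) := by
  set w := tword (x (0, 0)) (x (0, 1)) (x (0, 2)) (x (1, 0)) (x (1, 1)) (x (2, 0)) with hw
  have hwm : w ∈ ternaryGolayCode := tword_mem _ _ _ _ _ _
  obtain ⟨p0, p1, p2, p3, p4, p6⟩ :=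
    tword_pivots (x (0, 0)) (x (0, 1)) (x (0, 2)) (x (1, 0)) (x (1, 1)) (x (2, 0))
  rw [← hw] at p0 p1 p2 p3 p4 p6
  have hzm : x - w ∈ ternaryGolayCode := Submodule.sub_mem _ hx hwm
  obtain ⟨s, hc, ht⟩ := eqs_of_mem hzm
  have z0 : (x - w) (0, 0) = 0 := by rw [Pi.sub_apply, p0, sub_self]
  have z1 : (x - w) (0, 1) = 0 := by rw [Pi.sub_apply, p1, sub_self]
  have z2 : (x - w) (0, 2) = 0 := by rw [Pi.sub_apply, p2, sub_self]
  have z3 : (x - w) (1, 0) = 0 := by rw [Pi.sub_apply, p3, sub_self]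
  have z4 : (x - w) (1, 1) = 0 := by rw [Pi.sub_apply, p4, sub_self]
  have z6 : (x - w) (2, 0) = 0 := by rw [Pi.sub_apply, p6, sub_self]
  rw [z0, z1, z2, z3, z4, z6] at hc ht
  obtain ⟨z5, z7, z8, z9, z10, z11⟩ := tkey _ _ _ _ _ _ s ⟨hc, ht⟩
  have hz : x - w = 0 := by
    funext p
    rcases arrayPt_cases p with h | h | h | h | h | h | h | h | h | h | h | h <;> subst h
    · exact z0
    · exact z1
    · exact z2
    · exact z3
    · exact z4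
    · exact z5
    · exact z6
    · exact z7
    · exact z8
    · exact z9
    · exact z10
    · exact z11
  exact sub_eq_zero.mp hz

theorem mem_ternary_iff (x : ArrayPt → ZMod 3) :
    x ∈ ternaryGolayCode ↔ ∃ a b c d e f : ZMod 3, x = tword a b c d e f := by
  constructor
  · intro hx
    exact ⟨_, _, _, _, _, _, eq_tword_of_mem hx⟩
  · rintro ⟨a, b, c, d, e, f, rfl⟩
    exact tword_mem _ _ _ _ _ _

theorem tword_injective {a b c d e f a' b' c' d' e' f' : ZMod 3}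
    (h : tword a b c d e f = tword a' b' c' d' e' f') :
    a = a' ∧ b = b' ∧ c = c' ∧ d = d' ∧ e = e' ∧ f = f' := by
  obtain ⟨p0, p1, p2, p3, p4, p6⟩ := tword_pivots a b c d e f
  obtain ⟨q0, q1, q2, q3, q4, q6⟩ := tword_pivots a' b' c' d' e' f'
  rw [h] at p0 p1 p2 p3 p4 p6
  exact ⟨p0.symm.trans q0, p1.symm.trans q1, p2.symm.trans q2, p3.symm.trans q3,
    p4.symm.trans q4, p6.symm.trans q6⟩

/-- Coefficient tuples. -/
abbrev T6 : Type := ZMod 3 × ZMod 3 × ZMod 3 × ZMod 3 × ZMod 3 × ZMod 3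

/-- The word of a coefficient tuple. -/
def tw (t : T6) : ArrayPt → ZMod 3 :=
  tword t.1 t.2.1 t.2.2.1 t.2.2.2.1 t.2.2.2.2.1 t.2.2.2.2.2

theorem tw_injective : Function.Injective tw := by
  rintro ⟨a, b, c, d, e, f⟩ ⟨a', b', c', d', e', f'⟩ h
  obtain ⟨h0, h1, h2, h3, h4, h5⟩ := tword_injective h
  simp only [Prod.mk.injEq]
  exact ⟨h0, h1, h2, h3, h4, h5⟩

theorem mem_ternary_iff_tw (x : ArrayPt → ZMod 3) : x ∈ ternaryGolayCode ↔ ∃ t : T6, x = tw t := by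
  rw [mem_ternary_iff]
  constructor
  · rintro ⟨a, b, c, d, e, f, rfl⟩
    exact ⟨(a, b, c, d, e, f), rfl⟩
  · rintro ⟨⟨a, b, c, d, e, f⟩, rfl⟩
    exact ⟨a, b, c, d, e, f, rfl⟩

theorem tw_mem (t : T6) : tw t ∈ ternaryGolayCode := tword_mem _ _ _ _ _ _

theorem ternary_card : Nat.card ↥ternaryGolayCode = 729 := by
  have e : T6 ≃ ↥ternaryGolayCode := Equiv.ofBijective (fun t => ⟨tw t, tw_mem t⟩)
    ⟨fun t t' h => tw_injective (Subtype.mk.inj h), fun ⟨x, hx⟩ => by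
      obtain ⟨t, rfl⟩ := (mem_ternary_iff_tw x).mp hx
      exact ⟨t, rfl⟩⟩
  rw [← Nat.card_congr e, Nat.card_eq_fintype_card]
  simp [Fintype.card_prod, ZMod.card]

theorem ncard_code_filter (P : (ArrayPt → ZMod 3) → Prop) [DecidablePred P] :
    {x : ArrayPt → ZMod 3 | x ∈ ternaryGolayCode ∧ P x}.ncard =
      (Finset.univ.filter (fun t : T6 => P (tw t))).card := by
  have : {x : ArrayPt → ZMod 3 | x ∈ ternaryGolayCode ∧ P x} =
      tw '' ((Finset.univ.filter (fun t : T6 => P (tw t)) : Finset T6) : Set T6) := by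
    ext x
    simp only [Set.mem_ofPred_eq, Set.mem_image, Finset.coe_filter, Finset.mem_univ, true_and]
    constructor
    · rintro ⟨hx, hP⟩
      obtain ⟨t, rfl⟩ := (mem_ternary_iff_tw x).mp hx
      exact ⟨t, hP, rfl⟩
    · rintro ⟨t, hP, rfl⟩
      exact ⟨tw_mem t, hP⟩
  rw [this, Set.ncard_image_of_injective _ tw_injective, Set.ncard_coe_finset]

end Cfsg.Agent.Lib.Helper37
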