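import Mathlib
import Cfsg.Prelude.Def_SporadicCombinatorics
import Cfsg.Agent.Lib.Helper37.Ternary
import Cfsg.Agent.Lib.Helper37.Mask

set_option autoImplicit false

namespace Cfsg.Agent.Lib.Helper37

open Cfsg

/-- Index of an array position, in `0, …, 11`. -/
def aidx (p : ArrayPt) : ℕ := 3 * p.1.val + p.2.val

theorem aidx_inj : Function.Injective aidx := by
  have h : ∀ p q : ArrayPt, aidx p = aidx q → p = q := by decide +kernel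
  exact fun p q hpq => h p q hpq

theorem aidx_lt : ∀ p : ArrayPt, aidx p < 12 := by decide +kernel

theorem aidx_surj : ∀ i < 12, ∃ p : ArrayPt, aidx p = i := by decide +kernel

/-- The mask of the support of the word of a coefficient tuple. -/
def wmask (t : T6) : ℕ := mask aidx (ternarySupport (tw t))

def hexT : List T6 := [(1, 1, 1, 2, 2, 0), (0, 1, 2, 1, 2, 2), (1, 0, 2, 1, 0, 1), (1, 2, 0, 0, 1, 2), (1, 2, 0, 1, 2, 1), (0, 1, 2, 2, 0, 1), (1, 0, 2, 0, 2, 2), (1, 0, 2, 2, 1, 0), (1, 2, 0, 2, 0, 0), (0, 1, 2, 0, 1, 0), (1, 1, 1, 0, 0, 2), (0, 0, 0, 1, 1, 2), (1, 2, 2, 2, 0, 2), (0, 1, 1, 0, 1, 2), (1, 0, 0, 2, 1, 1), (1, 1, 0, 1, 1, 0), (1, 1, 2, 0, 0, 0), (0, 0, 1, 1, 1, 0), (1, 0, 1, 0, 2, 1), (0, 1, 0, 2, 0, 2), (1, 2, 1, 0, 1, 0), (1, 0, 1, 1, 0, 0), (0, 1, 0, 1, 2, 0), (0, 0, 1, 2, 2, 2), (1, 1, 0, 0, 0, 1), (0, 1, 1, 2, 0, 0),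 (1, 0, 0, 0, 2, 0), (1, 0, 0, 1, 0, 2), (0, 1, 0, 0, 1, 1), (0, 0, 1, 0, 0, 1), (1, 0, 1, 1, 1, 2), (1, 2, 1, 0, 0, 1), (0, 1, 0, 1, 1, 1), (1, 2, 2, 0, 2, 0), (0, 1, 1, 1, 0, 0), (1, 0, 0, 1, 2, 0), (1, 1, 0, 2, 0, 1), (0, 0, 1, 0, 2, 2), (1, 1, 2, 1, 0, 0), (1, 1, 0, 0, 1, 0), (0, 0, 1, 2, 1, 0), (0, 1, 1, 0, 2, 1), (1, 0, 0, 2, 0, 2), (0, 1, 0, 2, 2, 0), (1, 0, 1, 0, 0, 0), (0, 0, 1, 1, 0, 1), (1, 0, 0, 0, 1, 1), (0, 1, 0, 0, 0, 2), (0, 1, 2, 2, 1, 0), (1, 2, 0, 1, 0, 0), (1, 0, 2, 0, 1, 0), (1, 1, 0, 0, 2, 2), (0, 0, 1, 2, 0, 1), (1, 0, 1, 2, 0, 0), (0, 1, 0, 0, 2, 0), (0, 1, 2, 0, 0, 1), (0, 0, 0, 1, 2, 1), (1, 0, 0, 0, 0, 2), (1, 0, 0, 2, 2, 0), (0, 1, 1, 0, 0, 0), (1, 0, 2, 0, 0, 1), (0, 1, 0, 1, 0, 2), (0, 0, 0, 0, 1, 2), (1, 2, 0, 0, 0, 0), (0, 0, 1, 0, 1, 0), (0, 0, 0, 1, 0, 0), (1, 1, 2, 0, 1, 1), (1, 1, 0, 1, 0, 2), (0, 0, 1,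 1, 2, 1), (1, 2, 1, 1, 0, 0), (1, 0, 1, 0, 1, 0), (0, 1, 0, 2, 1, 0), (1, 0, 0, 2, 2, 2), (0, 1, 1, 0, 0, 1), (0, 1, 1, 1, 1, 0), (1, 2, 2, 0, 0, 0), (1, 0, 0, 1, 1, 0), (1, 0, 1, 2, 0, 1), (0, 1, 0, 0, 2, 2), (1, 1, 0, 0, 2, 0), (0, 0, 1, 2, 0, 0), (0, 1, 0, 1, 0, 1), (0, 0, 1, 0, 1, 2), (1, 0, 0, 0, 0, 1), (1, 0, 2, 1, 2, 0), (0, 1, 2, 1, 0, 0), (1, 2, 0, 0, 2, 0), (0, 1, 0, 2, 2, 1), (1, 0, 1, 0, 0, 2), (0, 1, 1, 0, 2, 0), (1, 0, 0, 2, 0, 0), (1, 2, 0, 0, 0, 1), (0, 0, 1, 1, 0, 2), (0, 0, 0, 0, 1, 1), (1, 1, 0, 2, 0, 0), (0, 0, 1, 0, 2, 0), (0, 1, 2, 0, 0, 2), (1, 0, 0, 0, 1, 2), (0, 0, 0, 1, 0, 1), (1, 0, 2, 0, 0, 0), (0, 0, 0, 1, 2, 0), (0, 1, 0, 0, 0, 0), (1, 2, 0, 2, 1, 0), (1, 0, 2, 2, 0, 0), (0, 1, 2, 0, 2, 0), (0, 1, 1, 2, 0, 2), (1, 0, 0, 0, 2, 1), (0, 0, 1, 2, 2, 0), (1, 1, 0, 0, 0, 0), (1, 0, 2, 0, 0, 2), (0, 1, 0, 0, 1, 2),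 (0, 0, 0, 1, 0, 2), (1, 0, 1, 0, 2, 0), (0, 1, 0, 2, 0, 0), (1, 2, 0, 0, 0, 2), (0, 0, 0, 1, 2, 2), (0, 0, 1, 0, 0, 2), (0, 1, 2, 0, 0, 0), (1, 0, 0, 1, 0, 0), (0, 0, 0, 0, 1, 0), (1, 1, 1, 0, 0, 0), (0, 0, 0, 1, 1, 0), (1, 0, 0, 1, 0, 1), (0, 0, 1, 0, 1, 1), (0, 1, 0, 0, 0, 1), (0, 1, 0, 1, 0, 0), (1, 0, 0, 0, 1, 0), (0, 0, 1, 0, 0, 0), (0, 0, 1, 1, 0, 0), (0, 1, 0, 0, 1, 0), (1, 0, 0, 0, 0, 0), (0, 0, 0, 0, 0, 1)]

def hexL : List ℕ := [63, 222, 237, 243, 347, 366, 373, 413, 427, 438, 455, 504, 591, 630, 633, 667, 679, 700, 725, 746, 791, 813, 826, 860, 867, 910, 945, 969, 978, 996, 1117, 1127, 1146, 1175, 1198, 1209, 1227, 1268, 1295, 1331, 1340, 1366, 1385, 1434, 1445, 1484, 1489, 1506, 1566, 1579, 1589, 1619, 1644, 1677, 1714, 1734, 1752, 1761, 1817, 1830, 1861, 1866, 1904, 1923, 1940, 1960, 2135, 2155, 2172, 2191, 2229, 2234, 2265,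 2278, 2334, 2343, 2361, 2381, 2418, 2451, 2476, 2506, 2516, 2529, 2589, 2606, 2611, 2650, 2661, 2710, 2729, 2755, 2764, 2800, 2827, 2868, 2886, 2897, 2920, 2949, 2968, 2978, 3099, 3117, 3126, 3150, 3185, 3228, 3235, 3269, 3282, 3304, 3349, 3370, 3395, 3416, 3428, 3462, 3465, 3504, 3591, 3640, 3657, 3668, 3682, 3722, 3729, 3748, 3852, 3858, 3873, 4032]

theorem hexT_map : hexT.map wmask = hexL := by decide +kernel

theorem hexT_card : ∀ t ∈ hexT, (ternarySupport (tw t)).card = 6 := by decide +kernel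

theorem hexL_complete : ∀ t : T6, (ternarySupport (tw t)).card = 6 → wmask t ∈ hexL := by
  decide +kernel

theorem hexL_nodup : hexL.Nodup := by decide +kernel

theorem hexL_lt : ∀ b ∈ hexL, b < 2 ^ 12 := by decide +kernel

theorem hexL_length : hexL.length = 132 := by decide +kernel

theorem hexL_steiner : (List.range 4096).all (fun m => popN 12 m != 5 ||
    (hexL.filter (fun b => m &&& b == m)).length == 1) = true := by decide +kernel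

/-- The family of supports of weight-6 words. -/
def hexads12 : Set (Finset ArrayPt) :=
  {h : Finset ArrayPt | ∃ x ∈ ternaryGolayCode, ternarySupport x = h ∧ h.card = 6}

theorem mem_hexads12_iff (h : Finset ArrayPt) : h ∈ hexads12 ↔ ∃ b ∈ hexL, h = dec aidx b := by
  constructor
  · rintro ⟨x, hx, rfl, hc⟩
    obtain ⟨t, rfl⟩ := (mem_ternary_iff_tw x).mp hx
    exact ⟨wmask t, hexL_complete t hc, (dec_mask aidx_inj _).symm⟩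
  · rintro ⟨b, hb, rfl⟩
    rw [← hexT_map] at hb
    obtain ⟨t, ht, rfl⟩ := List.mem_map.mp hb
    refine ⟨tw t, tw_mem t, ?_, ?_⟩
    · exact (dec_mask aidx_inj _).symm
    · rw [wmask, dec_mask aidx_inj]
      exact hexT_card t ht

theorem hexads12_card {h : Finset ArrayPt} (hh : h ∈ hexads12) : h.card = 6 := by
  obtain ⟨x, -, -, hc⟩ := hh
  exact hc

theorem hexads12_ncard : hexads12.ncard = 132 := by
  have : hexads12 = dec aidx '' ((hexL.toFinset : Finset ℕ) : Set ℕ) := by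
    ext h
    rw [mem_hexads12_iff]
    simp only [Set.mem_image, Finset.mem_coe, List.mem_toFinset]
    constructor
    · rintro ⟨b, hb, rfl⟩; exact ⟨b, hb, rfl⟩
    · rintro ⟨b, hb, rfl⟩; exact ⟨b, hb, rfl⟩
  rw [this, Set.InjOn.ncard_image, Set.ncard_coe_finset, List.toFinset_card_of_nodup hexL_nodup,
    hexL_length]
  intro a ha b hb hab
  simp only [Finset.mem_coe, List.mem_toFinset] at ha hb
  exact dec_inj aidx_surj (hexL_lt a ha) (hexL_lt b hb) hab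

theorem hexads12_steiner : IsSteinerSystem 5 6 hexads12 := by
  refine ⟨fun b hb => hexads12_card hb, ?_⟩
  intro s hs
  have hm : mask aidx s < 2 ^ 12 := mask_lt aidx_lt s
  have hpop : popN 12 (mask aidx s) = 5 := by
    rw [← card_dec aidx_inj aidx_lt aidx_surj, dec_mask aidx_inj, hs]
  have hall := List.all_eq_true.mp hexL_steiner (mask aidx s) (List.mem_range.mpr hm)
  rw [hpop] at hall
  simp only [bne_self_eq_false, Bool.false_or, beq_iff_eq] at hall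
  obtain ⟨b, hb⟩ := List.length_eq_one_iff.mp hall
  have hbm : b ∈ hexL.filter (fun b => mask aidx s &&& b == mask aidx s) := by
    rw [hb]; exact List.mem_singleton.mpr rfl
  obtain ⟨hbL, hbs⟩ := List.mem_filter.mp hbm
  rw [beq_iff_eq] at hbs
  refine ⟨dec aidx b, ⟨(mem_hexads12_iff _).mpr ⟨b, hbL, rfl⟩, ?_⟩, ?_⟩
  · have := (dec_subset_iff (idx := aidx) aidx_surj (b := b) hm).mpr hbs
    rwa [dec_mask aidx_inj] at this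
  · rintro c ⟨hc, hsc⟩
    obtain ⟨b', hb', rfl⟩ := (mem_hexads12_iff _).mp hc
    have hsub : dec aidx (mask aidx s) ⊆ dec aidx b' := by rwa [dec_mask aidx_inj]
    have hand := (dec_subset_iff (idx := aidx) aidx_surj (b := b') hm).mp hsub
    have hb'm : b' ∈ hexL.filter (fun b => mask aidx s &&& b == mask aidx s) :=
      List.mem_filter.mpr ⟨hb', by rw [beq_iff_eq]; exact hand⟩
    rw [hb] at hb'm
    rw [List.mem_singleton.mp hb'm]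

end Cfsg.Agent.Lib.Helper37
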