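import Mathlib
import Cfsg.Prelude.Def_GeometricClasses
import Cfsg.Prelude.Def_LieClassical
import Cfsg.Agent.Lib.Helper71.Asch0
import Cfsg.Agent.Lib.Helper46.SUPU8c
import Cfsg.Agent.Lib.Helper94.O9TWS

/-! Project U9 (helper44; S5832), piece SWAP (helper37): a swap element of `SU_9(q)` in the
stabiliser of the tensor square but not in the tensor product group. -/

set_option autoImplicit false

namespace Cfsg.Agent.Lib.Helper44.U9

open Matrix Cfsg.Geo Cfsg.Agent.Lib.Helper71.Asch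
open scoped Kronecker

variable {n : ℕ} {F : Type*} [Field F] [Fintype F] {q : ℕ}

/-- the swap matrix `x ⊗ y ↦ B y ⊗ A x` -/
def SWAP_M (B A : Matrix (Fin 3) (Fin 3) F) : Matrix (Fin 3 × Fin 3) (Fin 3 × Fin 3) F :=
  fun p r => B p.1 r.2 * A p.2 r.1

omit [Fintype F] in
theorem SWAP_M_mul (B A D C : Matrix (Fin 3) (Fin 3) F) :
    SWAP_M B A * SWAP_M D C = (B * C) ⊗ₖ (A * D) := by
  ext ⟨i, j⟩ ⟨k, l⟩
  rw [Matrix.kronecker_apply]
  simp only [Matrix.mul_apply, Fintype.sum_prod_type, SWAP_M, Fin.sum_univ_three]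
  ring

omit [Fintype F] in
theorem SWAP_gram (σ : F →+* F) (G₁ G₂ B A : Matrix (Fin 3) (Fin 3) F) :
    (SWAP_M B A)ᵀ * (G₁ ⊗ₖ G₂) * (SWAP_M B A).map σ =
      (Aᵀ * G₂ * A.map σ) ⊗ₖ (Bᵀ * G₁ * B.map σ) := by
  ext ⟨k, l⟩ ⟨k', l'⟩
  rw [Matrix.kronecker_apply]
  simp only [Matrix.mul_apply, Fintype.sum_prod_type, SWAP_M, Matrix.transpose_apply,
    Matrix.map_apply, Matrix.kronecker_apply, map_mul, Fin.sum_univ_three]
  ring

omit [Fintype F] in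
theorem SWAP_form {κ : Type} [Fintype κ] [DecidableEq κ] (σ : F →+* F) (G N : Matrix κ κ F)
    (x y : κ → F) :
    formOfGram (fun c : F => σ c) G (N *ᵥ x) (N *ᵥ y) =
      formOfGram (fun c : F => σ c) (Nᵀ * G * N.map σ) x y := by
  have h1 : ∀ (G' : Matrix κ κ F) (x' y' : κ → F),
      formOfGram (fun c : F => σ c) G' x' y' = x' ⬝ᵥ (G' *ᵥ (fun b => σ (y' b))) := by
    intro G' x' y'
    unfold formOfGram
    simp only [dotProduct, Matrix.mulVec, Finset.mul_sum, mul_assoc]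
  rw [h1, h1]
  have h2 : (fun b => σ ((N *ᵥ y) b)) = N.map σ *ᵥ (fun b => σ (y b)) := by
    funext b
    simp only [Matrix.mulVec, dotProduct, map_sum, map_mul, Matrix.map_apply]
  have h3 : ∀ (w : κ → F), (N *ᵥ x) ⬝ᵥ w = x ⬝ᵥ (Nᵀ *ᵥ w) := by
    intro w
    rw [Matrix.dotProduct_mulVec, Matrix.vecMul_transpose]
  rw [h2, h3, Matrix.mulVec_mulVec, Matrix.mulVec_mulVec, Matrix.mul_assoc]

theorem SWAP_core (hF : Fintype.card F = q ^ 2) (e : Fin 9 ≃ Fin 3 × Fin 3) (P : GL (Fin 9) F)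
    (G₁ G₂ : Matrix (Fin 3) (Fin 3) F)
    (hid : ∀ x y : Fin 3 × Fin 3 → F,
      Cfsg.hermForm 9 F q (P.1 *ᵥ (x ∘ e)) (P.1 *ᵥ (y ∘ e)) =
        formOfGram (fun c : F => c ^ q) (G₁ ⊗ₖ G₂) x y)
    (A B : GL (Fin 3) F)
    (hG : (A.1ᵀ * G₂ * A.1.map (Cfsg.Agent.Lib.Helper46.SUPU8c.U8c_sig hF)) ⊗ₖ
      (B.1ᵀ * G₁ * B.1.map (Cfsg.Agent.Lib.Helper46.SUPU8c.U8c_sig hF)) = G₁ ⊗ₖ G₂)
    (hdet : (SWAP_M B.1 A.1).det = 1) :
    ∃ s : GL (Fin 9) F, s ∈ Cfsg.GU 9 F q ⊓ specialLinear (Fin 9) F ∧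
      s ∈ tensorWreathSubgroup 3 2 (e.trans (finTwoArrowEquiv (Fin 3)).symm) P ∧
      s ∉ tensorProductSubgroup 3 3 e P := by
  classical
  obtain ⟨y, hy⟩ : ∃ y : GL (Fin 3 × Fin 3) F, y.1 = SWAP_M B.1 A.1 := by
    refine ⟨⟨SWAP_M B.1 A.1, SWAP_M (A⁻¹ : GL (Fin 3) F).1 (B⁻¹ : GL (Fin 3) F).1, ?_, ?_⟩, rfl⟩
    · rw [SWAP_M_mul, ← Units.val_mul, ← Units.val_mul, mul_inv_cancel, mul_inv_cancel,
        Units.val_one, Matrix.one_kronecker_one]
    · rw [SWAP_M_mul, ← Units.val_mul, ← Units.val_mul, inv_mul_cancel, inv_mul_cancel,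
        Units.val_one, Matrix.one_kronecker_one]
  obtain ⟨s, hs⟩ : ∃ s : GL (Fin 9) F, s = P * glReindex e.symm y * P⁻¹ := ⟨_, rfl⟩
  have hsval : s.1 = P.1 * Matrix.reindex e.symm e.symm (SWAP_M B.1 A.1) *
      (P⁻¹ : GL (Fin 9) F).1 := by
    rw [hs, Units.val_mul, Units.val_mul, ← hy]
    rfl
  have hPP : (P⁻¹ : GL (Fin 9) F).1 * P.1 = 1 := by
    rw [← Units.val_mul, inv_mul_cancel, Units.val_one]
  -- action on vectors
  have hact : ∀ x : Fin 3 × Fin 3 → F,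
      s.1 *ᵥ (P.1 *ᵥ (x ∘ e)) = P.1 *ᵥ ((SWAP_M B.1 A.1 *ᵥ x) ∘ e) := by
    intro x
    have h1 : Matrix.reindex e.symm e.symm (SWAP_M B.1 A.1) *ᵥ (x ∘ e) =
        (SWAP_M B.1 A.1 *ᵥ x) ∘ e := by
      funext i
      simp only [Matrix.mulVec, dotProduct, Matrix.reindex_apply, Matrix.submatrix_apply,
        Equiv.symm_symm, Function.comp_apply]
      exact Fintype.sum_equiv e _ _ (fun j => rfl)
    rw [hsval, ← h1, Matrix.mulVec_mulVec, Matrix.mulVec_mulVec]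
    congr 1
    simp only [Matrix.mul_assoc]
    rw [hPP, Matrix.mul_one]
  have hrep : ∀ u : Fin 9 → F, ∃ x : Fin 3 × Fin 3 → F, u = P.1 *ᵥ (x ∘ e) := by
    intro u
    refine ⟨fun p => ((P⁻¹ : GL (Fin 9) F).1 *ᵥ u) (e.symm p), ?_⟩
    have h1 : ((fun p => ((P⁻¹ : GL (Fin 9) F).1 *ᵥ u) (e.symm p)) ∘ e) =
        (P⁻¹ : GL (Fin 9) F).1 *ᵥ u := by
      funext i
      simp
    rw [h1, Matrix.mulVec_mulVec, ← Units.val_mul, mul_inv_cancel, Units.val_one,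
      Matrix.one_mulVec]
  have hGU : s ∈ Cfsg.GU 9 F q := by
    intro u v
    obtain ⟨x, rfl⟩ := hrep u
    obtain ⟨x', rfl⟩ := hrep v
    show Cfsg.hermForm 9 F q (s.1 *ᵥ _) (s.1 *ᵥ _) = _
    rw [hact, hact, hid, hid]
    have h1 := SWAP_form (Cfsg.Agent.Lib.Helper46.SUPU8c.U8c_sig hF) (G₁ ⊗ₖ G₂)
      (SWAP_M B.1 A.1) x x'
    rw [SWAP_gram, hG] at h1
    exact h1
  have hSL : s ∈ specialLinear (Fin 9) F := by
    unfold specialLinear
    rw [MonoidHom.mem_ker]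
    apply Units.ext
    rw [Matrix.GeneralLinearGroup.val_det_apply, hsval, Matrix.det_mul, Matrix.det_mul,
      Matrix.det_reindex_self, hdet, Units.val_one, mul_one, ← Matrix.det_mul, ← Units.val_mul,
      mul_inv_cancel, Units.val_one, Matrix.det_one]
  have hTW : s ∈ tensorWreathSubgroup 3 2 (e.trans (finTwoArrowEquiv (Fin 3)).symm) P := by
    obtain ⟨ε, hε⟩ : ∃ ε : Fin 3 × Fin 3 ≃ (Fin 2 → Fin 3),
      ε = (finTwoArrowEquiv (Fin 3)).symm := ⟨_, rfl⟩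
    rw [← hε]
    have hεs : ∀ u : Fin 2 → Fin 3, ε.symm u = (u 0, u 1) := by
      intro u
      rw [hε]
      rfl
    have hx : glReindex ε y ∈ tensorWreathStandard 3 2 F := by
      obtain ⟨y₁, hy₁⟩ : ∃ y₁ : GL (Fin 2 → Fin 3) F,
          y₁.1 = Cfsg.Agent.Lib.Helper44.O9.TWS_f1 B.1 A.1 := by
        refine ⟨⟨Cfsg.Agent.Lib.Helper44.O9.TWS_f1 B.1 A.1,
          Cfsg.Agent.Lib.Helper44.O9.TWS_f1 (B⁻¹ : GL (Fin 3) F).1 (A⁻¹ : GL (Fin 3) F).1,
          ?_, ?_⟩, rfl⟩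
        · rw [Cfsg.Agent.Lib.Helper44.O9.TWS_11, ← Units.val_mul, ← Units.val_mul,
            mul_inv_cancel, mul_inv_cancel, Units.val_one, Cfsg.Agent.Lib.Helper44.O9.TWS_one]
        · rw [Cfsg.Agent.Lib.Helper44.O9.TWS_11, ← Units.val_mul, ← Units.val_mul,
            inv_mul_cancel, inv_mul_cancel, Units.val_one, Cfsg.Agent.Lib.Helper44.O9.TWS_one]
      obtain ⟨y₂, hy₂⟩ : ∃ y₂ : GL (Fin 2 → Fin 3) F,
          y₂.1 = Cfsg.Agent.Lib.Helper44.O9.TWS_f2 1 1 := by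
        refine ⟨⟨Cfsg.Agent.Lib.Helper44.O9.TWS_f2 1 1, Cfsg.Agent.Lib.Helper44.O9.TWS_f2 1 1,
          ?_, ?_⟩, rfl⟩
        · rw [Cfsg.Agent.Lib.Helper44.O9.TWS_22, mul_one, Cfsg.Agent.Lib.Helper44.O9.TWS_one]
        · rw [Cfsg.Agent.Lib.Helper44.O9.TWS_22, mul_one, Cfsg.Agent.Lib.Helper44.O9.TWS_one]
      have h1 : y₁ ∈ tensorWreathStandard 3 2 F := by
        apply Subgroup.subset_closure
        left
        refine ⟨![B, A], fun u v => ?_⟩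
        rw [Fin.prod_univ_two, hy₁]
        rfl
      have h2 : y₂ ∈ tensorWreathStandard 3 2 F := by
        apply Subgroup.subset_closure
        right
        refine ⟨Equiv.swap 0 1, fun u v => ?_⟩
        rw [hy₂]
        simp only [Cfsg.Agent.Lib.Helper44.O9.TWS_f2, Matrix.one_apply]
        have hiff : v = u ∘ (Equiv.swap 0 1 : Equiv.Perm (Fin 2)) ↔ (u 0 = v 1 ∧ u 1 = v 0) := by
          constructor
          · intro h
            constructor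
            · rw [h, Function.comp_apply, Equiv.swap_apply_right]
            · rw [h, Function.comp_apply, Equiv.swap_apply_left]
          · rintro ⟨h0, h1⟩
            funext i
            fin_cases i
            · simp [h1]
            · simp [h0]
        by_cases h0 : u 0 = v 1 <;> by_cases h1 : u 1 = v 0 <;> simp [hiff, h0, h1]
      have h3 : glReindex ε y = y₁ * y₂ := by
        apply Units.ext
        rw [Units.val_mul, hy₁, hy₂, Cfsg.Agent.Lib.Helper44.O9.TWS_12, mul_one, mul_one]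
        show Matrix.reindexAlgEquiv F F ε y.1 = _
        rw [hy]
        ext u v
        rw [Matrix.coe_reindexAlgEquiv, Matrix.reindex_apply, Matrix.submatrix_apply, hεs, hεs]
        rfl
      rw [h3]
      exact Subgroup.mul_mem _ h1 h2
    unfold tensorWreathSubgroup
    refine ⟨glReindex (e.trans ε).symm (glReindex ε y), ⟨glReindex ε y, hx, rfl⟩, ?_⟩
    apply Units.ext
    show (P * glReindex (e.trans ε).symm (glReindex ε y) * P⁻¹ : GL (Fin 9) F).1 = _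
    rw [Units.val_mul, Units.val_mul, hsval]
    have h2 : ((glReindex (e.trans ε).symm (glReindex ε y) : GL (Fin 9) F) :
        Matrix (Fin 9) (Fin 9) F) = Matrix.reindex e.symm e.symm (SWAP_M B.1 A.1) := by
      show Matrix.reindexAlgEquiv F F (e.trans ε).symm (Matrix.reindexAlgEquiv F F ε y.1) = _
      rw [hy]
      ext i j
      simp [Matrix.coe_reindexAlgEquiv, Matrix.reindex_apply, Matrix.submatrix_apply]
    rw [h2]
  have hnot : s ∉ tensorProductSubgroup 3 3 e P := by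
    rw [mem_tensorProductSubgroup_iff]
    rintro ⟨a, b, hab⟩
    rw [hsval] at hab
    unfold tmat at hab
    have hc : ∀ R : Matrix (Fin 9) (Fin 9) F,
        (P⁻¹ : GL (Fin 9) F).1 * (P.1 * R * (P⁻¹ : GL (Fin 9) F).1) * P.1 = R := by
      intro R
      calc (P⁻¹ : GL (Fin 9) F).1 * (P.1 * R * (P⁻¹ : GL (Fin 9) F).1) * P.1
          = ((P⁻¹ : GL (Fin 9) F).1 * P.1) * R * ((P⁻¹ : GL (Fin 9) F).1 * P.1) := by
            simp only [Matrix.mul_assoc]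
        _ = R := by rw [hPP, Matrix.one_mul, Matrix.mul_one]
    have h1 : Matrix.reindex e.symm e.symm (SWAP_M B.1 A.1) =
        Matrix.reindex e.symm e.symm (a.1 ⊗ₖ b.1) := by
      have h0 : (P⁻¹ : GL (Fin 9) F).1 * (P.1 * Matrix.reindex e.symm e.symm (SWAP_M B.1 A.1) *
          (P⁻¹ : GL (Fin 9) F).1) * P.1 = (P⁻¹ : GL (Fin 9) F).1 *
          (P.1 * Matrix.reindex e.symm e.symm (a.1 ⊗ₖ b.1) * (P⁻¹ : GL (Fin 9) F).1) * P.1 := by
        rw [hab]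
      rw [hc, hc] at h0
      exact h0
    have h2 : SWAP_M B.1 A.1 = a.1 ⊗ₖ b.1 := (Matrix.reindex e.symm e.symm).injective h1
    have h3 : ∀ i j k l, B.1 i l * A.1 j k = a.1 i k * b.1 j l := by
      intro i j k l
      have h0 := congrFun (congrFun h2 (i, j)) (k, l)
      rw [Matrix.kronecker_apply] at h0
      exact h0
    obtain ⟨j₀, k₀, hjk⟩ : ∃ j k, A.1 j k ≠ 0 := by
      by_contra hcon
      have hA0 : A.1 = 0 := by
        ext j k
        by_contra hne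
        exact hcon ⟨j, k, hne⟩
      have h1 : A.1 * (A⁻¹ : GL (Fin 3) F).1 = 1 := by
        rw [← Units.val_mul, mul_inv_cancel, Units.val_one]
      rw [hA0, Matrix.zero_mul] at h1
      have h2 := congrFun (congrFun h1 0) 0
      simp at h2
    have hmin : ∀ i i' l l', B.1 i l * B.1 i' l' = B.1 i l' * B.1 i' l := by
      intro i i' l l'
      have e1 := h3 i j₀ k₀ l
      have e2 := h3 i' j₀ k₀ l'
      have e3 := h3 i j₀ k₀ l'
      have e4 := h3 i' j₀ k₀ l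
      have h4 : (B.1 i l * A.1 j₀ k₀) * (B.1 i' l' * A.1 j₀ k₀) =
          (B.1 i l' * A.1 j₀ k₀) * (B.1 i' l * A.1 j₀ k₀) := by
        rw [e1, e2, e3, e4]
        ring
      have h5 : (B.1 i l * B.1 i' l' - B.1 i l' * B.1 i' l) * (A.1 j₀ k₀ * A.1 j₀ k₀) = 0 := by
        linear_combination h4
      rcases mul_eq_zero.mp h5 with h6 | h6
      · exact sub_eq_zero.mp h6
      · exact absurd (mul_self_eq_zero.mp h6) hjk
    have hdetB : B.1.det = 0 := by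
      rw [Matrix.det_fin_three]
      linear_combination B.1 0 0 * hmin 1 2 1 2 - B.1 0 1 * hmin 1 2 0 2 + B.1 0 2 * hmin 1 2 0 1
    have hunit : IsUnit B.1.det := (Matrix.isUnit_iff_isUnit_det _).mp ⟨B, rfl⟩
    rw [hdetB] at hunit
    exact not_isUnit_zero hunit
  exact ⟨s, ⟨hGU, hSL⟩, hTW, hnot⟩

/-- SWAP: the stabiliser in `SU_9(q)` of a tensor product decomposition `3 ⊗ 3` with forms is
properly contained in the stabiliser of the tensor square: a swap element. -/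
theorem SWAP (hF : Fintype.card F = q ^ 2) (e : Fin 9 ≃ Fin 3 × Fin 3) (P : GL (Fin 9) F)
    (G₁ G₂ : Matrix (Fin 3) (Fin 3) F)
    (hid : ∀ x y : Fin 3 × Fin 3 → F,
      Cfsg.hermForm 9 F q (P.1 *ᵥ (x ∘ e)) (P.1 *ᵥ (y ∘ e)) =
        formOfGram (fun c : F => c ^ q) (G₁ ⊗ₖ G₂) x y)
    (A : GL (Fin 3) F) (c : F) (hc : c ≠ 0)
    (hA : A.1ᵀ * G₂ * A.1.map (fun x : F => x ^ q) = c • G₁) :
    ∃ s : GL (Fin 9) F, s ∈ Cfsg.GU 9 F q ⊓ specialLinear (Fin 9) F ∧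
      s ∈ tensorWreathSubgroup 3 2 (e.trans (finTwoArrowEquiv (Fin 3)).symm) P ∧
      s ∉ tensorProductSubgroup 3 3 e P := by
  classical
  have hA' : A.1ᵀ * G₂ * A.1.map (Cfsg.Agent.Lib.Helper46.SUPU8c.U8c_sig hF) = c • G₁ := hA
  have hAi : (A⁻¹ : GL (Fin 3) F).1ᵀ * G₁ *
      (A⁻¹ : GL (Fin 3) F).1.map (Cfsg.Agent.Lib.Helper46.SUPU8c.U8c_sig hF) = c⁻¹ • G₂ := by
    have h1 : (A⁻¹ : GL (Fin 3) F).1ᵀ *
        (A.1ᵀ * G₂ * A.1.map (Cfsg.Agent.Lib.Helper46.SUPU8c.U8c_sig hF)) *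
        (A⁻¹ : GL (Fin 3) F).1.map (Cfsg.Agent.Lib.Helper46.SUPU8c.U8c_sig hF) = G₂ := by
      have e1 : (A⁻¹ : GL (Fin 3) F).1ᵀ * A.1ᵀ = 1 := by
        rw [← Matrix.transpose_mul, ← Units.val_mul, mul_inv_cancel, Units.val_one,
          Matrix.transpose_one]
      have e2 : A.1.map (Cfsg.Agent.Lib.Helper46.SUPU8c.U8c_sig hF) *
          (A⁻¹ : GL (Fin 3) F).1.map (Cfsg.Agent.Lib.Helper46.SUPU8c.U8c_sig hF) = 1 := by
        rw [← Matrix.map_mul, ← Units.val_mul, mul_inv_cancel, Units.val_one,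
          Matrix.map_one _ (map_zero _) (map_one _)]
      calc (A⁻¹ : GL (Fin 3) F).1ᵀ *
            (A.1ᵀ * G₂ * A.1.map (Cfsg.Agent.Lib.Helper46.SUPU8c.U8c_sig hF)) *
            (A⁻¹ : GL (Fin 3) F).1.map (Cfsg.Agent.Lib.Helper46.SUPU8c.U8c_sig hF)
          = ((A⁻¹ : GL (Fin 3) F).1ᵀ * A.1ᵀ) * G₂ *
            (A.1.map (Cfsg.Agent.Lib.Helper46.SUPU8c.U8c_sig hF) *
              (A⁻¹ : GL (Fin 3) F).1.map (Cfsg.Agent.Lib.Helper46.SUPU8c.U8c_sig hF)) := by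
            simp only [Matrix.mul_assoc]
        _ = G₂ := by rw [e1, e2, Matrix.one_mul, Matrix.mul_one]
    rw [hA', Matrix.mul_smul, Matrix.smul_mul] at h1
    rw [← h1, smul_smul, inv_mul_cancel₀ hc, one_smul]
  have hG : (A.1ᵀ * G₂ * A.1.map (Cfsg.Agent.Lib.Helper46.SUPU8c.U8c_sig hF)) ⊗ₖ
      ((A⁻¹ : GL (Fin 3) F).1ᵀ * G₁ *
        (A⁻¹ : GL (Fin 3) F).1.map (Cfsg.Agent.Lib.Helper46.SUPU8c.U8c_sig hF)) = G₁ ⊗ₖ G₂ := by
    rw [hA', hAi, Matrix.smul_kronecker, Matrix.kronecker_smul, smul_smul, mul_inv_cancel₀ hc,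
      one_smul]
  have hMM : SWAP_M (A⁻¹ : GL (Fin 3) F).1 A.1 * SWAP_M (A⁻¹ : GL (Fin 3) F).1 A.1 = 1 := by
    rw [SWAP_M_mul, ← Units.val_mul, ← Units.val_mul, inv_mul_cancel, mul_inv_cancel,
      Units.val_one, Matrix.one_kronecker_one]
  have hd : (SWAP_M (A⁻¹ : GL (Fin 3) F).1 A.1).det * (SWAP_M (A⁻¹ : GL (Fin 3) F).1 A.1).det
      = 1 := by
    rw [← Matrix.det_mul, hMM, Matrix.det_one]
  rcases mul_self_eq_one_iff.mp hd with h1 | h1
  · exact SWAP_core hF e P G₁ G₂ hid A A⁻¹ hG h1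
  · have hneg : SWAP_M (-(A⁻¹ : GL (Fin 3) F)).1 A.1 = -SWAP_M (A⁻¹ : GL (Fin 3) F).1 A.1 := by
      ext p r
      simp [SWAP_M]
    have hnegmap : (-(A⁻¹ : GL (Fin 3) F).1).map (Cfsg.Agent.Lib.Helper46.SUPU8c.U8c_sig hF) =
        -((A⁻¹ : GL (Fin 3) F).1.map (Cfsg.Agent.Lib.Helper46.SUPU8c.U8c_sig hF)) := by
      ext i j
      simp [Matrix.map_apply]
    refine SWAP_core hF e P G₁ G₂ hid A (-A⁻¹) ?_ ?_
    · rw [Units.val_neg, Matrix.transpose_neg, hnegmap]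
      simp only [Matrix.neg_mul, Matrix.mul_neg, neg_neg]
      exact hG
    · rw [hneg, Matrix.det_neg, h1, Fintype.card_prod, Fintype.card_fin]
      norm_num

end Cfsg.Agent.Lib.Helper44.U9
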